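import Cfsg.Agent.Lib.HJSyl.Klein

set_option autoImplicit false
set_option linter.unusedSectionVars false
set_option linter.unusedVariables false
set_option linter.style.longLine false

/-! General tools for the Sylow structure of groups of Hall-Janko type. -/

namespace Cfsg.Agent.Lib.HJSyl.Basic

open Subgroup Cfsg.Agent.Lib.HJSyl.Klein
open scoped Pointwise

/-- Central extension version of the Klein lemma. -/
theorem card_of_central {K : Type*} [Group K] [Finite K] (Y V L : Subgroup K)
    (hYc : ∀ c ∈ Y, ∀ g : K, c * g = g * c) (hYodd : Odd (Nat.card Y))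
    (hV4 : Nat.card V = 4) (hVsq : ∀ x ∈ V, x * x = 1)
    (hC : ∀ r ∈ V, r ≠ 1 → ∀ g : K, g * r = r * g → ∃ v ∈ V, ∃ c ∈ Y, g = v * c)
    (hN : ∀ g ∈ normalizer (V : Set K), ∃ l ∈ L, ∃ c ∈ Y, g = l * c)
    (hL : Nat.card L = 12) (hLN : L ≤ normalizer (V : Set K)) (hLY : ∀ x ∈ L, x ∈ Y → x = 1) :
    Nat.card K = 12 * Nat.card Y ∨ Nat.card K = 60 * Nat.card Y := by
  classical
  haveI hYn : Y.Normal := ⟨fun c hc g => by
    have := hYc c hc g
    have h2 : g * c * g⁻¹ = c := by rw [← this]; group
    rw [h2]; exact hc⟩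
  -- elements of `Y` of square one
  have hY1 : ∀ c ∈ Y, c * c = 1 → c = 1 := by
    intro c hc hcc
    have h1 : orderOf (⟨c, hc⟩ : Y) ∣ Nat.card Y := orderOf_dvd_natCard _
    have h2 : orderOf (⟨c, hc⟩ : Y) ∣ 2 := orderOf_dvd_of_pow_eq_one (by
      rw [sq]; exact Subtype.ext hcc)
    have h3 : Nat.Coprime 2 (Nat.card Y) := by
      rw [Nat.coprime_two_left]; exact hYodd
    have h4 : orderOf (⟨c, hc⟩ : Y) = 1 := Nat.eq_one_of_dvd_coprimes h3 h2 h1
    rw [orderOf_eq_one_iff] at h4
    exact congrArg Subtype.val h4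
  let π := QuotientGroup.mk' Y
  have hπ : ∀ x y : K, π x = π y ↔ ∃ c ∈ Y, x = y * c := by
    intro x y
    constructor
    · intro h
      have h1 : y⁻¹ * x ∈ Y := QuotientGroup.eq.mp h.symm
      exact ⟨_, h1, by group⟩
    · rintro ⟨c, hc, rfl⟩
      exact (QuotientGroup.eq.mpr (by simpa using hc)).symm
  have hinvol : ∀ r r' c : K, r * r = 1 → r' * r' = 1 → c ∈ Y → r = r' * c → r = r' := by
    intro r r' c hr hr' hc e
    have h1 : c * c = 1 := by
      have h2 := hr
      rw [e] at h2
      have h3 := hYc c hc r'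
      calc c * c = (r' * r') * (c * c) := by rw [hr']; group
        _ = r' * (r' * c) * c := by group
        _ = r' * (c * r') * c := by rw [h3]
        _ = r' * c * (r' * c) := by group
        _ = 1 := h2
    rw [e, hY1 c hc h1, mul_one]
  have hVinj : Function.Injective (π.comp V.subtype) := by
    rw [injective_iff_map_eq_one]
    rintro ⟨x, hx⟩ h
    have h1 : x ∈ Y := (QuotientGroup.eq_one_iff x).mp h
    exact Subtype.ext (hY1 x h1 (hVsq x hx))
  have hLinj : Function.Injective (π.comp L.subtype) := by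
    rw [injective_iff_map_eq_one]
    rintro ⟨x, hx⟩ h
    have h1 : x ∈ Y := (QuotientGroup.eq_one_iff x).mp h
    exact Subtype.ext (hLY x hx h1)
  have hVmap : V.map π = (π.comp V.subtype).range := by
    rw [MonoidHom.range_comp, range_subtype]
  have hLmap : L.map π = (π.comp L.subtype).range := by
    rw [MonoidHom.range_comp, range_subtype]
  have hnorm : ∀ g : K, π g ∈ normalizer ((V.map π : Subgroup (K ⧸ Y)) : Set (K ⧸ Y)) → g ∈ normalizer (V : Set K) := by
    have step : ∀ g : K, π g ∈ normalizer ((V.map π : Subgroup (K ⧸ Y)) : Set (K ⧸ Y)) → ∀ v ∈ V, g * v * g⁻¹ ∈ V := by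
      intro g hg v hv
      have h1 : π g * π v * (π g)⁻¹ ∈ V.map π := (mem_normalizer_iff.mp hg (π v)).mp ⟨v, hv, rfl⟩
      obtain ⟨v', hv', e⟩ := h1
      have h2 : π (g * v * g⁻¹) = π v' := by rw [e]; simp
      obtain ⟨c, hc, e2⟩ := (hπ _ _).mp h2
      have h3 : (g * v * g⁻¹) * (g * v * g⁻¹) = 1 := by
        calc (g * v * g⁻¹) * (g * v * g⁻¹) = g * (v * v) * g⁻¹ := by group
          _ = 1 := by rw [hVsq v hv]; group
      rw [hinvol _ _ c h3 (hVsq v' hv') hc e2]
      exact hv'
    intro g hg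
    rw [mem_normalizer_iff]
    intro h
    refine ⟨fun hh => step g hg h hh, fun hh => ?_⟩
    have := step g⁻¹ (by rw [map_inv]; exact inv_mem hg) _ hh
    simpa [mul_assoc] using this
  have hKL : KL (V.map π) := by
    refine ⟨?_, ?_, ?_, ?_⟩
    · rw [hVmap, ← hV4]
      exact (Nat.card_congr (MonoidHom.ofInjective hVinj).toEquiv).symm
    · rintro _ ⟨x, hx, rfl⟩
      rw [← map_mul, hVsq x hx, map_one]
    · rintro _ ⟨r, hr, rfl⟩ hr1 gq hgq
      obtain ⟨g, rfl⟩ := QuotientGroup.mk'_surjective Y gq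
      have hr1' : r ≠ 1 := by
        rintro rfl
        exact hr1 (map_one _)
      have h1 : π (g * r * g⁻¹) = π r := by
        rw [map_mul, map_mul, map_inv]
        change π g * π r * (π g)⁻¹ = π r
        rw [show (π g) = (QuotientGroup.mk' Y) g from rfl, hgq]
        group
      obtain ⟨c, hc, e2⟩ := (hπ _ _).mp h1
      have h3 : (g * r * g⁻¹) * (g * r * g⁻¹) = 1 := by
        calc (g * r * g⁻¹) * (g * r * g⁻¹) = g * (r * r) * g⁻¹ := by group
          _ = 1 := by rw [hVsq r hr]; group
      have h4 := hinvol _ _ c h3 (hVsq r hr) hc e2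
      have h5 : g * r = r * g := by
        calc g * r = (g * r * g⁻¹) * g := by group
          _ = r * g := by rw [h4]
      obtain ⟨v, hv, c1, hc1, e3⟩ := hC r hr hr1' g h5
      refine ⟨v, hv, ?_⟩
      exact ((hπ _ _).mpr ⟨c1, hc1, e3⟩).symm
    · have heq : normalizer ((V.map π : Subgroup (K ⧸ Y)) : Set (K ⧸ Y)) = L.map π := by
        apply le_antisymm
        · intro gq hgq
          obtain ⟨g, rfl⟩ := QuotientGroup.mk'_surjective Y gq
          obtain ⟨l, hl, c, hc, e⟩ := hN g (hnorm g hgq)
          exact ⟨l, hl, ((hπ _ _).mpr ⟨c, hc, e⟩).symm⟩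
        · rintro _ ⟨l, hl, rfl⟩
          have hl' := hLN hl
          rw [mem_normalizer_iff]
          rintro _
          constructor
          · rintro ⟨v, hv, rfl⟩
            refine ⟨l * v * l⁻¹, (mem_normalizer_iff.mp hl' v).mp hv, ?_⟩
            simp
          · rintro ⟨v, hv, e⟩
            have hv2 : l⁻¹ * v * l ∈ V := by
              have := (mem_normalizer_iff.mp (inv_mem hl') v).mp hv
              simpa using this
            rename_i x
            refine ⟨l⁻¹ * v * l, hv2, ?_⟩
            have h9 : x = (π l)⁻¹ * (π l * x * (π l)⁻¹) * π l := by group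
            conv_rhs => rw [h9]
            rw [← show (π v) = _ from e]
            simp
      rw [heq, hLmap, ← hL]
      exact (Nat.card_congr (MonoidHom.ofInjective hLinj).toEquiv).symm
  have hmul : Nat.card K = Nat.card (K ⧸ Y) * Nat.card Y := Subgroup.card_eq_card_quotient_mul_card_subgroup Y
  rcases card_of_KL hKL with h | h
  · left; rw [hmul, h]
  · right; rw [hmul, h]

/-- Orbit of a subgroup under conjugation by a subgroup. -/
theorem card_orbit {G : Type*} [Group G] [Finite G] (T L : Subgroup G) :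
    Nat.card (Set.range fun t : T => (MulAut.conj (t : G) • L : Subgroup G)) * Nat.card ↥(T ⊓ normalizer (L : Set G)) = Nat.card T := by
  classical
  letI : MulAction T (Subgroup G) := MulAction.compHom (Subgroup G) (MulAut.conj.comp T.subtype)
  have hsmul : ∀ (t : T) (H : Subgroup G), t • H = (MulAut.conj (t : G) • H : Subgroup G) := fun _ _ => rfl
  have h1 := Nat.card_congr (MulAction.orbitProdStabilizerEquivGroup T L)
  rw [Nat.card_prod] at h1
  have h2 : MulAction.orbit T L = Set.range fun t : T => (MulAut.conj (t : G) • L : Subgroup G) := rfl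
  rw [h2] at h1
  have h3 : Nat.card (MulAction.stabilizer T L) = Nat.card ↥(T ⊓ normalizer (L : Set G)) := by
    refine Nat.card_congr ⟨fun x => ⟨x.1.1, mem_inf.mpr ⟨x.1.2, ?_⟩⟩, fun x => ⟨⟨x.1, (mem_inf.mp x.2).1⟩, ?_⟩, fun x => rfl, fun x => rfl⟩
    · have h4 : (x.1 : T) • L = L := x.2
      rw [hsmul] at h4
      rw [mem_normalizer_iff_map_conj_eq]
      exact h4
    · have h4 := (mem_inf.mp x.2).2
      rw [mem_normalizer_iff_map_conj_eq] at h4
      rw [MulAction.mem_stabilizer_iff]
      exact h4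
  rw [h3] at h1
  exact h1

/-- Orbit of an element under conjugation. -/
theorem card_orbit_elt {G : Type*} [Group G] [Finite G] (T : Subgroup G) (x : G) :
    Nat.card (Set.range fun t : T => (t : G) * x * (t : G)⁻¹) * Nat.card ↥(T ⊓ centralizer ({x} : Set G)) = Nat.card T := by
  classical
  letI : MulAction T G := MulAction.compHom G (MulAut.conj.comp T.subtype)
  have hsmul : ∀ (t : T) (y : G), t • y = (t : G) * y * (t : G)⁻¹ := fun _ _ => rfl
  have h1 := Nat.card_congr (MulAction.orbitProdStabilizerEquivGroup T x)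
  rw [Nat.card_prod] at h1
  have h2 : MulAction.orbit T x = Set.range fun t : T => (t : G) * x * (t : G)⁻¹ := rfl
  rw [h2] at h1
  have h3 : Nat.card (MulAction.stabilizer T x) = Nat.card ↥(T ⊓ centralizer ({x} : Set G)) := by
    refine Nat.card_congr ⟨fun y => ⟨y.1.1, mem_inf.mpr ⟨y.1.2, ?_⟩⟩, fun y => ⟨⟨y.1, (mem_inf.mp y.2).1⟩, ?_⟩, fun y => rfl, fun y => rfl⟩
    · have h4 : (y.1 : T) • x = x := y.2
      rw [hsmul] at h4
      rw [mem_centralizer_singleton_iff]
      calc (y.1 : G) * x = ((y.1 : G) * x * (y.1 : G)⁻¹) * y.1 := by group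
        _ = x * y.1 := by rw [h4]
    · have h4 := (mem_inf.mp y.2).2
      rw [mem_centralizer_singleton_iff] at h4
      rw [MulAction.mem_stabilizer_iff]
      change (y : G) * x * (y : G)⁻¹ = x
      rw [h4]; group
  rw [h3] at h1
  exact h1

/-- The automizer of a subgroup of prime order five. -/
theorem card_norm_dvd {G : Type*} [Group G] [Finite G] (T : Subgroup G) (y : G) (hy : orderOf y = 5) :
    ∃ e, e ∣ 4 ∧ Nat.card ↥(T ⊓ normalizer ((zpowers y : Subgroup G) : Set G)) = e * Nat.card ↥(T ⊓ centralizer ({y} : Set G)) := by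
  classical
  let L : Subgroup G := zpowers y
  let D : Subgroup G := T ⊓ normalizer (L : Set G)
  have hLc : Nat.card L = 5 := by rw [Nat.card_zpowers, hy]
  let f : D →* MulAut L := (normalizerMonoidHom L).comp (Subgroup.inclusion (inf_le_right : D ≤ normalizer (L : Set G)))
  have hker : ∀ d : D, f d = 1 ↔ (d : G) ∈ centralizer ({y} : Set G) := by
    intro d
    constructor
    · intro h
      have h1 : f d ⟨y, mem_zpowers y⟩ = ⟨y, mem_zpowers y⟩ := by rw [h]; rfl
      have h2 : (d : G) * y * (d : G)⁻¹ = y := congrArg Subtype.val h1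
      rw [mem_centralizer_singleton_iff]
      calc (d : G) * y = ((d : G) * y * (d : G)⁻¹) * d := by group
        _ = y * d := by rw [h2]
    · intro h
      rw [mem_centralizer_singleton_iff] at h
      ext ⟨x, hx⟩
      obtain ⟨k, rfl⟩ := mem_zpowers_iff.mp hx
      change (d : G) * y ^ k * (d : G)⁻¹ = y ^ k
      have h2 : Commute (d : G) y := h
      rw [(h2.zpow_right k).eq]; group
  have hcard : Nat.card f.range * Nat.card f.ker = Nat.card D := by
    have h1 := Subgroup.card_eq_card_quotient_mul_card_subgroup f.ker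
    rw [Nat.card_congr (QuotientGroup.quotientKerEquivRange f).toEquiv] at h1
    exact h1.symm
  have hkerc : Nat.card f.ker = Nat.card ↥(T ⊓ centralizer ({y} : Set G)) := by
    refine Nat.card_congr ⟨fun x => ⟨x.1.1, mem_inf.mpr ⟨(mem_inf.mp x.1.2).1, (hker x.1).mp x.2⟩⟩,
      fun x => ⟨⟨x.1, mem_inf.mpr ⟨(mem_inf.mp x.2).1, ?_⟩⟩, ?_⟩, fun x => rfl, fun x => rfl⟩
    · have h := (mem_inf.mp x.2).2
      rw [mem_centralizer_singleton_iff] at h
      have h2 : Commute (x : G) y := h
      rw [mem_normalizer_iff]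
      intro w
      constructor
      · intro hw
        obtain ⟨k, rfl⟩ := mem_zpowers_iff.mp hw
        rw [(h2.zpow_right k).eq]
        have h8 : y ^ k * (x : G) * (x : G)⁻¹ = y ^ k := by group
        rw [h8]
        exact (zpowers y).zpow_mem (mem_zpowers y) k
      · intro hw
        obtain ⟨k, hk⟩ := mem_zpowers_iff.mp hw
        have : w = y ^ k := by
          have h3 : w = (x : G)⁻¹ * ((x : G) * w * (x : G)⁻¹) * x := by group
          rw [h3, ← hk]
          have h4 : Commute ((x : G)⁻¹) y := h2.inv_left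
          rw [(h4.zpow_right k).eq]; group
        rw [this]
        exact (zpowers y).zpow_mem (mem_zpowers y) k
    · rw [MonoidHom.mem_ker, hker]
      exact (mem_inf.mp x.2).2
  have hdvd : Nat.card f.range ∣ 4 := by
    have h1 : Nat.card f.range ∣ Nat.card (MulAut L) := Subgroup.card_subgroup_dvd_card _
    haveI : IsCyclic L := inferInstance
    have h2 : Nat.card (MulAut L) = Nat.totient 5 := by
      rw [← hLc]; exact IsCyclic.card_mulAut L
    have h3 : Nat.totient 5 = 4 := by decide
    rwa [h2, h3] at h1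
  exact ⟨_, hdvd, by rw [← hkerc]; exact hcard.symm⟩

/-- Fixed point free involutive automorphism modulo a subgroup. -/
theorem comm_mod_of_fpf {O : Type*} [Group O] [Finite O] (Y : Subgroup O) [Y.Normal] (θ : O →* O)
    (hθθ : ∀ x, θ (θ x) = x) (hθY : ∀ c ∈ Y, θ c = c) (hfix : ∀ g, θ g = g → g ∈ Y)
    (hodd : Odd (Nat.card O)) (g h : O) : g * h * g⁻¹ * h⁻¹ ∈ Y := by
  classical
  have hY1 : ∀ c : O, c * c = 1 → c = 1 := by
    intro c hcc
    have h1 : orderOf c ∣ Nat.card O := orderOf_dvd_natCard _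
    have h2 : orderOf c ∣ 2 := orderOf_dvd_of_pow_eq_one (by rw [sq]; exact hcc)
    have h3 : Nat.Coprime 2 (Nat.card O) := by
      rw [Nat.coprime_two_left]; exact hodd
    have h4 : orderOf c = 1 := Nat.eq_one_of_dvd_coprimes h3 h2 h1
    rwa [orderOf_eq_one_iff] at h4
  let A := O ⧸ Y
  let φ : A →* A := QuotientGroup.map Y Y θ (by
    intro c hc
    rw [mem_comap, hθY c hc]; exact hc)
  have hφ : ∀ x : O, φ (x : A) = ((θ x : O) : A) := fun x => rfl
  have hφφ : ∀ a : A, φ (φ a) = a := by
    intro a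
    obtain ⟨x, rfl⟩ := QuotientGroup.mk_surjective a
    rw [hφ, hφ, hθθ]
  have hφfix : ∀ a : A, φ a = a → a = 1 := by
    intro a ha
    obtain ⟨x, rfl⟩ := QuotientGroup.mk_surjective a
    rw [hφ] at ha
    have h1 : x⁻¹ * θ x ∈ Y := QuotientGroup.eq.mp ha.symm
    set c := x⁻¹ * θ x with hc
    have h2 : θ x = x * c := by rw [hc]; group
    have h3 : x = x * c * c := by
      have h4 := hθθ x
      rw [h2, map_mul, h2, hθY c h1] at h4
      exact h4.symm
    have h5 : c * c = 1 := by
      have h6 : x * (c * c) = x * 1 := by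
        rw [mul_one, ← mul_assoc]; exact h3.symm
      exact mul_left_cancel h6
    have h7 : c = 1 := hY1 c h5
    rw [h7, mul_one] at h2
    exact (QuotientGroup.eq_one_iff x).mpr (hfix x h2)
  let F : A → A := fun a => a⁻¹ * φ a
  have hFinj : Function.Injective F := by
    intro a b hab
    have h1 : a⁻¹ * φ a = b⁻¹ * φ b := hab
    have h2 : φ (b * a⁻¹) = b * a⁻¹ := by
      rw [map_mul, map_inv]
      calc φ b * (φ a)⁻¹ = b * (b⁻¹ * φ b) * (φ a)⁻¹ := by group
        _ = b * (a⁻¹ * φ a) * (φ a)⁻¹ := by rw [h1]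
        _ = b * a⁻¹ := by group
    have h3 := hφfix _ h2
    have h4 : b = a := by
      calc b = b * a⁻¹ * a := by group
        _ = a := by rw [h3]; group
    exact h4.symm
  have hFsurj : Function.Surjective F := Finite.surjective_of_injective hFinj
  have hinv : ∀ a : A, φ a = a⁻¹ := by
    intro a
    obtain ⟨b, rfl⟩ := hFsurj a
    change φ (b⁻¹ * φ b) = (b⁻¹ * φ b)⁻¹
    rw [map_mul, map_inv, hφφ]
    group
  have hab : ∀ a b : A, a * b = b * a := by
    intro a b
    have h1 := hinv (b * a)
    rw [map_mul, hinv, hinv] at h1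
    have h2 : (a * b)⁻¹ = (b * a)⁻¹ := by
      rw [mul_inv_rev, h1]
    exact inv_injective h2
  have h1 : ((g * h * g⁻¹ * h⁻¹ : O) : A) = 1 := by
    change (g : A) * h * (g : A)⁻¹ * (h : A)⁻¹ = 1
    rw [hab (g : A) h]
    group
  exact (QuotientGroup.eq_one_iff _).mp h1

/-- The number of subgroups of order `5` of a group of order `25` is at most `6`. -/
theorem lines_le_six {G : Type*} [Group G] [Finite G] (P : Subgroup G) (hP : Nat.card P = 25) (𝓢 : Finset (Subgroup G))
    (h𝓢 : ∀ L ∈ 𝓢, L ≤ P ∧ Nat.card L = 5) : 𝓢.card ≤ 6 := by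
  classical
  haveI : Fact (Nat.Prime 5) := ⟨by norm_num⟩
  have hfin : Fintype G := Fintype.ofFinite G
  -- the elements different from 1
  let E : Finset G := (Finset.univ.filter (· ∈ P)).erase 1
  have hE : E.card = 24 := by
    have h1 : (Finset.univ.filter (· ∈ P)).card = 25 := by
      rw [← hP, Nat.card_eq_fintype_card, Fintype.card_subtype]
    rw [Finset.card_erase_of_mem (by simp [P.one_mem]), h1]
  let e : Subgroup G → Finset G := fun L => (Finset.univ.filter (· ∈ L)).erase 1
  have he : ∀ L ∈ 𝓢, (e L).card = 4 := by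
    intro L hL
    have h1 : (Finset.univ.filter (· ∈ L)).card = 5 := by
      rw [← (h𝓢 L hL).2, Nat.card_eq_fintype_card, Fintype.card_subtype]
    rw [Finset.card_erase_of_mem (by simp [L.one_mem]), h1]
  have hdisj : (𝓢 : Set (Subgroup G)).PairwiseDisjoint e := by
    intro L hL L' hL' hne
    rw [Function.onFun, Finset.disjoint_left]
    intro x hx hx'
    simp only [e, Finset.mem_erase, Finset.mem_filter, Finset.mem_univ, true_and] at hx hx'
    apply hne
    -- both are generated by `x`
    have hcx : ∀ M : Subgroup G, Nat.card M = 5 → x ∈ M → x ≠ 1 → zpowers x = M := by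
      intro M hM hxM hx1
      apply Subgroup.eq_of_le_of_card_ge
      · rw [zpowers_le]; exact hxM
      · rw [Nat.card_zpowers, hM]
        have h1 : orderOf x ∣ Nat.card M := by
          have := orderOf_dvd_natCard (⟨x, hxM⟩ : M)
          rwa [Subgroup.orderOf_mk] at this
        rw [hM] at h1
        rcases (Nat.dvd_prime (by norm_num : Nat.Prime 5)).mp h1 with h | h
        · rw [orderOf_eq_one_iff] at h; exact absurd h hx1
        · rw [h]
    rw [← hcx L (h𝓢 L hL).2 hx.2 hx.1, hcx L' (h𝓢 L' hL').2 hx'.2 hx'.1]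
  have hsub : 𝓢.biUnion e ⊆ E := by
    intro x hx
    rw [Finset.mem_biUnion] at hx
    obtain ⟨L, hL, hxL⟩ := hx
    simp only [e, E, Finset.mem_erase, Finset.mem_filter, Finset.mem_univ, true_and] at hxL ⊢
    exact ⟨hxL.1, (h𝓢 L hL).1 hxL.2⟩
  have hc := Finset.card_le_card hsub
  rw [Finset.card_biUnion hdisj, Finset.sum_congr rfl he, hE] at hc
  simp only [Finset.sum_const, smul_eq_mul] at hc
  omega

end Cfsg.Agent.Lib.HJSyl.Basic
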