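import Cfsg.Agent.Lib.HJSyl.Setup

set_option autoImplicit false
set_option linter.unusedSectionVars false
set_option linter.unusedVariables false
set_option linter.style.longLine false

/-! The Sylow 5-structure of a group of Hall-Janko type. -/

namespace Cfsg.Agent.Lib.HJSyl.Five

open Subgroup Cfsg.Agent.Lib.HJSyl.Klein Cfsg.Agent.Lib.HJSyl.Basic Cfsg.Agent.Lib.HJSyl.Setup
open scoped Pointwise

variable {G : Type*} [Group G] [Finite G]

theorem order_conj (h x : G) : orderOf (h * x * h⁻¹) = orderOf x := by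
  rw [← MulAut.conj_apply, MulEquiv.orderOf_eq]

theorem mem_norm_subgroupOf {K H : Subgroup G} (hHK : H ≤ K) (k : K) :
    k ∈ normalizer ((H.subgroupOf K : Subgroup K) : Set K) ↔ (k : G) ∈ normalizer (H : Set G) := by
  rw [mem_normalizer_iff, mem_normalizer_iff]
  constructor
  · intro h x
    constructor
    · intro hx
      have := (h ⟨x, hHK hx⟩).mp (by rw [mem_subgroupOf]; exact hx)
      rw [mem_subgroupOf] at this
      exact this
    · intro hx
      have h2 : x = (k : G)⁻¹ * ((k : G) * x * (k : G)⁻¹) * k := by group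
      have h3 : x ∈ K := by
        rw [h2]
        exact K.mul_mem (K.mul_mem (K.inv_mem k.2) (hHK hx)) k.2
      have := (h ⟨x, h3⟩).mpr (by rw [mem_subgroupOf]; exact hx)
      rw [mem_subgroupOf] at this
      exact this
  · intro h x
    rw [mem_subgroupOf, mem_subgroupOf]
    exact h x

theorem card_norm_subgroupOf {K H : Subgroup G} (hHK : H ≤ K) :
    Nat.card (normalizer ((H.subgroupOf K : Subgroup K) : Set K)) = Nat.card ↥(K ⊓ normalizer (H : Set G)) := by
  refine Nat.card_congr ⟨fun x => ⟨x.1.1, mem_inf.mpr ⟨x.1.2, (mem_norm_subgroupOf hHK x.1).mp x.2⟩⟩,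
    fun x => ⟨⟨x.1, (mem_inf.mp x.2).1⟩, (mem_norm_subgroupOf hHK _).mpr (mem_inf.mp x.2).2⟩, fun x => rfl, fun x => rfl⟩

section

variable (hG : Nat.card G = 604800)
include hG

theorem card_syl5 (P : Sylow 5 G) : Nat.card P = 25 := by
  haveI : Fact (Nat.Prime 5) := ⟨by norm_num⟩
  rw [P.card_eq_multiplicity, hG, factorization_eq (m := 24192) (k := 2) (by norm_num) (by norm_num) (by norm_num)]
  norm_num

theorem syl5_comm (P : Sylow 5 G) {a b : G} (ha : a ∈ (P : Subgroup G)) (hb : b ∈ (P : Subgroup G)) : a * b = b * a := by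
  haveI : Fact (Nat.Prime 5) := ⟨by norm_num⟩
  have h := IsPGroup.commutative_of_card_eq_prime_sq (p := 5) (G := (P : Subgroup G)) (by rw [card_syl5 hG P]; norm_num) ⟨a, ha⟩ ⟨b, hb⟩
  exact congrArg Subtype.val h

/-- Elements of a Sylow 5-subgroup of square one are trivial. -/
theorem syl5_sq (P : Sylow 5 G) {a : G} (ha : a ∈ (P : Subgroup G)) (h2 : a * a = 1) : a = 1 := by
  have h1 : orderOf (⟨a, ha⟩ : (P : Subgroup G)) ∣ 25 := by
    rw [← card_syl5 hG P]; exact orderOf_dvd_natCard _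
  have h3 : orderOf (⟨a, ha⟩ : (P : Subgroup G)) ∣ 2 := orderOf_dvd_of_pow_eq_one (by
    rw [sq]; exact Subtype.ext h2)
  have h4 := Nat.eq_one_of_dvd_coprimes (by norm_num : Nat.Coprime 2 25) h3 h1
  rw [orderOf_eq_one_iff] at h4
  exact congrArg Subtype.val h4

theorem exists_two {V : Subgroup G} (h : Nat.card V = 4) : ∃ a ∈ V, ∃ b ∈ V, a ≠ 1 ∧ b ≠ 1 ∧ a ≠ b := by
  have h2 : 2 < Nat.card V := by omega
  cases nonempty_fintype V
  rw [Nat.card_eq_fintype_card] at h2
  obtain ⟨a, b, c, hab, hac, hbc⟩ := (Fintype.two_lt_card_iff).mp h2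
  by_cases ha : (a : G) = 1
  · refine ⟨b, b.2, c, c.2, ?_, ?_, ?_⟩
    · intro e; exact hab (Subtype.ext (by rw [ha, e]))
    · intro e; exact hac (Subtype.ext (by rw [ha, e]))
    · intro e; exact hbc (Subtype.ext e)
  by_cases hb : (b : G) = 1
  · refine ⟨a, a.2, c, c.2, ha, ?_, ?_⟩
    · intro e; exact hbc (Subtype.ext (by rw [hb, e]))
    · intro e; exact hac (Subtype.ext e)
  · exact ⟨a, a.2, b, b.2, ha, hb, fun e => hab (Subtype.ext e)⟩

/-- If `V` normalizes `P` we get a contradiction. -/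
theorem V_not_norm {t : G} {V L4 L5 : Subgroup G} (h : TData t V L4 L5) (P : Sylow 5 G) {y : G} (hyL : y ∈ L5)
    (hy5 : orderOf y = 5) (hyP : y ∈ (P : Subgroup G)) (hVN : V ≤ normalizer ((P : Subgroup G) : Set G)) : False := by
  have hcomm : ∀ {a b : G}, a ∈ (P : Subgroup G) → b ∈ (P : Subgroup G) → a * b = b * a := fun ha hb => syl5_comm hG P ha hb
  have hzpP : zpowers y ≤ (P : Subgroup G) := by rw [zpowers_le]; exact hyP
  have hfix : ∀ r ∈ V, r ≠ 1 → ∀ f ∈ (P : Subgroup G), r * f = f * r → f ∈ zpowers y := by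
    intro r hr hr1 f hf hrf
    obtain ⟨v, hv, c, hc, e⟩ := h.cent_ry hyL (Or.inr hy5) hr hr1 hrf.symm (hcomm hf hyP)
    have hvP : v ∈ (P : Subgroup G) := by
      have : v = f * c⁻¹ := by rw [e]; group
      rw [this]
      exact mul_mem hf (inv_mem (hzpP hc))
    have hv1 := syl5_sq hG P hvP (h.sq_V v hv)
    rw [e, hv1, one_mul]
    exact hc
  obtain ⟨r₁, hr₁, r₂, hr₂, hr₁1, hr₂1, hne⟩ := exists_two hG h.card_V
  have hr11 := h.sq_V r₁ hr₁
  have hr22 := h.sq_V r₂ hr₂
  have hinv₁ : r₁⁻¹ = r₁ := inv_eq_of_mul_eq_one_left hr11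
  have hinv₂ : r₂⁻¹ = r₂ := inv_eq_of_mul_eq_one_left hr22
  have hr₃ : r₁ * r₂ ∈ V := mul_mem hr₁ hr₂
  have hr33 := h.sq_V _ hr₃
  have hinv₃ : (r₁ * r₂)⁻¹ = r₁ * r₂ := inv_eq_of_mul_eq_one_left hr33
  have hr₃1 : r₁ * r₂ ≠ 1 := by
    intro e
    apply hne
    rw [← hinv₂]
    exact eq_inv_of_mul_eq_one_left e
  have hr12 : r₂ * r₁ = r₁ * r₂ := by
    have : (r₁ * r₂)⁻¹ = r₂⁻¹ * r₁⁻¹ := mul_inv_rev _ _
    rw [hinv₃, hinv₁, hinv₂] at this
    exact this.symm
  have hconj : ∀ r ∈ V, ∀ x ∈ (P : Subgroup G), r * x * r⁻¹ ∈ (P : Subgroup G) := fun r hr x hx =>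
    (mem_normalizer_iff.mp (hVN hr) x).mp hx
  have hsq : ∀ x ∈ (P : Subgroup G), x * x ∈ zpowers y := by
    intro x hx
    set c₁ := r₁ * x * r₁ with hc₁
    set c₂ := r₂ * x * r₂ with hc₂
    set c₃ := (r₁ * r₂) * x * (r₁ * r₂) with hc₃
    have hc₁P : c₁ ∈ (P : Subgroup G) := by
      have := hconj r₁ hr₁ x hx
      rwa [hinv₁] at this
    have hc₂P : c₂ ∈ (P : Subgroup G) := by
      have := hconj r₂ hr₂ x hx
      rwa [hinv₂] at this
    have hc₃P : c₃ ∈ (P : Subgroup G) := by
      have := hconj _ hr₃ x hx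
      rwa [hinv₃] at this
    -- conjugation formulas
    have e11 : r₁ * c₁ = x * r₁ := by
      calc r₁ * c₁ = (r₁ * r₁) * x * r₁ := by rw [hc₁]; group
        _ = x * r₁ := by rw [hr11]; group
    have e1x : r₁ * x = c₁ * r₁ := by
      calc r₁ * x = r₁ * x * (r₁ * r₁) := by rw [hr11]; group
        _ = c₁ * r₁ := by rw [hc₁]; group
    have e22 : r₂ * c₂ = x * r₂ := by
      calc r₂ * c₂ = (r₂ * r₂) * x * r₂ := by rw [hc₂]; group
        _ = x * r₂ := by rw [hr22]; group
    have e2x : r₂ * x = c₂ * r₂ := by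
      calc r₂ * x = r₂ * x * (r₂ * r₂) := by rw [hr22]; group
        _ = c₂ * r₂ := by rw [hc₂]; group
    have e33 : (r₁ * r₂) * c₃ = x * (r₁ * r₂) := by
      calc (r₁ * r₂) * c₃ = ((r₁ * r₂) * (r₁ * r₂)) * x * (r₁ * r₂) := by rw [hc₃]; group
        _ = x * (r₁ * r₂) := by rw [hr33]; group
    have e3x : (r₁ * r₂) * x = c₃ * (r₁ * r₂) := by
      calc (r₁ * r₂) * x = (r₁ * r₂) * x * ((r₁ * r₂) * (r₁ * r₂)) := by rw [hr33]; group
        _ = c₃ * (r₁ * r₂) := by rw [hc₃]; group
    have e1c2 : r₁ * c₂ = c₃ * r₁ := by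
      calc r₁ * c₂ = (r₁ * r₂) * x * r₂ := by rw [hc₂]; group
        _ = c₃ * (r₁ * r₂) * r₂ := by rw [e3x]
        _ = c₃ * r₁ * (r₂ * r₂) := by group
        _ = c₃ * r₁ := by rw [hr22]; group
    have e1c3 : r₁ * c₃ = c₂ * r₁ := by
      calc r₁ * c₃ = (r₁ * r₁) * (r₂ * x) * r₁ * r₂ := by rw [hc₃]; group
        _ = (r₁ * r₁) * (c₂ * r₂) * r₁ * r₂ := by rw [e2x]
        _ = c₂ * (r₂ * r₁) * r₂ := by rw [hr11]; group
        _ = c₂ * (r₁ * r₂) * r₂ := by rw [hr12]
        _ = c₂ * r₁ * (r₂ * r₂) := by group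
        _ = c₂ * r₁ := by rw [hr22]; group
    have e2c3 : r₂ * c₃ = c₁ * r₂ := by
      calc r₂ * c₃ = (r₂ * r₁) * r₂ * x * (r₁ * r₂) := by rw [hc₃]; group
        _ = (r₁ * r₂) * r₂ * x * (r₁ * r₂) := by rw [hr12]
        _ = r₁ * (r₂ * r₂) * x * (r₁ * r₂) := by group
        _ = r₁ * x * (r₁ * r₂) := by rw [hr22]; group
        _ = c₁ * r₁ * (r₁ * r₂) := by rw [e1x]
        _ = c₁ * (r₁ * r₁) * r₂ := by group
        _ = c₁ * r₂ := by rw [hr11]; group
    -- the fixed elements
    have ha₁ : x * c₁ ∈ zpowers y := by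
      apply hfix r₁ hr₁ hr₁1 _ (mul_mem hx hc₁P)
      calc r₁ * (x * c₁) = (r₁ * x) * c₁ := by group
        _ = c₁ * r₁ * c₁ := by rw [e1x]
        _ = c₁ * (r₁ * c₁) := by group
        _ = c₁ * (x * r₁) := by rw [e11]
        _ = (c₁ * x) * r₁ := by group
        _ = (x * c₁) * r₁ := by rw [hcomm hc₁P hx]
    have ha₂ : x * c₂ ∈ zpowers y := by
      apply hfix r₂ hr₂ hr₂1 _ (mul_mem hx hc₂P)
      calc r₂ * (x * c₂) = (r₂ * x) * c₂ := by group
        _ = c₂ * r₂ * c₂ := by rw [e2x]
        _ = c₂ * (r₂ * c₂) := by group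
        _ = c₂ * (x * r₂) := by rw [e22]
        _ = (c₂ * x) * r₂ := by group
        _ = (x * c₂) * r₂ := by rw [hcomm hc₂P hx]
    have ha₃ : x * c₃ ∈ zpowers y := by
      apply hfix _ hr₃ hr₃1 _ (mul_mem hx hc₃P)
      calc (r₁ * r₂) * (x * c₃) = ((r₁ * r₂) * x) * c₃ := by group
        _ = c₃ * (r₁ * r₂) * c₃ := by rw [e3x]
        _ = c₃ * ((r₁ * r₂) * c₃) := by group
        _ = c₃ * (x * (r₁ * r₂)) := by rw [e33]
        _ = (c₃ * x) * (r₁ * r₂) := by group
        _ = (x * c₃) * (r₁ * r₂) := by rw [hcomm hc₃P hx]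
    have hb : x * c₁ * c₂ * c₃ ∈ zpowers y := by
      apply hfix r₁ hr₁ hr₁1 _ (mul_mem (mul_mem (mul_mem hx hc₁P) hc₂P) hc₃P)
      calc r₁ * (x * c₁ * c₂ * c₃) = (r₁ * x) * c₁ * c₂ * c₃ := by group
        _ = c₁ * (r₁ * c₁) * c₂ * c₃ := by rw [e1x]; group
        _ = c₁ * x * (r₁ * c₂) * c₃ := by rw [e11]; group
        _ = c₁ * x * c₃ * (r₁ * c₃) := by rw [e1c2]; group
        _ = c₁ * x * c₃ * c₂ * r₁ := by rw [e1c3]; group
        _ = x * c₁ * c₂ * c₃ * r₁ := by
          have h1 : c₁ * x = x * c₁ := hcomm hc₁P hx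
          have h2 : c₃ * c₂ = c₂ * c₃ := hcomm hc₃P hc₂P
          rw [h1, mul_assoc (x * c₁) c₃ c₂, h2]; group
    have hprod : x * x = (x * c₁) * (x * c₂) * (x * c₃) * (x * c₁ * c₂ * c₃)⁻¹ := by
      have h1 : c₁ * x = x * c₁ := hcomm hc₁P hx
      have h2 : c₂ * x = x * c₂ := hcomm hc₂P hx
      have h3 : c₃ * x = x * c₃ := hcomm hc₃P hx
      have h4 : c₂ * c₁ = c₁ * c₂ := hcomm hc₂P hc₁P
      have h5 : (x * c₁) * (x * c₂) * (x * c₃) = x * x * (x * c₁ * c₂ * c₃) := by
        calc (x * c₁) * (x * c₂) * (x * c₃) = x * (c₁ * x) * (c₂ * x) * c₃ := by group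
          _ = x * (x * c₁) * (x * c₂) * c₃ := by rw [h1, h2]
          _ = x * x * (c₁ * x) * c₂ * c₃ := by group
          _ = x * x * (x * c₁) * c₂ * c₃ := by rw [h1]
          _ = _ := by group
      rw [h5]; group
    rw [hprod]
    exact mul_mem (mul_mem (mul_mem ha₁ ha₂) ha₃) (inv_mem hb)
  -- the squaring map
  let F : ↥(P : Subgroup G) → ↥(zpowers y) := fun x => ⟨(x : G) * x, hsq x x.2⟩
  have hFinj : Function.Injective F := by
    intro a b hab
    have h1 : (a : G) * a = b * b := congrArg Subtype.val hab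
    have h2 : ((a : G) * (b : G)⁻¹) * ((a : G) * (b : G)⁻¹) = 1 := by
      have hc : (b : G)⁻¹ * a = a * (b : G)⁻¹ := hcomm (inv_mem b.2) a.2
      calc ((a : G) * (b : G)⁻¹) * ((a : G) * (b : G)⁻¹) = a * ((b : G)⁻¹ * a) * (b : G)⁻¹ := by group
        _ = a * (a * (b : G)⁻¹) * (b : G)⁻¹ := by rw [hc]
        _ = (a * a) * ((b : G)⁻¹ * (b : G)⁻¹) := by group
        _ = (b * b) * ((b : G)⁻¹ * (b : G)⁻¹) := by rw [h1]
        _ = 1 := by group
    have h3 := syl5_sq hG P (mul_mem a.2 (inv_mem b.2)) h2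
    exact Subtype.ext (mul_inv_eq_one.mp h3)
  have hle := Nat.card_le_card_of_injective F hFinj
  rw [card_syl5 hG P, Nat.card_zpowers, hy5] at hle
  omega

/-- The structure at an element of order five in `L5`. -/
theorem typeA {t : G} {V L4 L5 : Subgroup G} (h : TData t V L4 L5) (P : Sylow 5 G) {y : G} (hyL : y ∈ L5)
    (hy5 : orderOf y = 5) (hyP : y ∈ (P : Subgroup G)) :
    Nat.card (centralizer ({y} : Set G)) = 300 ∧
      Nat.card ↥(centralizer ({y} : Set G) ⊓ normalizer ((P : Subgroup G) : Set G)) = 50 ∧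
      centralizer ((P : Subgroup G) : Set G) = (P : Subgroup G) := by
  classical
  haveI : Fact (Nat.Prime 5) := ⟨by norm_num⟩
  haveI : Fact (Nat.Prime 2) := ⟨by norm_num⟩
  set K := centralizer ({y} : Set G) with hKdef
  have hmemK : ∀ g, g ∈ K ↔ g * y = y * g := fun g => mem_centralizer_singleton_iff
  have hPK : (P : Subgroup G) ≤ K := fun x hx => (hmemK x).mpr (syl5_comm hG P hx hyP)
  have hPc := card_syl5 hG P
  have h25 : 25 ∣ Nat.card K := by
    rw [← hPc]; exact Subgroup.card_dvd_of_le hPK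
  have hK300 : Nat.card K = 300 := by
    rcases h.card_cent hyL (Or.inr hy5) with e | e <;> rw [hy5] at e
    · rw [e] at h25; omega
    · rw [e]
  -- Sylow count inside `K`
  let P' : Subgroup K := (P : Subgroup G).subgroupOf K
  have hP'c : Nat.card P' = 5 ^ (Nat.card K).factorization 5 := by
    rw [hK300, factorization_eq (m := 12) (k := 2) (by norm_num) (by norm_num) (by norm_num)]
    have : Nat.card P' = Nat.card (P : Subgroup G) := Nat.card_congr (subgroupOfEquivOfLe hPK).toEquiv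
    rw [this, hPc]
    norm_num
  let S : Sylow 5 K := Sylow.ofCard P' hP'c
  have hS1 := card_sylow_modEq_one 5 K
  have hS2 := S.card_eq_index_normalizer
  have hScoe : (S : Subgroup K) = P' := Sylow.coe_ofCard _ _
  set M := K ⊓ normalizer ((P : Subgroup G) : Set G) with hM
  have hS3 : Nat.card (normalizer ((S : Subgroup K) : Set K)) = Nat.card M := by
    rw [hScoe]; exact card_norm_subgroupOf hPK
  have hS4 : (normalizer ((S : Subgroup K) : Set K)).index * Nat.card M = 300 := by
    rw [← hS3, ← hK300]; exact Subgroup.index_mul_card _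
  have hS5 : (normalizer ((S : Subgroup K) : Set K)).index % 5 = 1 := by
    have : (normalizer ((S : Subgroup K) : Set K)).index = Nat.card (Sylow 5 K) := hS2.symm
    rw [this]
    exact hS1
  have hPM : (P : Subgroup G) ≤ M := le_inf hPK le_normalizer
  have h25M : 25 ∣ Nat.card M := by
    rw [← hPc]; exact Subgroup.card_dvd_of_le hPM
  set n := (normalizer ((S : Subgroup K) : Set K)).index
  obtain ⟨c, hc⟩ := h25M
  rw [hc] at hS4
  have hnc : n * c = 12 := by nlinarith
  have hcases : c = 2 ∨ c = 12 := by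
    have hc12 : c ≤ 12 := by
      have hn0 : 0 < n := by
        rcases Nat.eq_zero_or_pos n with h0 | h0
        · rw [h0] at hS5; omega
        · exact h0
      nlinarith
    interval_cases c <;> omega
  have hM50 : Nat.card M = 50 := by
    rcases hcases with rfl | rfl
    · rw [hc]
    · exfalso
      have hMtop : M = K := by
        apply le_antisymm inf_le_left
        have h1 : Nat.card K ≤ Nat.card M := by rw [hc, hK300]
        have h2 := Subgroup.eq_of_le_of_card_ge (inf_le_left : M ≤ K) h1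
        rw [h2]
      have hVK : V ≤ K := fun x hx => (hmemK x).mpr (h.comm x (h.V_le hx) y hyL)
      exact V_not_norm hG h P hyL hy5 hyP (fun x hx => by
        have : x ∈ M := by rw [hMtop]; exact hVK hx
        exact (mem_inf.mp this).2)
  refine ⟨hK300, hM50, ?_⟩
  -- the centralizer of `P`
  have hCPM : centralizer ((P : Subgroup G) : Set G) ≤ M := by
    intro g hg
    refine mem_inf.mpr ⟨(hmemK g).mpr ?_, ?_⟩
    · exact ((mem_centralizer_iff.mp hg) y hyP).symm
    · rw [mem_normalizer_iff]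
      intro x
      constructor
      · intro hx
        have h1 : x * g = g * x := mem_centralizer_iff.mp hg x hx
        have h2 : g * x * g⁻¹ = x := by rw [← h1]; group
        rw [h2]; exact hx
      · intro hx
        by_cases hxx : x ∈ (P : Subgroup G)
        · exact hxx
        · exfalso
          have h1 := mem_centralizer_iff.mp hg _ hx
          have h2 : g * x * g⁻¹ * g = g * (g * x * g⁻¹) := h1
          have h3 : x = g⁻¹ * (g * x * g⁻¹) * g := by group
          rw [h3] at hxx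
          have h4 : g⁻¹ * (g * x * g⁻¹) * g = g * x * g⁻¹ := by
            calc g⁻¹ * (g * x * g⁻¹) * g = g⁻¹ * (g * x * g⁻¹ * g) := by group
              _ = g⁻¹ * (g * (g * x * g⁻¹)) := by rw [h2]
              _ = _ := by group
          rw [h4] at hxx
          exact hxx hx
  have hPC : (P : Subgroup G) ≤ centralizer ((P : Subgroup G) : Set G) := fun x hx =>
    mem_centralizer_iff.mpr (fun w hw => syl5_comm hG P hw hx)
  symm
  apply Subgroup.eq_of_le_of_card_ge hPC
  rw [hPc]
  have hd1 : Nat.card (centralizer ((P : Subgroup G) : Set G)) ∣ 50 := by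
    rw [← hM50]; exact Subgroup.card_dvd_of_le hCPM
  have hd2 : 25 ∣ Nat.card (centralizer ((P : Subgroup G) : Set G)) := by
    rw [← hPc]; exact Subgroup.card_dvd_of_le hPC
  by_contra hgt
  have h50 : Nat.card (centralizer ((P : Subgroup G) : Set G)) = 50 := by
    obtain ⟨d, hd⟩ := hd2
    obtain ⟨e, he⟩ := hd1
    rw [hd] at he hgt
    have hd0 : d ≠ 0 := by
      rintro rfl
      omega
    have hd2 : d * e = 2 := by nlinarith
    have hd3 : d = 1 ∨ d = 2 := by
      have := Nat.dvd_prime (Nat.prime_two) |>.mp ⟨e, hd2.symm⟩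
      exact this
    rcases hd3 with rfl | rfl
    · omega
    · rw [hd]
  -- an involution in `C(P)`
  obtain ⟨g₀, hg₀⟩ := exists_prime_orderOf_dvd_card' (G := centralizer ((P : Subgroup G) : Set G)) 2 (by rw [h50]; norm_num)
  set g : G := g₀.1 with hgdef
  have hgo : orderOf g = 2 := by rw [hgdef, Subgroup.orderOf_coe]; exact hg₀
  have hgK : g ∈ K := (mem_inf.mp (hCPM g₀.2)).1
  have hgg : g * g = 1 := by rw [← sq, ← hgo]; exact pow_orderOf_eq_one g
  have hg1 : g ≠ 1 := by
    intro e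
    rw [e, orderOf_one] at hgo
    omega
  -- conjugate into `V`
  have hVK : V ≤ K := fun x hx => (hmemK x).mpr (h.comm x (h.V_le hx) y hyL)
  let V' : Subgroup K := V.subgroupOf K
  have hV'c : Nat.card V' = 2 ^ (Nat.card K).factorization 2 := by
    rw [hK300, factorization_eq (m := 75) (k := 2) (by norm_num) (by norm_num) (by norm_num)]
    have : Nat.card V' = Nat.card V := Nat.card_congr (subgroupOfEquivOfLe hVK).toEquiv
    rw [this, h.card_V]
    norm_num
  let S₂ : Sylow 2 K := Sylow.ofCard V' hV'c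
  have hS₂coe : (S₂ : Subgroup K) = V' := Sylow.coe_ofCard _ _
  obtain ⟨k, hk⟩ : ∃ k : K, k * ⟨g, hgK⟩ * k⁻¹ ∈ (S₂ : Subgroup K) := by
    have hxo : orderOf (⟨g, hgK⟩ : K) = 2 := by rw [Subgroup.orderOf_mk]; exact hgo
    exact exists_conj_into S₂ hxo
  rw [hS₂coe, mem_subgroupOf] at hk
  have hr : (k : G) * g * (k : G)⁻¹ ∈ V := by simpa using hk
  set r := (k : G) * g * (k : G)⁻¹ with hrdef
  have hr1 : r ≠ 1 := by
    intro e
    apply hg1
    have h3 : g = (k : G)⁻¹ * r * k := by rw [hrdef]; group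
    rw [h3, e]; group
  -- `P` embeds into `⟨y⟩`
  have hmap : ∀ x ∈ (P : Subgroup G), (k : G) * x * (k : G)⁻¹ ∈ zpowers y := by
    intro x hx
    have hxK : x ∈ K := hPK hx
    have hxr : ((k : G) * x * (k : G)⁻¹) * r = r * ((k : G) * x * (k : G)⁻¹) := by
      have h1 : x * g = g * x := (mem_centralizer_iff.mp g₀.2 x hx)
      rw [hrdef]
      calc (k : G) * x * (k : G)⁻¹ * ((k : G) * g * (k : G)⁻¹) = (k : G) * (x * g) * (k : G)⁻¹ := by group
        _ = (k : G) * (g * x) * (k : G)⁻¹ := by rw [h1]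
        _ = _ := by group
    have hxy : ((k : G) * x * (k : G)⁻¹) * y = y * ((k : G) * x * (k : G)⁻¹) :=
      (hmemK _).mp (K.mul_mem (K.mul_mem k.2 hxK) (K.inv_mem k.2))
    obtain ⟨v, hv, c, hc, e⟩ := h.cent_ry hyL (Or.inr hy5) hr hr1 hxr hxy
    have hv1 : v = 1 := by
      have hx25 : x ^ 25 = 1 := by
        have := pow_card_eq_one' (G := (P : Subgroup G)) (x := ⟨x, hx⟩)
        rw [hPc] at this
        exact congrArg Subtype.val this
      have hcpow : c ^ 5 = 1 := by
        obtain ⟨m, rfl⟩ := mem_zpowers_iff.mp hc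
        have h6 : y ^ 5 = 1 := by rw [← hy5]; exact pow_orderOf_eq_one y
        rw [← zpow_natCast, ← zpow_mul, mul_comm, zpow_mul, zpow_natCast, h6, one_zpow]
      have hcL : c ∈ L5 := by
        have h8 : zpowers y ≤ L5 := by rw [zpowers_le]; exact hyL
        exact h8 hc
      have hcv : Commute v c := h.comm v (h.V_le hv) c hcL
      have h9 : ((k : G) * x * (k : G)⁻¹) ^ 25 = 1 := by
        rw [conj_pow, hx25]; group
      rw [e, hcv.mul_pow] at h9
      have h10 : c ^ 25 = 1 := by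
        calc c ^ 25 = (c ^ 5) ^ 5 := by rw [← pow_mul]
          _ = 1 := by rw [hcpow, one_pow]
      have h11 : v ^ 2 = 1 := by rw [sq]; exact h.sq_V v hv
      have h12 : v ^ 25 = v := by
        calc v ^ 25 = (v ^ 2) ^ 12 * v := by group
          _ = v := by rw [h11]; group
      rw [h10, mul_one, h12] at h9
      exact h9
    rw [e, hv1, one_mul]
    exact hc
  let F : ↥(P : Subgroup G) → ↥(zpowers y) := fun x => ⟨(k : G) * x * (k : G)⁻¹, hmap x x.2⟩
  have hFinj : Function.Injective F := by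
    intro a b hab
    have h1 : (k : G) * a * (k : G)⁻¹ = (k : G) * b * (k : G)⁻¹ := congrArg Subtype.val hab
    exact Subtype.ext (by simpa using h1)
  have hle := Nat.card_le_card_of_injective F hFinj
  rw [hPc, Nat.card_zpowers, hy5] at hle
  omega

end

section typeB

open Cfsg.Agent.Lib.HJOrder.Basic Cfsg.Agent.Lib.HJOrder.Local

variable {z : G} {Q : Subgroup G}

theorem z5 (H : HJ z Q) {σ : G} (hσ : orderOf σ = 5) (hσz : σ * z = z * σ) {g : G} (hgz : g * z = z * g)
    (hgσ : g * σ = σ * g) : ∃ i : ℕ, g = σ ^ i ∨ g = σ ^ i * z := by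
  obtain ⟨i, q, hq, e⟩ := H.c5 σ g hσ hσz hgz hgσ
  refine ⟨i, ?_⟩
  have hσ5 : σ ^ 5 = 1 := by rw [← hσ]; exact pow_orderOf_eq_one σ
  have hv := H.n σ hσz
  have hcq : q * σ = σ * q := by
    have h1 : q = (σ ^ i)⁻¹ * g := by rw [e]; group
    have h2 : Commute σ (σ ^ i) := (Commute.refl σ).pow_right i
    have h3 : Commute ((σ ^ i)⁻¹) σ := h2.symm.inv_left
    rw [h1]
    calc (σ ^ i)⁻¹ * g * σ = (σ ^ i)⁻¹ * (g * σ) := by group
      _ = (σ ^ i)⁻¹ * (σ * g) := by rw [hgσ]
      _ = ((σ ^ i)⁻¹ * σ) * g := by group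
      _ = (σ * (σ ^ i)⁻¹) * g := by rw [h3.eq]
      _ = _ := by group
  have hne : ∃ x : Q, tauG Q σ hv x ≠ x := by
    by_contra hall
    push Not at hall
    have hcent : ∀ x ∈ Q, σ * x = x * σ := by
      intro x hx
      have h1 : σ * x * σ⁻¹ = x := congrArg Subtype.val (hall ⟨x, hx⟩)
      calc σ * x = σ * x * σ⁻¹ * σ := by group
        _ = x * σ := by rw [h1]
    rcases H.q.cent σ hcent with e1 | e1
    · rw [e1, orderOf_one] at hσ
      omega
    · have h2 := H.q.z_sq
      rw [← e1] at h2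
      have := orderOf_dvd_of_pow_eq_one h2
      rw [hσ] at this
      omega
  have hfive := (order_five H.q.setting H.q.center_card H.q.card (tauG Q σ hv) (by
      intro x
      apply Subtype.ext
      simp only [tauG_coe]
      have e5 : σ ^ 5 = σ * σ * σ * σ * σ := by simp only [pow_succ, pow_zero, one_mul]
      calc _ = (σ * σ * σ * σ * σ) * (x : G) * (σ * σ * σ * σ * σ)⁻¹ := by group
        _ = x := by rw [← e5, hσ5]; simp) hne (tauG_z H.q hv hσz)).1
  have hq2 : tauG Q σ hv ⟨q, hq⟩ = ⟨q, hq⟩ := by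
    apply Subtype.ext
    simp only [tauG_coe]
    calc σ * q * σ⁻¹ = (σ * q) * σ⁻¹ := rfl
      _ = (q * σ) * σ⁻¹ := by rw [hcq]
      _ = q := by group
  rcases hfive _ hq2 with e2 | e2
  · left
    have : q = 1 := congrArg Subtype.val e2
    rw [e, this, mul_one]
  · right
    have : q = z := congrArg Subtype.val e2
    rw [e, this]

theorem z5_conj (H : HJ z Q) (h : G) {y g : G} (hy5 : orderOf y = 5) (hyz : y * (h * z * h⁻¹) = (h * z * h⁻¹) * y)
    (hgz : g * (h * z * h⁻¹) = (h * z * h⁻¹) * g) (hgy : g * y = y * g) :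
    ∃ i : ℕ, g = y ^ i ∨ g = y ^ i * (h * z * h⁻¹) := by
  have hconj : ∀ a b : G, a * (h * z * h⁻¹) = (h * z * h⁻¹) * a → (h⁻¹ * a * h) * z = z * (h⁻¹ * a * h) := by
    intro a b ha
    calc (h⁻¹ * a * h) * z = h⁻¹ * (a * (h * z * h⁻¹)) * h := by group
      _ = h⁻¹ * ((h * z * h⁻¹) * a) * h := by rw [ha]
      _ = _ := by group
  have h1 : orderOf (h⁻¹ * y * h) = 5 := by
    have : h⁻¹ * y * h = h⁻¹ * y * h⁻¹⁻¹ := by group
    rw [this, order_conj]
    exact hy5
  have h2 : (h⁻¹ * g * h) * (h⁻¹ * y * h) = (h⁻¹ * y * h) * (h⁻¹ * g * h) := by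
    calc (h⁻¹ * g * h) * (h⁻¹ * y * h) = h⁻¹ * (g * y) * h := by group
      _ = h⁻¹ * (y * g) * h := by rw [hgy]
      _ = _ := by group
  obtain ⟨i, hi⟩ := z5 H h1 (hconj y y hyz) (hconj g g hgz) h2
  refine ⟨i, ?_⟩
  have hp : (h⁻¹ * y * h) ^ i = h⁻¹ * y ^ i * h := by
    have : h⁻¹ * y * h = h⁻¹ * y * h⁻¹⁻¹ := by group
    rw [this, conj_pow]; group
  have hback : g = h * (h⁻¹ * g * h) * h⁻¹ := by group
  rcases hi with hi | hi
  · left
    rw [hback, hi, hp]; group
  · right
    rw [hback, hi, hp]; group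

set_option maxHeartbeats 800000 in
/-- The element of order five commuting with a conjugate of `z`. -/
theorem typeB (H : HJ z Q) (P : Sylow 5 G) (h : G) {y : G} (hyP : y ∈ (P : Subgroup G)) (hy5 : orderOf y = 5)
    (hyz : y * (h * z * h⁻¹) = (h * z * h⁻¹) * y)
    (hCP : centralizer ((P : Subgroup G) : Set G) = (P : Subgroup G)) :
    Nat.card (centralizer ({y} : Set G)) = 50 ∧ centralizer ({y} : Set G) ≤ normalizer ((P : Subgroup G) : Set G) := by
  classical
  haveI : Fact (Nat.Prime 5) := ⟨by norm_num⟩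
  haveI : Fact (Nat.Prime 2) := ⟨by norm_num⟩
  have hG := H.card
  set z' := h * z * h⁻¹ with hz'
  have hzz' : z' * z' = 1 := by
    have h1 : z * z = 1 := by rw [← sq]; exact H.q.z_sq
    calc z' * z' = h * (z * z) * h⁻¹ := by rw [hz']; group
      _ = 1 := by rw [h1]; group
  have hz'1 : z' ≠ 1 := by
    intro e
    apply H.q.z_ne
    have h3 : z = h⁻¹ * z' * h := by rw [hz']; group
    rw [h3, e]; group
  have hyy5 : y ^ 5 = 1 := by rw [← hy5]; exact pow_orderOf_eq_one y
  set W := centralizer ({y} : Set G) with hWdef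
  have hmemW : ∀ g, g ∈ W ↔ g * y = y * g := fun g => mem_centralizer_singleton_iff
  have hyW : y ∈ W := (hmemW y).mpr rfl
  have hz'W : z' ∈ W := (hmemW z').mpr hyz.symm
  have hPW : (P : Subgroup G) ≤ W := fun x hx => (hmemW x).mpr (syl5_comm hG P hx hyP)
  have hPc := card_syl5 hG P
  -- elements commuting with z'
  have hcz : ∀ g : W, (g : G) * z' = z' * g → ∃ i : ℕ, (g : G) = y ^ i ∨ (g : G) = y ^ i * z' := by
    intro g hg
    exact z5_conj H h hy5 hyz hg ((hmemW g).mp g.2)
  let zh : W := ⟨z', hz'W⟩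
  have hzh2 : zh ^ 2 = 1 := by rw [sq]; exact Subtype.ext hzz'
  have hzh1 : zh ≠ 1 := fun e => hz'1 (congrArg Subtype.val e)
  have hzho : orderOf zh = 2 := orderOf_eq_prime hzh2 hzh1
  -- 2-elements commuting with z'
  have hq2 : IsPGroup 2 (zpowers zh) := by
    apply IsPGroup.of_card (n := 1)
    rw [Nat.card_zpowers, pow_one, hzho]
  obtain ⟨R, hR⟩ := hq2.exists_le_sylow
  have hzhR : zh ∈ (R : Subgroup W) := hR (mem_zpowers zh)
  have hRc : ∀ x ∈ (R : Subgroup W), x * zh = zh * x → x = 1 ∨ x = zh := by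
    intro x hx hxz
    obtain ⟨i, hi⟩ := hcz x (congrArg Subtype.val hxz)
    obtain ⟨k, hk⟩ := (IsPGroup.iff_orderOf.mp R.isPGroup') ⟨x, hx⟩
    have hxk : x ^ (2 ^ k) = 1 := by
      have := pow_orderOf_eq_one (⟨x, hx⟩ : (R : Subgroup W))
      rw [hk] at this
      exact congrArg Subtype.val this
    have hxkG : (x : G) ^ (2 ^ k) = 1 := by
      have := congrArg Subtype.val hxk
      simpa using this
    have hc5 : (y ^ i) ^ 5 = 1 := by
      rw [← pow_mul, mul_comm, pow_mul, hyy5, one_pow]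
    have hcop : Nat.Coprime (2 ^ k) 5 := Nat.Coprime.pow_left k (by norm_num)
    have hone : ∀ c : G, c ^ 5 = 1 → c ^ (2 ^ k) = 1 → c = 1 := by
      intro c h5 h2
      have := (pow_gcd_eq_one).mpr ⟨h2, h5⟩
      rw [hcop.gcd_eq_one, pow_one] at this
      exact this
    rcases hi with hi | hi
    · left
      apply Subtype.ext
      rw [hi] at hxkG ⊢
      exact hone _ hc5 hxkG
    · right
      apply Subtype.ext
      rw [hi] at hxkG ⊢
      by_cases hk0 : k = 0
      · exfalso
        subst hk0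
        simp only [pow_zero, pow_one] at hk hxkG hxk
        have : x = 1 := hxk
        rw [this] at hi
        -- y^i * z' = 1
        have h7 : y ^ i = z' := by
          have h8 : y ^ i * z' = 1 := by rw [← hi]; rfl
          have h9 : z'⁻¹ = z' := inv_eq_of_mul_eq_one_left hzz'
          rw [← h9]
          exact eq_inv_of_mul_eq_one_left h8
        have h10 : z' ^ 5 = 1 := by rw [← h7]; exact hc5
        have h11 : z' ^ 5 = z' := by
          have hs : z' ^ 2 = 1 := by rw [sq]; exact hzz'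
          calc z' ^ 5 = (z' ^ 2) ^ 2 * z' := by group
            _ = z' := by rw [hs]; group
        rw [h11] at h10
        exact hz'1 h10
      · have h12 : Commute y z' := hyz
        have hcz' : Commute (y ^ i) z' := h12.pow_left i
        rw [hcz'.mul_pow] at hxkG
        have h13 : z' ^ (2 ^ k) = 1 := by
          obtain ⟨m, hm⟩ : 2 ∣ 2 ^ k := dvd_pow_self 2 hk0
          rw [hm, pow_mul, sq, hzz', one_pow]
        rw [h13, mul_one] at hxkG
        rw [hone _ hc5 hxkG, one_mul]
  -- the centre of `R`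
  have hRZ : ∀ x ∈ (R : Subgroup W), x = 1 ∨ x = zh := by
    haveI : Nontrivial (R : Subgroup W) := ⟨⟨⟨zh, hzhR⟩, 1, fun e => hzh1 (congrArg Subtype.val e)⟩⟩
    haveI := R.isPGroup'.center_nontrivial
    obtain ⟨⟨e, he⟩, he1⟩ := exists_ne (1 : center (R : Subgroup W))
    have he2 : (e : W) = zh := by
      have h3 := mem_center_iff.mp he ⟨zh, hzhR⟩
      have h4 : zh * (e : W) = e * zh := congrArg Subtype.val h3
      rcases hRc _ e.2 h4.symm with e1 | e1
      · exfalso
        apply he1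
        apply Subtype.ext
        exact Subtype.ext e1
      · exact e1
    intro x hx
    have h3 := mem_center_iff.mp he ⟨x, hx⟩
    have h4 : x * (e : W) = e * x := congrArg Subtype.val h3
    rw [he2] at h4
    exact hRc x hx h4
  have hRcard : Nat.card (R : Subgroup W) = 2 := by
    have hRe : (R : Subgroup W) = zpowers zh := by
      apply le_antisymm _ hR
      intro x hx
      rcases hRZ x hx with e | e
      · rw [e]; exact one_mem _
      · rw [e]; exact mem_zpowers zh
    rw [hRe, Nat.card_zpowers, hzho]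
  -- the normal complement
  have hN : normalizer ((R : Subgroup W) : Set W) ≤ centralizer ((R : Subgroup W) : Set W) := by
    intro g hg
    rw [mem_centralizer_iff]
    intro x hx
    rcases hRZ x hx with e | e
    · rw [e]; group
    · rw [e]
      have h1 : g * zh * g⁻¹ ∈ (R : Subgroup W) := (mem_normalizer_iff.mp hg zh).mp hzhR
      rcases hRZ _ h1 with e1 | e1
      · exfalso
        apply hzh1
        have h3 : zh = g⁻¹ * (g * zh * g⁻¹) * g := by group
        rw [h3, e1]; group
      · calc zh * g = (g * zh * g⁻¹) * g := by rw [e1]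
          _ = g * zh := by group
  obtain ⟨O, hOn, hOcard, hOoddc, hzhO⟩ : ∃ O : Subgroup W, O.Normal ∧ Nat.card O * 2 = Nat.card W ∧ Odd (Nat.card O) ∧ zh ∉ O := by
    have hOc := MonoidHom.ker_transferSylow_isComplement' R hN
    have hOodd := MonoidHom.not_dvd_card_ker_transferSylow R hN
    refine ⟨(MonoidHom.transferSylow R hN).ker, MonoidHom.normal_ker _, ?_, ?_, ?_⟩
    · have := hOc.card_mul
      rwa [hRcard] at this
    · rw [← Nat.not_even_iff_odd, even_iff_two_dvd]
      exact hOodd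
    · intro e
      have := hOc.disjoint
      rw [Subgroup.disjoint_def] at this
      exact hzh1 (this e hzhR)
  -- squares lie in `O`
  have hsqO : ∀ x : W, x ^ 2 ∈ O := by
    intro x
    have hq : Nat.card (W ⧸ O) = 2 := by
      have h1 := Subgroup.card_eq_card_quotient_mul_card_subgroup O
      have hO0 : Nat.card O ≠ 0 := Nat.card_pos.ne'
      have h2 : Nat.card (W ⧸ O) * Nat.card O = 2 * Nat.card O := by
        rw [← h1, ← hOcard, mul_comm]
      exact Nat.eq_of_mul_eq_mul_right (Nat.pos_of_ne_zero hO0) h2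
    have h3 : ((x : W) : W ⧸ O) ^ 2 = 1 := by
      have := pow_card_eq_one' (x := ((x : W) : W ⧸ O))
      rwa [hq] at this
    rw [← QuotientGroup.mk_pow] at h3
    exact (QuotientGroup.eq_one_iff _).mp h3
  have hoddO : ∀ x : W, ∀ m : ℕ, x ^ (2 * m + 1) = 1 → x ∈ O := by
    intro x m hx
    have h1 : x = (x ^ 2) ^ (m + 1) * (x ^ (2 * m + 1))⁻¹ := by
      rw [← pow_mul]
      have : 2 * (m + 1) = 1 + (2 * m + 1) := by ring
      rw [this, pow_add]
      group
    rw [h1, hx, inv_one, mul_one]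
    exact pow_mem (hsqO x) _
  have hyO : (⟨y, hyW⟩ : W) ∈ O := hoddO _ 2 (Subtype.ext (by simpa using hyy5))
  have hPO : ∀ x (hx : x ∈ (P : Subgroup G)), (⟨x, hPW hx⟩ : W) ∈ O := by
    intro x hx
    have hx25 : x ^ 25 = 1 := by
      have := pow_card_eq_one' (G := (P : Subgroup G)) (x := ⟨x, hx⟩)
      rw [hPc] at this
      exact congrArg Subtype.val this
    exact hoddO _ 12 (Subtype.ext (by simpa using hx25))
  -- the involutory automorphism of `O`
  let θ : O →* O := (MulAut.conjNormal zh).toMonoidHom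
  have hθ : ∀ x : O, ((θ x : O) : W) = zh * (x : W) * zh⁻¹ := fun x => by
    simp [θ, MulAut.conjNormal_apply]
  let yO : O := ⟨⟨y, hyW⟩, hyO⟩
  let Y₀ : Subgroup O := zpowers yO
  have hYcentral : ∀ c ∈ Y₀, ∀ g : O, c * g = g * c := by
    intro c hc g
    obtain ⟨k, rfl⟩ := mem_zpowers_iff.mp hc
    have h1 : Commute yO g := by
      apply Subtype.ext
      apply Subtype.ext
      exact ((hmemW _).mp g.1.2).symm
    exact (h1.zpow_left k).eq
  haveI hYn : Y₀.Normal := ⟨fun c hc g => by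
    have h1 := hYcentral c hc g
    have h2 : g * c * g⁻¹ = c := by rw [← h1]; group
    rw [h2]; exact hc⟩
  have hYz : ∀ c ∈ Y₀, θ c = c := by
    intro c hc
    obtain ⟨k, rfl⟩ := mem_zpowers_iff.mp hc
    rw [map_zpow]
    congr 1
    apply Subtype.ext
    rw [hθ]
    apply Subtype.ext
    change z' * y * z'⁻¹ = y
    rw [← hyz]; group
  have hzhinv : zh⁻¹ = zh := inv_eq_of_mul_eq_one_left (by rw [← sq]; exact hzh2)
  have hcomm := comm_mod_of_fpf Y₀ θ
    (by
      intro x
      apply Subtype.ext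
      rw [hθ, hθ, hzhinv]
      have h1 : zh * zh = 1 := by rw [← sq]; exact hzh2
      calc zh * (zh * (x : W) * zh) * zh = (zh * zh) * (x : W) * (zh * zh) := by group
        _ = x := by rw [h1]; group)
    hYz
    (by
      intro g hg
      have h1 : zh * (g : W) * zh⁻¹ = g := by rw [← hθ, hg]
      have h2 : (g : W) * zh = zh * g := by
        calc (g : W) * zh = (zh * (g : W) * zh⁻¹) * zh := by rw [h1]
          _ = zh * g := by group
      obtain ⟨i, hi⟩ := hcz g (congrArg Subtype.val h2)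
      rcases hi with hi | hi
      · refine pow_mem (mem_zpowers yO) i |> fun h3 => ?_
        have h4 : g = yO ^ i := by
          apply Subtype.ext
          apply Subtype.ext
          rw [hi]
          simp [yO]
        rw [h4]; exact h3
      · exfalso
        apply hzhO
        have h5 : zh = (yO ^ i)⁻¹ * g := by
          apply Subtype.ext
          have h6 : ((yO ^ i : O) : W) = (⟨y, hyW⟩ : W) ^ i := by simp [yO]
          rw [Subgroup.coe_mul, Subgroup.coe_inv, h6]
          change z' = (((⟨y, hyW⟩ : W) ^ i : W) : G)⁻¹ * ((g : W) : G)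
          rw [hi, SubmonoidClass.coe_pow]
          change z' = (y ^ i)⁻¹ * (y ^ i * z')
          group
        rw [h5]
        exact O.mul_mem (O.inv_mem (pow_mem yO.2 i)) g.2)
    hOoddc
  -- primes dividing |O|
  have hprime : ∀ {q : ℕ}, q.Prime → q ∣ Nat.card O → q = 5 := by
    intro q hq hdvd
    haveI : Fact q.Prime := ⟨hq⟩
    by_contra hq5
    obtain ⟨g, hg⟩ := exists_prime_orderOf_dvd_card' (G := O) q hdvd
    have hgq : g ^ q = 1 := by rw [← hg]; exact pow_orderOf_eq_one g
    have hgP : ((g : W) : G) ∈ centralizer ((P : Subgroup G) : Set G) := by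
      rw [mem_centralizer_iff]
      intro x hx
      let xO : O := ⟨⟨x, hPW hx⟩, hPO x hx⟩
      set c := g * xO * g⁻¹ * xO⁻¹ with hc
      have hcY : c ∈ Y₀ := hcomm g xO
      have hpow : ∀ k : ℕ, g ^ k * xO * (g ^ k)⁻¹ = c ^ k * xO := by
        intro k
        induction k with
        | zero => simp
        | succ k ih =>
          have h1 : g * xO * g⁻¹ = c * xO := by rw [hc]; group
          calc g ^ (k + 1) * xO * (g ^ (k + 1))⁻¹ = g * (g ^ k * xO * (g ^ k)⁻¹) * g⁻¹ := by
                rw [pow_succ', mul_inv_rev]; group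
            _ = g * (c ^ k * xO) * g⁻¹ := by rw [ih]
            _ = (c ^ k) * (g * xO * g⁻¹) := by
                have h2 : c ^ k * g = g * c ^ k := by
                  have h3 : Commute c g := hYcentral c hcY g
                  exact (h3.pow_left k).eq
                calc g * (c ^ k * xO) * g⁻¹ = (g * c ^ k) * xO * g⁻¹ := by group
                  _ = (c ^ k * g) * xO * g⁻¹ := by rw [h2]
                  _ = _ := by group
            _ = c ^ k * (c * xO) := by rw [h1]
            _ = c ^ (k + 1) * xO := by rw [pow_succ]; group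
      have hcq : c ^ q = 1 := by
        have h1 := hpow q
        rw [hgq] at h1
        simp only [one_mul, inv_one, mul_one] at h1
        exact (mul_eq_right.mp h1.symm)
      have hc5 : c ^ 5 = 1 := by
        obtain ⟨m, hm⟩ := mem_zpowers_iff.mp hcY
        rw [← hm, ← zpow_natCast, ← zpow_mul, mul_comm, zpow_mul, zpow_natCast]
        have : yO ^ 5 = 1 := by
          apply Subtype.ext
          apply Subtype.ext
          simpa [yO] using hyy5
        rw [this, one_zpow]
      have hcop : Nat.Coprime q 5 := (Nat.coprime_primes hq (by norm_num)).mpr hq5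
      have hc1 : c = 1 := by
        have := (pow_gcd_eq_one).mpr ⟨hcq, hc5⟩
        rwa [hcop.gcd_eq_one, pow_one] at this
      have h2 : g * xO * g⁻¹ = xO := by
        have h3 := hpow 1
        rw [pow_one, pow_one, hc1, one_mul] at h3
        exact h3
      have h3 : xO * g = g * xO := by
        calc xO * g = (g * xO * g⁻¹) * g := by rw [h2]
          _ = g * xO := by group
      exact congrArg (fun w : O => ((w : W) : G)) h3
    rw [hCP] at hgP
    have h1 : orderOf ((g : W) : G) ∣ Nat.card (P : Subgroup G) := by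
      have := orderOf_dvd_natCard (⟨_, hgP⟩ : (P : Subgroup G))
      rwa [Subgroup.orderOf_mk] at this
    rw [hPc, Subgroup.orderOf_coe, Subgroup.orderOf_coe, hg] at h1
    have h2 : q ∣ 5 ^ 2 := by simpa using h1
    have h3 := hq.dvd_of_dvd_pow h2
    exact hq5 ((Nat.prime_dvd_prime_iff_eq hq (by norm_num)).mp h3)
  obtain hOpow := Nat.eq_prime_pow_of_unique_prime_dvd (Nat.card_pos (α := O)).ne' hprime
  set m := (Nat.card O).primeFactorsList.length with hm
  have hOdvd : Nat.card O ∣ 604800 := by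
    have h1 : Nat.card W ∣ Nat.card G := Subgroup.card_subgroup_dvd_card W
    rw [hG, ← hOcard] at h1
    exact dvd_of_mul_right_dvd h1
  have hPle : 25 ≤ Nat.card O := by
    let F : ↥(P : Subgroup G) → O := fun x => ⟨⟨x, hPW x.2⟩, hPO x x.2⟩
    have hFinj : Function.Injective F := by
      intro a b hab
      have : ((F a : W) : G) = ((F b : W) : G) := by rw [hab]
      exact Subtype.ext this
    have := Nat.card_le_card_of_injective F hFinj
    rwa [hPc] at this
  have hO25 : Nat.card O = 25 := by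
    rw [hOpow] at hOdvd hPle ⊢
    have hm2 : m ≤ 2 := by
      by_contra hm3
      push Not at hm3
      have h1 : 5 ^ 3 ∣ 5 ^ m := pow_dvd_pow 5 (by omega)
      have h2 : 5 ^ 3 ∣ 604800 := h1.trans hOdvd
      norm_num at h2
    have hm3 : 2 ≤ m := by
      by_contra hm3
      push Not at hm3
      have : m = 0 ∨ m = 1 := by omega
      rcases this with e | e <;> rw [e] at hPle <;> norm_num at hPle
    have : m = 2 := by omega
    rw [this]; norm_num
  refine ⟨by omega, ?_⟩
  -- `O` is `P`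
  have hOP : (O.map W.subtype) = (P : Subgroup G) := by
    symm
    apply Subgroup.eq_of_le_of_card_ge
    · intro x hx
      exact ⟨⟨x, hPW hx⟩, hPO x hx, rfl⟩
    · rw [hPc]
      have : Nat.card (O.map W.subtype) = Nat.card O := by
        apply Subgroup.card_map_of_injective
        exact Subtype.val_injective
      rw [this, hO25]
  intro g hg
  rw [mem_normalizer_iff]
  have key : ∀ g (hg : g ∈ W) (x : G), x ∈ (P : Subgroup G) → g * x * g⁻¹ ∈ (P : Subgroup G) := by
    intro g hg x hx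
    rw [← hOP] at hx ⊢
    obtain ⟨w, hw, rfl⟩ := hx
    refine ⟨⟨g, hg⟩ * w * ⟨g, hg⟩⁻¹, hOn.conj_mem w hw _, ?_⟩
    simp
  intro x
  refine ⟨fun hx => key g hg x hx, fun hx => ?_⟩
  have := key g⁻¹ (W.inv_mem hg) _ hx
  simpa [mul_assoc] using this

theorem cent_eq_of_zpowers {a b : G} (h : zpowers a = zpowers b) :
    centralizer ({a} : Set G) = centralizer ({b} : Set G) := by
  have key : ∀ a b : G, zpowers a = zpowers b → centralizer ({b} : Set G) ≤ centralizer ({a} : Set G) := by
    intro a b h g hg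
    rw [mem_centralizer_singleton_iff] at hg ⊢
    have h1 : a ∈ zpowers b := by rw [← h]; exact mem_zpowers a
    obtain ⟨k, rfl⟩ := mem_zpowers_iff.mp h1
    have h2 : Commute g b := hg
    exact (h2.zpow_right k).eq
  exact le_antisymm (key _ _ h.symm) (key _ _ h)

theorem smul_zpowers (t y : G) : (MulAut.conj t • zpowers y : Subgroup G) = zpowers (t * y * t⁻¹) := by
  ext x
  rw [mem_smul_iff, mem_zpowers_iff, mem_zpowers_iff]
  constructor
  · rintro ⟨k, hk⟩
    refine ⟨k, ?_⟩
    have h1 : x = t * (t⁻¹ * x * t) * t⁻¹ := by group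
    rw [h1, ← hk, conj_zpow]
  · rintro ⟨k, rfl⟩
    refine ⟨k, ?_⟩
    rw [conj_zpow]
    group

/-- Any family of subgroups of order five in `P` has at most six members. -/
theorem ncard_lines (P : Subgroup G) (hP : Nat.card P = 25) (𝓐 : Set (Subgroup G))
    (h𝓐 : ∀ L ∈ 𝓐, L ≤ P ∧ Nat.card L = 5) : 𝓐.ncard ≤ 6 := by
  classical
  have hfin : 𝓐.Finite := Set.toFinite _
  rw [Set.ncard_eq_toFinset_card _ hfin]
  apply lines_le_six P hP
  intro L hL
  exact h𝓐 L (by simpa using hL)

theorem dvd_four_cases {e : ℕ} (he : e ∣ 4) : e = 1 ∨ e = 2 ∨ e = 4 := by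
  have := Nat.le_of_dvd (by norm_num) he
  interval_cases e <;> revert he <;> decide

theorem five_arith {eA eB mA mB n T : ℕ} (heA : eA ∣ 4) (heB : eB ∣ 4) (hmA : 0 < mA) (hmB : 0 < mB)
    (h6 : mA + mB ≤ 6) (hOA : mA * (eA * 50) = T) (hOB : mB * (eB * 50) = T) (hn : n * T = 604800)
    (hn5 : n % 5 = 1) : T = 50 ∨ (T = 300 ∧ mA = 3 ∧ mB = 3) := by
  have hA := dvd_four_cases heA
  have hB := dvd_four_cases heB
  have hmA5 : mA ≤ 5 := by omega
  have hmB5 : mB ≤ 5 := by omega
  subst hOA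
  rcases hA with rfl | rfl | rfl <;> rcases hB with rfl | rfl | rfl <;>
    interval_cases mA <;> interval_cases mB <;> omega

set_option maxHeartbeats 2000000 in
/-- The main result on Sylow 5-subgroups. -/
theorem five_main (H : HJ z Q) (P : Sylow 5 G) :
    centralizer ((P : Subgroup G) : Set G) = (P : Subgroup G) ∧ Nat.card P = 25 ∧
      Nat.card (normalizer ((P : Subgroup G) : Set G)) = 300 ∧
      ∃ yA yB : G, orderOf yA = 5 ∧ orderOf yB = 5 ∧ Nat.card (centralizer ({yA} : Set G)) = 300 ∧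
        Nat.card (centralizer ({yB} : Set G)) = 50 ∧
        ∀ W : Subgroup G, Nat.card W = 5 → ∃ g : G, W.map (MulAut.conj g).toMonoidHom = zpowers yA ∨
          W.map (MulAut.conj g).toMonoidHom = zpowers yB := by
  classical
  haveI : Fact (Nat.Prime 5) := ⟨by norm_num⟩
  have hG := H.card
  have hPc := card_syl5 hG P
  -- the element of type A
  obtain ⟨t, ht2, htz⟩ := H.ext
  obtain ⟨V, L4, L5, hT⟩ := H.tdata t ht2 htz
  obtain ⟨w₀, hw₀L, hw₀5⟩ := hT.exists_five
  obtain ⟨h₁, hh₁⟩ := exists_conj_into P hw₀5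
  set yA := h₁ * w₀ * h₁⁻¹ with hyA
  have hyA5 : orderOf yA = 5 := by rw [hyA, order_conj]; exact hw₀5
  have ht'2 : orderOf (h₁ * t * h₁⁻¹) = 2 := by rw [order_conj]; exact ht2
  have ht'z : ¬ IsConj (h₁ * t * h₁⁻¹) z := by
    intro e
    apply htz
    have h1 : IsConj t (h₁ * t * h₁⁻¹) := isConj_iff.mpr ⟨h₁, rfl⟩
    exact h1.trans e
  obtain ⟨V', L4', L5', hT'⟩ := H.tdata _ ht'2 ht'z
  have hyAL : yA ∈ L5' := by
    apply hT'.mem_L5 _ (Or.inr hyA5)
    have h1 : w₀ * t = t * w₀ := by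
      obtain ⟨x, hx, y, hy, e⟩ := hT.cent t rfl
      exact (hT.comm t (hT.V_le hT.t_mem) w₀ hw₀L).symm
    rw [hyA]
    calc h₁ * w₀ * h₁⁻¹ * (h₁ * t * h₁⁻¹) = h₁ * (w₀ * t) * h₁⁻¹ := by group
      _ = h₁ * (t * w₀) * h₁⁻¹ := by rw [h1]
      _ = _ := by group
  obtain ⟨hCA, hMc, hCP⟩ := typeA hG hT' P hyAL hyA5 hh₁
  -- the element of type B
  have h5dvd : 5 ∣ Nat.card (centralizer ({z} : Set G)) := by rw [H.cardC]; norm_num
  obtain ⟨σ', hσ'⟩ := exists_prime_orderOf_dvd_card' (G := centralizer ({z} : Set G)) 5 h5dvd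
  set σ : G := σ'.1 with hσdef
  have hσ5 : orderOf σ = 5 := by rw [hσdef, Subgroup.orderOf_coe]; exact hσ'
  have hσz : σ * z = z * σ := mem_centralizer_singleton_iff.mp σ'.2
  obtain ⟨h₂, hh₂⟩ := exists_conj_into P hσ5
  set yB := h₂ * σ * h₂⁻¹ with hyB
  have hyB5 : orderOf yB = 5 := by rw [hyB, order_conj]; exact hσ5
  have hyBz : yB * (h₂ * z * h₂⁻¹) = (h₂ * z * h₂⁻¹) * yB := by
    rw [hyB]
    calc h₂ * σ * h₂⁻¹ * (h₂ * z * h₂⁻¹) = h₂ * (σ * z) * h₂⁻¹ := by group
      _ = h₂ * (z * σ) * h₂⁻¹ := by rw [hσz]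
      _ = _ := by group
  obtain ⟨hCB, hCBN⟩ := typeB H P h₂ hh₂ hyB5 hyBz hCP
  -- the lines are different
  have hneAB : ∀ a b : G, zpowers (a * yA * a⁻¹) ≠ zpowers (b * yB * b⁻¹) := by
    intro a b e
    have h1 := cent_eq_of_zpowers e
    have h2 : Nat.card (centralizer ({a * yA * a⁻¹} : Set G)) = Nat.card (centralizer ({b * yB * b⁻¹} : Set G)) := by rw [h1]
    rw [card_cent_conj a yA, card_cent_conj b yB, hCA, hCB] at h2
    omega
  -- counting
  set T := normalizer ((P : Subgroup G) : Set G) with hT0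
  have hOA := card_orbit T (zpowers yA)
  have hOB := card_orbit T (zpowers yB)
  obtain ⟨eA, heA, hNA⟩ := card_norm_dvd T yA hyA5
  obtain ⟨eB, heB, hNB⟩ := card_norm_dvd T yB hyB5
  have hTCA : Nat.card ↥(T ⊓ centralizer ({yA} : Set G)) = 50 := by
    rw [inf_comm]; exact hMc
  have hTCB : Nat.card ↥(T ⊓ centralizer ({yB} : Set G)) = 50 := by
    rw [inf_eq_right.mpr hCBN]; exact hCB
  rw [hNA, hTCA] at hOA
  rw [hNB, hTCB] at hOB
  set OA : Set (Subgroup G) := Set.range fun t : T => (MulAut.conj (t : G) • zpowers yA : Subgroup G) with hOAdef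
  set OB : Set (Subgroup G) := Set.range fun t : T => (MulAut.conj (t : G) • zpowers yB : Subgroup G) with hOBdef
  have hmemO : ∀ y : G, y ∈ (P : Subgroup G) → orderOf y = 5 → ∀ t : T,
      (MulAut.conj (t : G) • zpowers y : Subgroup G) ≤ (P : Subgroup G) ∧ Nat.card (MulAut.conj (t : G) • zpowers y : Subgroup G) = 5 := by
    intro y hy hy5 t
    constructor
    · rw [smul_zpowers, zpowers_le]
      exact (mem_normalizer_iff.mp t.2 y).mp hy
    · rw [smul_zpowers, Nat.card_zpowers, order_conj, hy5]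
  have hlA : ∀ L ∈ OA, L ≤ (P : Subgroup G) ∧ Nat.card L = 5 := by
    rintro _ ⟨t, rfl⟩
    exact hmemO yA hh₁ hyA5 t
  have hlB : ∀ L ∈ OB, L ≤ (P : Subgroup G) ∧ Nat.card L = 5 := by
    rintro _ ⟨t, rfl⟩
    exact hmemO yB hh₂ hyB5 t
  have hdisj : Disjoint OA OB := by
    rw [Set.disjoint_left]
    rintro _ ⟨a, rfl⟩ ⟨b, hb⟩
    simp only [smul_zpowers] at hb
    exact hneAB _ _ hb.symm
  have hfinA : OA.Finite := Set.toFinite _
  have hfinB : OB.Finite := Set.toFinite _
  have hmA : Nat.card OA = OA.ncard := Nat.card_coe_set_eq _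
  have hmB : Nat.card OB = OB.ncard := Nat.card_coe_set_eq _
  have hunion : (OA ∪ OB).ncard = OA.ncard + OB.ncard := Set.ncard_union_eq hdisj hfinA hfinB
  have hle6 : (OA ∪ OB).ncard ≤ 6 := by
    apply ncard_lines _ hPc
    rintro L (hL | hL)
    · exact hlA L hL
    · exact hlB L hL
  have hmApos : 0 < OA.ncard := by
    rw [Set.ncard_pos hfinA]
    exact ⟨_, ⟨1, rfl⟩⟩
  have hmBpos : 0 < OB.ncard := by
    rw [Set.ncard_pos hfinB]
    exact ⟨_, ⟨1, rfl⟩⟩
  rw [hmA] at hOA
  rw [hmB] at hOB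
  set mA := OA.ncard
  set mB := OB.ncard
  -- Sylow
  have hS1 := card_sylow_modEq_one 5 G
  have hS2 : Nat.card (Sylow 5 G) = (normalizer ((P : Subgroup G) : Set G)).index := P.card_eq_index_normalizer
  have hS3 : (normalizer ((P : Subgroup G) : Set G)).index * Nat.card T = 604800 := by
    rw [← hG]; exact Subgroup.index_mul_card _
  have hS5 : (normalizer ((P : Subgroup G) : Set G)).index % 5 = 1 := by
    rw [← hS2]; exact hS1
  set n := (normalizer ((P : Subgroup G) : Set G)).index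
  have hfinal : (Nat.card T = 50) ∨ (Nat.card T = 300 ∧ mA = 3 ∧ mB = 3) :=
    five_arith heA heB hmApos hmBpos (by omega) hOA hOB hS3 hS5
  have hT300 : Nat.card T = 300 ∧ mA = 3 ∧ mB = 3 := by
    rcases hfinal with h50 | h
    · exfalso
      have e1 : T = centralizer ({yB} : Set G) := by
        symm
        apply Subgroup.eq_of_le_of_card_ge hCBN
        rw [h50, hCB]
      have e2 : T = centralizer ({yA} : Set G) ⊓ T := by
        symm
        apply Subgroup.eq_of_le_of_card_ge inf_le_right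
        rw [h50, hMc]
      set z' := h₂ * z * h₂⁻¹ with hz'
      have hz'T : z' ∈ T := by
        rw [e1, mem_centralizer_singleton_iff]
        exact hyBz.symm
      have hz'A : z' * yA = yA * z' := by
        rw [e2] at hz'T
        exact mem_centralizer_singleton_iff.mp (mem_inf.mp hz'T).1
      have hz'B : z' * yB = yB * z' := hyBz.symm
      -- `P` is generated by the two elements
      have hS : (P : Subgroup G) ≤ centralizer ({z'} : Set G) := by
        have hsup : zpowers yA ⊔ zpowers yB = (P : Subgroup G) := by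
          apply Subgroup.eq_of_le_of_card_ge
          · exact sup_le (by rw [zpowers_le]; exact hh₁) (by rw [zpowers_le]; exact hh₂)
          · rw [hPc]
            have h1 : Nat.card ↥(zpowers yA ⊔ zpowers yB) ∣ 25 := by
              rw [← hPc]
              exact Subgroup.card_dvd_of_le (sup_le (by rw [zpowers_le]; exact hh₁) (by rw [zpowers_le]; exact hh₂))
            have h2 : 5 ∣ Nat.card ↥(zpowers yA ⊔ zpowers yB) := by
              have := Subgroup.card_dvd_of_le (le_sup_left : zpowers yA ≤ zpowers yA ⊔ zpowers yB)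
              rwa [Nat.card_zpowers, hyA5] at this
            by_contra hlt
            have h3 : Nat.card ↥(zpowers yA ⊔ zpowers yB) = 5 := by
              obtain ⟨c, hc⟩ := h2
              obtain ⟨d, hd⟩ := h1
              rw [hc] at hd hlt
              have hcd : c * d = 5 := by nlinarith
              have := (Nat.dvd_prime (by norm_num : Nat.Prime 5)).mp ⟨d, hcd.symm⟩
              rcases this with rfl | rfl
              · rw [hc]
              · omega
            have h4 : zpowers yA = zpowers yA ⊔ zpowers yB := by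
              apply Subgroup.eq_of_le_of_card_ge le_sup_left
              rw [h3, Nat.card_zpowers, hyA5]
            have h5 : zpowers yB = zpowers yA ⊔ zpowers yB := by
              apply Subgroup.eq_of_le_of_card_ge le_sup_right
              rw [h3, Nat.card_zpowers, hyB5]
            have h6 := hneAB 1 1
            simp only [one_mul, inv_one, mul_one] at h6
            exact h6 (h4.trans h5.symm)
        rw [← hsup]
        apply sup_le
        · rw [zpowers_le, mem_centralizer_singleton_iff]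
          exact hz'A.symm
        · rw [zpowers_le, mem_centralizer_singleton_iff]
          exact hz'B.symm
      have hz'P : z' ∈ (P : Subgroup G) := by
        rw [← hCP, mem_centralizer_iff]
        intro x hx
        exact mem_centralizer_singleton_iff.mp (hS hx)
      have hzz' : z' * z' = 1 := by
        have h1 : z * z = 1 := by rw [← sq]; exact H.q.z_sq
        calc z' * z' = h₂ * (z * z) * h₂⁻¹ := by rw [hz']; group
          _ = 1 := by rw [h1]; group
      have h1 := syl5_sq hG P hz'P hzz'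
      apply H.q.z_ne
      have h3 : z = h₂⁻¹ * z' * h₂ := by rw [hz']; group
      rw [h3, h1]; group
    · exact h
  refine ⟨hCP, hPc, hT300.1, yA, yB, hyA5, hyB5, hCA, hCB, ?_⟩
  intro W hW
  -- conjugate into `P`
  have hpW : IsPGroup 5 W := by
    apply IsPGroup.of_card (n := 1)
    rw [hW, pow_one]
  obtain ⟨R, hR⟩ := hpW.exists_le_sylow
  obtain ⟨g, hg⟩ := MulAction.exists_smul_eq G R P
  set L₀ : Subgroup G := MulAut.conj g • W with hL₀
  have hL₀P : L₀ ≤ (P : Subgroup G) := by
    rw [← hg, Sylow.coe_subgroup_smul]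
    intro x hx
    rw [hL₀, mem_smul_iff] at hx
    rw [mem_smul_iff]
    exact hR hx
  have hL₀c : Nat.card L₀ = 5 := by
    rw [← hW]
    exact (Nat.card_congr (Subgroup.equivSMul (MulAut.conj g) W).toEquiv).symm
  have hL₀mem : L₀ ∈ OA ∪ OB := by
    by_contra hnot
    have h1 := Set.ncard_insert_of_notMem hnot (hfinA.union hfinB)
    have h2 : (insert L₀ (OA ∪ OB)).ncard ≤ 6 := by
      apply ncard_lines _ hPc
      rintro L (rfl | hL | hL)
      · exact ⟨hL₀P, hL₀c⟩
      · exact hlA L hL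
      · exact hlB L hL
    rw [h1, hunion] at h2
    omega
  have hmapeq : ∀ (a : G), (W.map (MulAut.conj a).toMonoidHom : Subgroup G) = MulAut.conj a • W := fun a => rfl
  rcases hL₀mem with ⟨t, ht⟩ | ⟨t, ht⟩
  · refine ⟨(t : G)⁻¹ * g, Or.inl ?_⟩
    rw [hmapeq]
    have h1 : (MulAut.conj ((t : G)⁻¹ * g) • W : Subgroup G) = MulAut.conj ((t : G)⁻¹) • L₀ := by
      rw [hL₀, smul_smul, map_mul]
    rw [h1, ← ht]
    simp only [smul_smul, ← map_mul]
    simp
  · refine ⟨(t : G)⁻¹ * g, Or.inr ?_⟩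
    rw [hmapeq]
    have h1 : (MulAut.conj ((t : G)⁻¹ * g) • W : Subgroup G) = MulAut.conj ((t : G)⁻¹) • L₀ := by
      rw [hL₀, smul_smul, map_mul]
    rw [h1, ← ht]
    simp only [smul_smul, ← map_mul]
    simp

end typeB

end Cfsg.Agent.Lib.HJSyl.Five
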