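import Mathlib

set_option autoImplicit false
set_option linter.unusedSectionVars false
set_option linter.unusedVariables false
set_option linter.style.longLine false

/-!
The "TI Klein" lemma: a finite group with a Klein four subgroup `V` such that `C(r) = V` for all
involutions `r ∈ V` and `|N(V)| = 12` has order `12` or `60`.
-/

namespace Cfsg.Agent.Lib.HJSyl.Klein

open Subgroup
open scoped Pointwise

variable {X : Type*} [Group X] [Finite X]

/-- The properties of a "Klein" subgroup. -/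
structure KL (Q : Subgroup X) : Prop where
  card4 : Nat.card Q = 4
  sq : ∀ x ∈ Q, x * x = 1
  cent : ∀ r ∈ Q, r ≠ 1 → ∀ g : X, g * r = r * g → g ∈ Q
  ncard : Nat.card (normalizer (Q : Set X)) = 12

theorem mem_smul_iff {g x : X} {Q : Subgroup X} : x ∈ MulAut.conj g • Q ↔ g⁻¹ * x * g ∈ Q := by
  rw [Subgroup.mem_pointwise_smul_iff_inv_smul_mem]
  simp [MulAut.smul_def, MulAut.conj_inv_apply]

theorem norm_smul (g : X) (Q : Subgroup X) :
    normalizer ((MulAut.conj g • Q : Subgroup X) : Set X) = MulAut.conj g • normalizer (Q : Set X) := by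
  ext x
  rw [mem_smul_iff, mem_normalizer_iff, mem_normalizer_iff]
  constructor
  · intro h y
    have := h (g * y * g⁻¹)
    rw [mem_smul_iff, mem_smul_iff] at this
    convert this using 2 <;> group
  · intro h y
    have := h (g⁻¹ * y * g)
    rw [mem_smul_iff, mem_smul_iff]
    convert this using 2 <;> group

theorem KL.smul {Q : Subgroup X} (h : KL Q) (g : X) : KL (MulAut.conj g • Q) where
  card4 := by
    rw [← h.card4]
    exact (Nat.card_congr (Subgroup.equivSMul (MulAut.conj g) Q).toEquiv).symm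
  sq := by
    intro x hx
    rw [mem_smul_iff] at hx
    have := h.sq _ hx
    have h2 : g⁻¹ * (x * x) * g = 1 := by
      calc g⁻¹ * (x * x) * g = (g⁻¹ * x * g) * (g⁻¹ * x * g) := by group
        _ = 1 := this
    have h3 : x * x = g * (g⁻¹ * (x * x) * g) * g⁻¹ := by group
    rw [h3, h2]; group
  cent := by
    intro r hr hr1 y hy
    rw [mem_smul_iff] at hr ⊢
    refine h.cent _ hr ?_ _ ?_
    · intro e
      apply hr1
      have h3 : r = g * (g⁻¹ * r * g) * g⁻¹ := by group
      rw [h3, e]; group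
    · calc g⁻¹ * y * g * (g⁻¹ * r * g) = g⁻¹ * (y * r) * g := by group
        _ = g⁻¹ * (r * y) * g := by rw [hy]
        _ = _ := by group
  ncard := by
    rw [norm_smul]
    rw [← h.ncard]
    exact (Nat.card_congr (Subgroup.equivSMul (MulAut.conj g) (normalizer (Q : Set X))).toEquiv).symm

/-- The `Q` in the normalizer is normal there and the quotient has order three: any element of the
normalizer whose square lies in `Q`... we express what we need by elements. -/
theorem KL.quot {Q : Subgroup X} (h : KL Q) :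
    ∃ f : normalizer (Q : Set X) →* Multiplicative (ZMod 3),
      ∀ x : normalizer (Q : Set X), f x = 1 ↔ (x : X) ∈ Q := by
  classical
  have hle : Q ≤ normalizer (Q : Set X) := le_normalizer
  let Q' : Subgroup (normalizer (Q : Set X)) := Q.subgroupOf _
  haveI hn : Q'.Normal := by
    refine ⟨fun a ha g => ?_⟩
    rw [mem_subgroupOf] at ha ⊢
    have := (mem_normalizer_iff.mp g.2 (a : X)).mp ha
    simpa using this
  have hcq : Nat.card Q' = 4 := by
    rw [← h.card4]
    exact Nat.card_congr (Subgroup.subgroupOfEquivOfLe hle).toEquiv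
  have h3 : Nat.card (normalizer (Q : Set X) ⧸ Q') = 3 := by
    have := Subgroup.card_eq_card_quotient_mul_card_subgroup Q'
    rw [h.ncard, hcq] at this
    omega
  haveI : Fact (Nat.Prime 3) := ⟨by norm_num⟩
  haveI : IsCyclic (normalizer (Q : Set X) ⧸ Q') := isCyclic_of_prime_card h3
  have hc : Nat.card (normalizer (Q : Set X) ⧸ Q') = Nat.card (Multiplicative (ZMod 3)) := by
    rw [h3]; simp
  obtain ⟨e⟩ : Nonempty ((normalizer (Q : Set X) ⧸ Q') ≃* Multiplicative (ZMod 3)) :=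
    ⟨mulEquivOfCyclicCardEq hc⟩
  refine ⟨e.toMonoidHom.comp (QuotientGroup.mk' Q'), fun x => ?_⟩
  simp only [MonoidHom.comp_apply, MulEquiv.coe_toMonoidHom, QuotientGroup.mk'_apply]
  rw [map_eq_one_iff _ e.injective, QuotientGroup.eq_one_iff, mem_subgroupOf]

theorem KL.comm {Q : Subgroup X} (h : KL Q) {x y : X} (hx : x ∈ Q) (hy : y ∈ Q) : x * y = y * x := by
  have h1 := h.sq _ (Q.mul_mem hx hy)
  have h2 := h.sq _ hx
  have h3 := h.sq _ hy
  calc x * y = x * (x * y * (x * y)) * y := by rw [h1]; group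
    _ = (x * x) * y * x * (y * y) := by group
    _ = y * x := by rw [h2, h3]; group

/-- Trivial intersection. -/
theorem KL.ti {Q Q' : Subgroup X} (h : KL Q) (h' : KL Q') {r : X} (hr : r ∈ Q) (hr' : r ∈ Q')
    (hr1 : r ≠ 1) : Q = Q' := by
  have hle : Q' ≤ Q := fun x hx => h.cent r hr hr1 x (h'.comm hx hr')
  symm
  apply Subgroup.eq_of_le_of_card_ge hle
  rw [h.card4, h'.card4]

/-- An involution in the normalizer lies in `Q`. -/
theorem KL.inv_mem {Q : Subgroup X} (h : KL Q) {r : X} (hr : r ∈ normalizer (Q : Set X))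
    (hr2 : r * r = 1) : r ∈ Q := by
  obtain ⟨f, hf⟩ := h.quot
  have h1 := (hf ⟨r, hr⟩)
  apply h1.mp
  have h2 : f ⟨r, hr⟩ * f ⟨r, hr⟩ = 1 := by
    rw [← map_mul]
    have : (⟨r, hr⟩ : normalizer (Q : Set X)) * ⟨r, hr⟩ = 1 := Subtype.ext hr2
    rw [this, map_one]
  have h3 : ∀ a : Multiplicative (ZMod 3), a * a = 1 → a = 1 := by decide
  exact h3 _ h2

/-- A square-root-free version: the conjugate `e τ e⁻¹ = τ⁻¹` forces `τ ∈ Q`. -/
theorem KL.not_invert {Q : Subgroup X} (h : KL Q) {e τ : X} (he : e ∈ normalizer (Q : Set X))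
    (hτ : τ ∈ normalizer (Q : Set X)) (hi : e * τ * e⁻¹ = τ⁻¹) : τ ∈ Q := by
  obtain ⟨f, hf⟩ := h.quot
  apply (hf ⟨τ, hτ⟩).mp
  have h1 : (⟨e, he⟩ : normalizer (Q : Set X)) * ⟨τ, hτ⟩ * (⟨e, he⟩ : normalizer (Q : Set X))⁻¹ = (⟨τ, hτ⟩ : normalizer (Q : Set X))⁻¹ :=
    Subtype.ext hi
  have h2 := congrArg f h1
  rw [map_mul, map_mul, map_inv, map_inv] at h2
  have h3 : ∀ a b : Multiplicative (ZMod 3), a * b * a⁻¹ = b⁻¹ → b = 1 := by decide
  exact h3 _ _ h2

/-- Swapping involutions. -/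
theorem exists_swap {Q Q' : Subgroup X} (h : KL Q) (h' : KL Q') (hne : Q ≠ Q') {i j : X} (hi : i ∈ Q)
    (hj : j ∈ Q') (hi1 : i ≠ 1) (hj1 : j ≠ 1) :
    ∃ w : X, w * w = 1 ∧ w * i * w⁻¹ = j ∧ w * j * w⁻¹ = i := by
  have hii := h.sq i hi
  have hjj := h'.sq j hj
  have hinvi : i⁻¹ = i := inv_eq_of_mul_eq_one_left hii
  have hinvj : j⁻¹ = j := inv_eq_of_mul_eq_one_left hjj
  set c := i * j with hc
  have hci : ∀ n : ℕ, i * c ^ n * i = (c ^ n)⁻¹ := by
    intro n
    have h1 : i * c * i = c⁻¹ := by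
      rw [hc, mul_inv_rev, hinvi, hinvj]
      calc i * (i * j) * i = (i * i) * j * i := by group
        _ = j * i := by rw [hii]; group
    induction n with
    | zero => simpa using hii
    | succ n ih =>
      calc i * c ^ (n + 1) * i = (i * c ^ n * i) * (i * c * i) := by
            rw [pow_succ]
            calc i * (c ^ n * c) * i = i * c ^ n * (i * i) * c * i := by rw [hii]; group
              _ = _ := by group
        _ = (c ^ (n + 1))⁻¹ := by
            have h9 : (c ^ (n + 1))⁻¹ = (c ^ n)⁻¹ * c⁻¹ := by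
              rw [pow_succ']; exact mul_inv_rev _ _
            rw [h9, ih, h1]
  have hn : 0 < orderOf c := orderOf_pos c
  have hodd : Odd (orderOf c) := by
    by_contra hodd
    rw [Nat.not_odd_iff_even] at hodd
    obtain ⟨m, hm⟩ := hodd
    have hm0 : 0 < m := by omega
    set e := c ^ m with he
    have he2 : e * e = 1 := by
      rw [he, ← pow_add, ← hm, pow_orderOf_eq_one]
    have he1 : e ≠ 1 := by
      intro he1
      have := orderOf_dvd_of_pow_eq_one he1
      have := Nat.le_of_dvd hm0 this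
      omega
    have hinve : e⁻¹ = e := inv_eq_of_mul_eq_one_left he2
    have hei : e * i = i * e := by
      have h1 := hci m
      rw [← he, hinve] at h1
      calc e * i = (i * e * i) * i := by rw [h1]
        _ = i * e * (i * i) := by group
        _ = i * e := by rw [hii]; group
    have hej : e * j = j * e := by
      have hcj : j * c * j = c⁻¹ := by
        rw [hc, mul_inv_rev, hinvi, hinvj]
        calc j * (i * j) * j = j * i * (j * j) := by group
          _ = j * i := by rw [hjj]; group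
      have hcjn : ∀ n : ℕ, j * c ^ n * j = (c ^ n)⁻¹ := by
        intro n
        induction n with
        | zero => simpa using hjj
        | succ n ih =>
          calc j * c ^ (n + 1) * j = (j * c ^ n * j) * (j * c * j) := by
                rw [pow_succ]
                calc j * (c ^ n * c) * j = j * c ^ n * (j * j) * c * j := by rw [hjj]; group
                  _ = _ := by group
            _ = (c ^ (n + 1))⁻¹ := by
                have h9 : (c ^ (n + 1))⁻¹ = (c ^ n)⁻¹ * c⁻¹ := by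
                  rw [pow_succ']; exact mul_inv_rev _ _
                rw [h9, ih, hcj]
      have h1 := hcjn m
      rw [← he, hinve] at h1
      calc e * j = (j * e * j) * j := by rw [h1]
        _ = j * e * (j * j) := by group
        _ = j * e := by rw [hjj]; group
    have heQ : e ∈ Q := h.cent i hi hi1 e hei
    have heQ' : e ∈ Q' := h'.cent j hj hj1 e hej
    exact hne (h.ti h' heQ heQ' he1)
  obtain ⟨m, hm⟩ := hodd
  refine ⟨c ^ m * i, ?_, ?_, ?_⟩
  · calc c ^ m * i * (c ^ m * i) = c ^ m * (i * c ^ m * i) := by group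
      _ = 1 := by rw [hci m]; group
  · have hw : (c ^ m * i)⁻¹ = c ^ m * i := by
      apply inv_eq_of_mul_eq_one_left
      calc c ^ m * i * (c ^ m * i) = c ^ m * (i * c ^ m * i) := by group
        _ = 1 := by rw [hci m]; group
    rw [hw]
    have h2 : c ^ m * c ^ m * c = 1 := by
      rw [← pow_add, ← pow_succ]
      have h8 : m + m + 1 = orderOf c := by omega
      rw [h8, pow_orderOf_eq_one]
    have h3 : c ^ m * c ^ m = c⁻¹ := eq_inv_of_mul_eq_one_left h2
    calc c ^ m * i * i * (c ^ m * i) = c ^ m * (i * i) * c ^ m * i := by group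
      _ = (c ^ m * c ^ m) * i := by rw [hii]; group
      _ = c⁻¹ * i := by rw [h3]
      _ = j := by
        rw [hc, mul_inv_rev, hinvi, hinvj]
        calc j * i * i = j * (i * i) := by group
          _ = j := by rw [hii]; group
  · have hw : (c ^ m * i)⁻¹ = c ^ m * i := by
      apply inv_eq_of_mul_eq_one_left
      calc c ^ m * i * (c ^ m * i) = c ^ m * (i * c ^ m * i) := by group
        _ = 1 := by rw [hci m]; group
    rw [hw]
    have h2 : c ^ m * c ^ m * c = 1 := by
      rw [← pow_add, ← pow_succ]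
      have h8 : m + m + 1 = orderOf c := by omega
      rw [h8, pow_orderOf_eq_one]
    have h3 : c ^ m * c ^ m = c⁻¹ := eq_inv_of_mul_eq_one_left h2
    have h4 : c ^ m * i * i * (c ^ m * i) = j := by
      calc c ^ m * i * i * (c ^ m * i) = c ^ m * (i * i) * c ^ m * i := by group
        _ = (c ^ m * c ^ m) * i := by rw [hii]; group
        _ = c⁻¹ * i := by rw [h3]
        _ = j := by
          rw [hc, mul_inv_rev, hinvi, hinvj]
          calc j * i * i = j * (i * i) := by group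
            _ = j := by rw [hii]; group
    rw [← h4]
    have h5 : c ^ m * i * (c ^ m * i) = 1 := by
      calc c ^ m * i * (c ^ m * i) = c ^ m * (i * c ^ m * i) := by group
        _ = 1 := by rw [hci m]; group
    calc c ^ m * i * (c ^ m * i * i * (c ^ m * i)) * (c ^ m * i) = (c ^ m * i * (c ^ m * i)) * i * (c ^ m * i * (c ^ m * i)) := by group
      _ = i := by rw [h5]; group


/-- Two-elements of the normalizer lie in `Q`. -/
theorem KL.two_mem {Q : Subgroup X} (h : KL Q) {x : X} (hx : x ∈ normalizer (Q : Set X)) {k : ℕ}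
    (hk : x ^ (2 ^ k) = 1) : x ∈ Q := by
  obtain ⟨f, hf⟩ := h.quot
  apply (hf ⟨x, hx⟩).mp
  have h1 : f ⟨x, hx⟩ ^ (2 ^ k) = 1 := by
    rw [← map_pow]
    have : (⟨x, hx⟩ : normalizer (Q : Set X)) ^ (2 ^ k) = 1 := Subtype.ext hk
    rw [this, map_one]
  have h3 : ∀ a : Multiplicative (ZMod 3), a ^ 3 = 1 := by decide
  have h4 := h3 (f ⟨x, hx⟩)
  have hc : Nat.Coprime (2 ^ k) 3 := Nat.Coprime.pow_left k (by norm_num)
  have h5 := (pow_gcd_eq_one).mpr ⟨h1, h4⟩
  rw [hc.gcd_eq_one, pow_one] at h5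
  exact h5

/-- `V` is a Sylow subgroup. -/
theorem KL.exists_sylow {V : Subgroup X} (h : KL V) : ∃ P : Sylow 2 X, (P : Subgroup X) = V := by
  haveI : Fact (Nat.Prime 2) := ⟨Nat.prime_two⟩
  have hp : IsPGroup 2 V := IsPGroup.of_card (n := 2) (by rw [h.card4]; norm_num)
  obtain ⟨P, hP⟩ := hp.exists_le_sylow
  refine ⟨P, ?_⟩
  by_contra hne
  have hlt : V < (P : Subgroup X) := lt_of_le_of_ne hP (Ne.symm hne)
  have hpg : IsPGroup 2 (P : Subgroup X) := P.isPGroup'
  haveI : Group.IsNilpotent (P : Subgroup X) := hpg.isNilpotent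
  have hnc := Group.normalizerCondition_of_isNilpotent (G := (P : Subgroup X))
  have hV' : V.subgroupOf (P : Subgroup X) < ⊤ := by
    rw [lt_top_iff_ne_top]
    intro e
    rw [subgroupOf_eq_top] at e
    exact hne (le_antisymm e hP)
  have h2 := hnc _ hV'
  obtain ⟨⟨x, hxP⟩, hx1, hx2⟩ := SetLike.exists_of_lt h2
  have hxV : x ∉ V := fun e => hx2 (by rw [mem_subgroupOf]; exact e)
  have hxN : x ∈ normalizer (V : Set X) := by
    rw [mem_normalizer_iff]
    intro y
    constructor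
    · intro hy
      by_cases hyP : y ∈ (P : Subgroup X)
      · have := (mem_normalizer_iff.mp hx1 ⟨y, hyP⟩).mp (by rw [mem_subgroupOf]; exact hy)
        rw [mem_subgroupOf] at this
        exact this
      · exact absurd (hP hy) hyP
    · intro hy
      have hyP : y ∈ (P : Subgroup X) := by
        have h3 : x * y * x⁻¹ ∈ (P : Subgroup X) := hP hy
        have h4 : y = x⁻¹ * (x * y * x⁻¹) * x := by group
        rw [h4]
        exact (P : Subgroup X).mul_mem ((P : Subgroup X).mul_mem ((P : Subgroup X).inv_mem hxP) h3) hxP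
      have := (mem_normalizer_iff.mp hx1 ⟨y, hyP⟩).mpr (by
        rw [mem_subgroupOf]
        exact hy)
      rw [mem_subgroupOf] at this
      exact this
  obtain ⟨k, hk⟩ := (IsPGroup.iff_orderOf.mp hpg) ⟨x, hxP⟩
  have hk2 : x ^ (2 ^ k) = 1 := by
    have := pow_orderOf_eq_one (⟨x, hxP⟩ : (P : Subgroup X))
    rw [hk] at this
    exact congrArg Subtype.val this
  exact hxV (h.two_mem hxN hk2)

theorem smul_eq_iff {g : X} {P : Sylow 2 X} : g • P = P ↔ g ∈ normalizer ((P : Subgroup X) : Set X) :=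
  Sylow.smul_eq_iff_mem_normalizer

section main

variable (hall : ∀ Q : Sylow 2 X, KL (Q : Subgroup X))
include hall

theorem swap_exists {Q₁ Q₂ : Sylow 2 X} (hne : Q₁ ≠ Q₂) {i j : X} (hi : i ∈ (Q₁ : Subgroup X))
    (hj : j ∈ (Q₂ : Subgroup X)) (hi1 : i ≠ 1) (hj1 : j ≠ 1) :
    ∃ w : X, w * w = 1 ∧ w * i * w⁻¹ = j ∧ w • Q₁ = Q₂ ∧ w • Q₂ = Q₁ := by
  have hne' : (Q₁ : Subgroup X) ≠ Q₂ := fun e => hne (Sylow.ext e)
  obtain ⟨w, hw, hwi, hwj⟩ := exists_swap (hall Q₁) (hall Q₂) hne' hi hj hi1 hj1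
  refine ⟨w, hw, hwi, ?_, ?_⟩
  · apply Sylow.ext
    apply (hall (w • Q₁)).ti (hall Q₂) (r := j) _ hj hj1
    rw [Sylow.coe_subgroup_smul, mem_smul_iff]
    have : w⁻¹ * j * w = i := by rw [← hwi]; group
    rw [this]; exact hi
  · apply Sylow.ext
    apply (hall (w • Q₂)).ti (hall Q₁) (r := i) _ hi hi1
    rw [Sylow.coe_subgroup_smul, mem_smul_iff]
    have : w⁻¹ * i * w = j := by
      have hinv : w⁻¹ = w := inv_eq_of_mul_eq_one_left hw
      rw [hinv]
      rw [hinv] at hwi
      exact hwi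
    rw [this]; exact hj

theorem exists_two_ne (Q : Sylow 2 X) : ∃ a ∈ (Q : Subgroup X), ∃ b ∈ (Q : Subgroup X), a ≠ 1 ∧ b ≠ 1 ∧ a ≠ b := by
  have h := (hall Q).card4
  have h2 : 2 < Nat.card (Q : Subgroup X) := by omega
  cases nonempty_fintype (Q : Subgroup X)
  rw [Nat.card_eq_fintype_card] at h2
  obtain ⟨a, b, c, hab, hac, hbc⟩ := (Fintype.two_lt_card_iff).mp h2
  by_cases ha : (a : X) = 1
  · refine ⟨b, b.2, c, c.2, ?_, ?_, ?_⟩
    · intro e; exact hab (Subtype.ext (by rw [ha, e]))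
    · intro e; exact hac (Subtype.ext (by rw [ha, e]))
    · intro e; exact hbc (Subtype.ext e)
  by_cases hb : (b : X) = 1
  · refine ⟨a, a.2, c, c.2, ha, ?_, ?_⟩
    · intro e; exact hbc (Subtype.ext (by rw [hb, e]))
    · intro e; exact hac (Subtype.ext e)
  · exact ⟨a, a.2, b, b.2, ha, hb, fun e => hab (Subtype.ext e)⟩

/-- The intersection of two normalizers has order three. -/
theorem inter_card {Q₁ Q₂ : Sylow 2 X} (hne : Q₁ ≠ Q₂) :
    Nat.card ↥(normalizer ((Q₁ : Subgroup X) : Set X) ⊓ normalizer ((Q₂ : Subgroup X) : Set X)) = 3 := by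
  haveI : Fact (Nat.Prime 3) := ⟨by norm_num⟩
  set D := normalizer ((Q₁ : Subgroup X) : Set X) ⊓ normalizer ((Q₂ : Subgroup X) : Set X) with hD
  have hne' : (Q₁ : Subgroup X) ≠ Q₂ := fun e => hne (Sylow.ext e)
  obtain ⟨f, hf⟩ := (hall Q₁).quot
  let g : D →* Multiplicative (ZMod 3) := f.comp (Subgroup.inclusion (inf_le_left : D ≤ _))
  have hinj : Function.Injective g := by
    rw [injective_iff_map_eq_one]
    rintro ⟨d, hd1, hd2⟩ hd
    have hdQ : d ∈ (Q₁ : Subgroup X) := (hf ⟨d, hd1⟩).mp hd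
    by_contra hd0
    have hd1' : d ≠ 1 := fun e => hd0 (Subtype.ext e)
    have hdd := (hall Q₁).sq d hdQ
    exact hne' ((hall Q₁).ti (hall Q₂) hdQ ((hall Q₂).inv_mem hd2 hdd) hd1')
  have hdvd : Nat.card D ∣ Nat.card (Multiplicative (ZMod 3)) := Subgroup.card_dvd_of_injective g hinj
  have h3 : Nat.card (Multiplicative (ZMod 3)) = 3 := by simp
  rw [h3] at hdvd
  obtain ⟨i, hi, hi1⟩ : ∃ i ∈ (Q₁ : Subgroup X), i ≠ 1 := by
    obtain ⟨a, ha, _, _, ha1, _⟩ := exists_two_ne hall Q₁
    exact ⟨a, ha, ha1⟩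
  obtain ⟨a, ha, b, hb, ha1, hb1, hab⟩ := exists_two_ne hall Q₂
  obtain ⟨w₁, hw₁, hw₁i, hw₁1, hw₁2⟩ := swap_exists hall hne hi ha hi1 ha1
  obtain ⟨w₂, hw₂, hw₂i, hw₂1, hw₂2⟩ := swap_exists hall hne hi hb hi1 hb1
  have hne12 : w₁ ≠ w₂ := by
    intro e
    rw [e, hw₂i] at hw₁i
    exact hab hw₁i.symm
  have hD1 : w₁ * w₂ ∈ D := by
    refine mem_inf.mpr ⟨?_, ?_⟩
    · rw [← smul_eq_iff, mul_smul, hw₂1, hw₁2]
    · rw [← smul_eq_iff, mul_smul, hw₂2, hw₁1]
  have hd1 : w₁ * w₂ ≠ 1 := by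
    intro e
    apply hne12
    have h5 : w₂⁻¹ = w₂ := inv_eq_of_mul_eq_one_left hw₂
    rw [← h5]
    exact eq_inv_of_mul_eq_one_left e
  have hcard : Nat.card D ≠ 1 := by
    intro e
    have := (Subgroup.card_le_one_iff_eq_bot (H := D)).mp (le_of_eq e)
    rw [this] at hD1
    exact hd1 ((Subgroup.mem_bot).mp hD1)
  rcases (Nat.dvd_prime (by norm_num : Nat.Prime 3)).mp hdvd with h | h
  · exact absurd h hcard
  · exact h

/-- A swapper inverts an element of order three normalizing both subgroups. -/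
theorem swap_invert {Q₁ Q₂ : Sylow 2 X} (hne : Q₁ ≠ Q₂) {τ w : X} (hτ : orderOf τ = 3)
    (h1 : τ ∈ normalizer ((Q₁ : Subgroup X) : Set X)) (h2 : τ ∈ normalizer ((Q₂ : Subgroup X) : Set X))
    (hw : w * w = 1) (hw1 : w • Q₁ = Q₂) (hw2 : w • Q₂ = Q₁) : w * τ * w⁻¹ = τ⁻¹ := by
  haveI : Fact (Nat.Prime 2) := ⟨Nat.prime_two⟩
  have hcard := inter_card hall hne
  set D := normalizer ((Q₁ : Subgroup X) : Set X) ⊓ normalizer ((Q₂ : Subgroup X) : Set X) with hD
  have hτD : τ ∈ D := mem_inf.mpr ⟨h1, h2⟩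
  have hinv : w⁻¹ = w := inv_eq_of_mul_eq_one_left hw
  have hτ' : w * τ * w⁻¹ ∈ D := by
    refine mem_inf.mpr ⟨?_, ?_⟩
    · rw [← smul_eq_iff, hinv, mul_smul, mul_smul, hw1, smul_eq_iff.mpr h2, hw2]
    · rw [← smul_eq_iff, hinv, mul_smul, mul_smul, hw2, smul_eq_iff.mpr h1, hw1]
  have hzp : D = zpowers τ := by
    symm
    apply Subgroup.eq_of_le_of_card_ge
    · rw [zpowers_le]; exact hτD
    · rw [hcard, Nat.card_zpowers, hτ]
  have hτ1 : τ ≠ 1 := by
    intro e
    rw [e, orderOf_one] at hτ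
    omega
  have hthree : ∀ x ∈ D, x = 1 ∨ x = τ ∨ x = τ⁻¹ := by
    classical
    intro x hx
    rw [hzp, mem_zpowers_iff_mem_range_orderOf, hτ] at hx
    simp only [Finset.mem_image, Finset.mem_range] at hx
    obtain ⟨n, hn, rfl⟩ := hx
    interval_cases n
    · left; simp
    · right; left; simp
    · right; right
      have h3 : τ ^ 3 = 1 := by rw [← hτ]; exact pow_orderOf_eq_one τ
      apply eq_inv_of_mul_eq_one_left
      rw [← pow_succ]; exact h3
  rcases hthree _ hτ' with e | e | e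
  · exfalso
    apply hτ1
    have h3 : τ = w⁻¹ * (w * τ * w⁻¹) * w := by group
    rw [h3, e]
    simp [hinv, hw]
  · exfalso
    have hp : IsPGroup 2 (zpowers w) := by
      apply IsPGroup.of_card (n := 1)
      rw [Nat.card_zpowers, pow_one]
      apply orderOf_eq_prime
      · rw [sq]; exact hw
      · intro e
        rw [e, one_smul] at hw1
        exact hne hw1
    obtain ⟨P, hP⟩ := hp.exists_le_sylow
    have hwP : w ∈ (P : Subgroup X) := hP (mem_zpowers w)
    have hw1' : w ≠ 1 := by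
      intro e
      rw [e, one_smul] at hw1
      exact hne hw1
    have hcomm : τ * w = w * τ := by
      calc τ * w = (w * τ * w⁻¹) * w := by rw [e]
        _ = w * τ := by group
    have hτP := (hall P).cent w hwP hw1' τ hcomm
    have := (hall P).sq τ hτP
    have h3 : τ ^ 3 = 1 := by rw [← hτ]; exact pow_orderOf_eq_one τ
    apply hτ1
    calc τ = τ ^ 3 * (τ * τ)⁻¹ := by group
      _ = 1 := by rw [h3, this]; simp
  · exact e

/-- Three distinct subgroups cannot be normalized by a common element of order three. -/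
theorem no_three {A B E : Sylow 2 X} (hAB : A ≠ B) (hAE : A ≠ E) (hBE : B ≠ E) {τ : X} (hτ : orderOf τ = 3)
    (h1 : τ ∈ normalizer ((A : Subgroup X) : Set X)) (h2 : τ ∈ normalizer ((B : Subgroup X) : Set X))
    (h3 : τ ∈ normalizer ((E : Subgroup X) : Set X)) : False := by
  have hex : ∀ Q : Sylow 2 X, ∃ i ∈ (Q : Subgroup X), i ≠ 1 := fun Q => by
    obtain ⟨a, ha, _, _, ha1, _⟩ := exists_two_ne hall Q
    exact ⟨a, ha, ha1⟩
  obtain ⟨i, hi, hi1⟩ := hex A
  obtain ⟨j, hj, hj1⟩ := hex B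
  obtain ⟨k, hk, hk1⟩ := hex E
  obtain ⟨w₁, hw₁, -, h11, h12⟩ := swap_exists hall hAB hi hj hi1 hj1
  obtain ⟨w₂, hw₂, -, h21, h22⟩ := swap_exists hall hAE hi hk hi1 hk1
  obtain ⟨w₃, hw₃, -, h31, h32⟩ := swap_exists hall hBE hj hk hj1 hk1
  have i1 := swap_invert hall hAB hτ h1 h2 hw₁ h11 h12
  have i2 := swap_invert hall hAE hτ h1 h3 hw₂ h21 h22
  have i3 := swap_invert hall hBE hτ h2 h3 hw₃ h31 h32
  have he : w₁ * w₂ * w₃ ∈ normalizer ((B : Subgroup X) : Set X) := by
    rw [← smul_eq_iff, mul_smul, mul_smul, h31, h22, h11]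
  have hconj : (w₁ * w₂ * w₃) * τ * (w₁ * w₂ * w₃)⁻¹ = τ⁻¹ := by
    have h4 : w₂ * τ⁻¹ * w₂⁻¹ = τ := by
      have : w₂ * τ⁻¹ * w₂⁻¹ = (w₂ * τ * w₂⁻¹)⁻¹ := by group
      rw [this, i2, inv_inv]
    calc (w₁ * w₂ * w₃) * τ * (w₁ * w₂ * w₃)⁻¹ = w₁ * (w₂ * (w₃ * τ * w₃⁻¹) * w₂⁻¹) * w₁⁻¹ := by group
      _ = τ⁻¹ := by rw [i3, h4, i1]
  have hτB := (hall B).not_invert he h2 hconj
  have hsq := (hall B).sq τ hτB
  have h5 : τ ^ 3 = 1 := by rw [← hτ]; exact pow_orderOf_eq_one τ
  have h6 : τ = 1 := by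
    calc τ = τ ^ 3 * (τ * τ)⁻¹ := by group
      _ = 1 := by rw [h5, hsq]; simp
  rw [h6, orderOf_one] at hτ
  omega

end main

theorem factorization_eq {n p k m : ℕ} (hp : p.Prime) (hn : n = p ^ k * m) (hm : ¬ p ∣ m) :
    n.factorization p = k := by
  have hm0 : m ≠ 0 := by
    rintro rfl
    exact hm (dvd_zero p)
  rw [hn, Nat.factorization_mul (pow_ne_zero _ hp.ne_zero) hm0]
  simp [Nat.Prime.factorization_pow hp, Nat.factorization_eq_zero_of_not_dvd hm]

/-- The main theorem. -/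
theorem card_of_KL {V : Subgroup X} (hV : KL V) : Nat.card X = 12 ∨ Nat.card X = 60 := by
  classical
  haveI : Fact (Nat.Prime 2) := ⟨Nat.prime_two⟩
  haveI : Fact (Nat.Prime 3) := ⟨by norm_num⟩
  obtain ⟨P, hP⟩ := hV.exists_sylow
  have hall : ∀ Q : Sylow 2 X, KL (Q : Subgroup X) := by
    intro Q
    obtain ⟨g, hg⟩ := MulAction.exists_smul_eq X P Q
    rw [← hg, Sylow.coe_subgroup_smul, hP]
    exact hV.smul g
  have hcard : Nat.card X = 12 * Nat.card (Sylow 2 X) := by
    rw [Sylow.card_eq_index_normalizer P, ← (hall P).ncard, mul_comm]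
    exact (Subgroup.index_mul_card _).symm
  by_cases hone : ∀ Q : Sylow 2 X, Q = P
  · left
    have : Nat.card (Sylow 2 X) = 1 := by
      rw [Nat.card_eq_one_iff_unique]
      exact ⟨⟨fun a b => by rw [hone a, hone b]⟩, ⟨P⟩⟩
    rw [hcard, this]
  · right
    push Not at hone
    obtain ⟨Q₁, hQ₁⟩ := hone
    let H : Subgroup X := normalizer ((P : Subgroup X) : Set X)
    have hHcard : Nat.card H = 12 := (hall P).ncard
    have hfac : (Nat.card H).factorization 3 = 1 := by
      rw [hHcard]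
      exact factorization_eq (m := 4) (by norm_num) (by norm_num) (by norm_num)
    -- a Sylow 3-subgroup attached to each `Q ≠ P`
    have hS : ∀ Q : Sylow 2 X, Q ≠ P → ∃ S : Sylow 3 H, ∀ x : H, x ∈ (S : Subgroup H) ↔ (x : X) ∈ normalizer ((Q : Subgroup X) : Set X) := by
      intro Q hQ
      let D' : Subgroup H := (H ⊓ normalizer ((Q : Subgroup X) : Set X)).subgroupOf H
      have hD'c : Nat.card D' = 3 ^ (Nat.card H).factorization 3 := by
        rw [hfac, pow_one, ← inter_card hall (Ne.symm hQ)]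
        exact Nat.card_congr (Subgroup.subgroupOfEquivOfLe (inf_le_left : H ⊓ normalizer ((Q : Subgroup X) : Set X) ≤ H)).toEquiv
      refine ⟨Sylow.ofCard D' hD'c, fun x => ?_⟩
      rw [Sylow.coe_ofCard, mem_subgroupOf]
      constructor
      · intro h; exact h.2
      · intro h; exact ⟨x.2, h⟩
    obtain ⟨S₁, hS₁⟩ := hS Q₁ hQ₁
    have hS₁c : Nat.card (S₁ : Subgroup H) = 3 := by
      rw [S₁.card_eq_multiplicity, hfac, pow_one]
    obtain ⟨τ', hτ'⟩ := exists_prime_orderOf_dvd_card' (G := (S₁ : Subgroup H)) 3 (by rw [hS₁c])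
    have hτ : orderOf ((τ' : H) : X) = 3 := by
      rw [Subgroup.orderOf_coe, Subgroup.orderOf_coe]; exact hτ'
    have hτN₁ : ((τ' : H) : X) ∈ normalizer ((Q₁ : Subgroup X) : Set X) := (hS₁ _).mp τ'.2
    have key : ∀ Q : Sylow 2 X, Q ≠ P → ∃ h : H, (h : X) • Q = Q₁ := by
      intro Q hQ
      obtain ⟨S, hS'⟩ := hS Q hQ
      obtain ⟨h, hh⟩ := MulAction.exists_smul_eq H S S₁
      refine ⟨h, ?_⟩
      by_contra hne
      have hhP : (h : X) • P = P := smul_eq_iff.mpr h.2
      have hPE : P ≠ (h : X) • Q := by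
        intro e
        apply hQ
        have h1 : ((h : X)⁻¹) • ((h : X) • Q) = Q := inv_smul_smul _ _
        rw [← h1, ← e]
        have h2 : ((h : X)⁻¹) • ((h : X) • P) = P := inv_smul_smul _ _
        rw [hhP] at h2
        exact h2
      have hxS : h⁻¹ * (τ' : H) * h ∈ (S : Subgroup H) := by
        have h1 : (τ' : H) ∈ ((h • S : Sylow 3 H) : Subgroup H) := by rw [hh]; exact τ'.2
        rw [Sylow.coe_subgroup_smul, mem_smul_iff] at h1
        exact h1
      have hxN := (hS' _).mp hxS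
      have hτE : ((τ' : H) : X) ∈ normalizer ((((h : X) • Q : Sylow 2 X) : Subgroup X) : Set X) := by
        rw [← smul_eq_iff, ← mul_smul]
        have h1 : ((τ' : H) : X) * (h : X) = (h : X) * (((h⁻¹ * (τ' : H) * h : H)) : X) := by
          simp only [Subgroup.coe_mul, Subgroup.coe_inv]; group
        rw [h1, mul_smul, smul_eq_iff.mpr hxN]
      exact no_three hall (Ne.symm hQ₁) hPE (Ne.symm hne) hτ (τ' : H).2 hτN₁ hτE
    -- counting
    have horb : MulAction.orbit H Q₁ = ({P} : Set (Sylow 2 X))ᶜ := by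
      ext Q
      simp only [MulAction.mem_orbit_iff, Set.mem_compl_iff, Set.mem_singleton_iff]
      constructor
      · rintro ⟨h, rfl⟩ e
        apply hQ₁
        have h1 : ((h : X)⁻¹) • ((h : X) • Q₁) = Q₁ := inv_smul_smul _ _
        have h3 : (h : X) • Q₁ = P := e
        rw [h3] at h1
        have h2 : ((h : X)⁻¹) • ((h : X) • P) = P := inv_smul_smul _ _
        rw [smul_eq_iff.mpr h.2] at h2
        rw [← h1, h2]
      · intro hQ
        obtain ⟨h, hh⟩ := key Q hQ
        refine ⟨h⁻¹, ?_⟩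
        have h1 : ((h : X)⁻¹) • ((h : X) • Q) = Q := inv_smul_smul _ _
        rw [hh] at h1
        exact h1
    have hstab : Nat.card (MulAction.stabilizer H Q₁) = 3 := by
      rw [← inter_card hall (Ne.symm hQ₁)]
      refine Nat.card_congr ⟨fun x => ⟨x.1.1, mem_inf.mpr ⟨x.1.2, smul_eq_iff.mp x.2⟩⟩,
        fun x => ⟨⟨x.1, (mem_inf.mp x.2).1⟩, smul_eq_iff.mpr (mem_inf.mp x.2).2⟩, fun x => rfl, fun x => rfl⟩
    have horbc := Nat.card_congr (MulAction.orbitProdStabilizerEquivGroup H Q₁)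
    rw [Nat.card_prod, hstab, hHcard] at horbc
    have h4 : Nat.card (MulAction.orbit H Q₁) = 4 := by omega
    rw [horb, Nat.card_coe_set_eq] at h4
    have h5 := Set.ncard_add_ncard_compl ({P} : Set (Sylow 2 X))
    rw [h4, Set.ncard_singleton] at h5
    rw [hcard, ← h5]

end Cfsg.Agent.Lib.HJSyl.Klein
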