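import Cfsg.Agent.Lib.HJSyl.ZThree
import Cfsg.Agent.Lib.PGroups.Special

set_option autoImplicit false
set_option linter.unusedSectionVars false
set_option linter.unusedVariables false
set_option linter.style.longLine false

/-! Non-abelian groups of order 27. -/

namespace Cfsg.Agent.Lib.HJSyl.Order27

open Subgroup
open scoped commutatorElement

theorem order27_abs {P : Type*} [Group P] [Finite P] (hc : Nat.card P = 27) (hna : ¬ ∀ x y : P, x * y = y * x) :
    ∃ a : P, orderOf a = 3 ∧ (∀ x, x ∈ center P ↔ x ∈ zpowers a) ∧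
      (∀ x y : P, x * y * x⁻¹ * y⁻¹ ∈ zpowers a) ∧
      (∀ x, x ∉ zpowers a → ∀ w ∈ zpowers a, ∃ y : P, y * x * y⁻¹ = w * x) := by
  classical
  haveI : Fact (Nat.Prime 3) := ⟨by norm_num⟩
  have hp : IsPGroup 3 P := IsPGroup.of_card (n := 3) (by rw [hc]; norm_num)
  haveI : Nontrivial P := by
    rw [← Finite.one_lt_card_iff_nontrivial, hc]; norm_num
  have hnt := hp.center_nontrivial
  have hZdvd : Nat.card (center P) ∣ 3 ^ 3 := by
    have := Subgroup.card_subgroup_dvd_card (center P)
    rw [hc] at this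
    simpa using this
  obtain ⟨k, hk, hZ⟩ := (Nat.dvd_prime_pow (by norm_num : Nat.Prime 3)).mp hZdvd
  have hk0 : k ≠ 0 := by
    rintro rfl
    have : 1 < Nat.card (center P) := Finite.one_lt_card
    rw [hZ] at this
    norm_num at this
  have hk3 : k ≠ 3 := by
    rintro rfl
    apply hna
    have htop : center P = ⊤ := by
      apply Subgroup.eq_top_of_card_eq
      rw [hZ, hc]; norm_num
    intro x y
    have hx : x ∈ center P := by rw [htop]; exact mem_top x
    exact (mem_center_iff.mp hx y).symm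
  have hk2 : k ≠ 2 := by
    rintro rfl
    apply hna
    have hq : Nat.card (P ⧸ center P) = 3 := by
      have := Subgroup.card_eq_card_quotient_mul_card_subgroup (center P)
      rw [hc, hZ] at this
      omega
    haveI : IsCyclic (P ⧸ center P) := isCyclic_of_prime_card hq
    exact commutative_of_cyclic_center_quotient (QuotientGroup.mk' (center P)) (by simp)
  have hk1 : k = 1 := by omega
  subst hk1
  have hZ3 : Nat.card (center P) = 3 := by simpa using hZ
  haveI : IsCyclic (center P) := isCyclic_of_prime_card hZ3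
  obtain ⟨g, hg⟩ := IsCyclic.exists_generator (α := center P)
  have hgord : orderOf g = 3 := by
    rw [← hZ3]
    exact orderOf_eq_card_of_forall_mem_zpowers hg
  refine ⟨(g : P), by rw [Subgroup.orderOf_coe, hgord], ?_, ?_, ?_⟩
  · have key : ∀ x, x ∈ center P ↔ x ∈ zpowers (g : P) := by
      intro x
      constructor
      · intro hx
        obtain ⟨m, hm⟩ := mem_zpowers_iff.mp (hg ⟨x, hx⟩)
        refine mem_zpowers_iff.mpr ⟨m, ?_⟩
        exact congrArg Subtype.val hm
      · intro hx
        obtain ⟨m, rfl⟩ := mem_zpowers_iff.mp hx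
        exact zpow_mem g.2 m
    exact key
  · have key : ∀ x, x ∈ center P ↔ x ∈ zpowers (g : P) := by
      intro x
      constructor
      · intro hx
        obtain ⟨m, hm⟩ := mem_zpowers_iff.mp (hg ⟨x, hx⟩)
        refine mem_zpowers_iff.mpr ⟨m, ?_⟩
        exact congrArg Subtype.val hm
      · intro hx
        obtain ⟨m, rfl⟩ := mem_zpowers_iff.mp hx
        exact zpow_mem g.2 m
    intro x y
    rw [← key]
    have hq : Nat.card (P ⧸ center P) = 3 ^ 2 := by
      have := Subgroup.card_eq_card_quotient_mul_card_subgroup (center P)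
      rw [hc, hZ3] at this
      omega
    have hcomm := IsPGroup.commutative_of_card_eq_prime_sq (p := 3) hq
    have h1 := hcomm (QuotientGroup.mk x⁻¹) (QuotientGroup.mk y⁻¹)
    have h2 : ((x⁻¹ * y⁻¹ : P) : P ⧸ center P) = ((y⁻¹ * x⁻¹ : P) : P ⧸ center P) := h1
    have h3 := QuotientGroup.eq.mp h2.symm
    have h4 : (y⁻¹ * x⁻¹)⁻¹ * (x⁻¹ * y⁻¹) = x * y * x⁻¹ * y⁻¹ := by group
    rwa [h4] at h3
  · have key : ∀ x, x ∈ center P ↔ x ∈ zpowers (g : P) := by
      intro x
      constructor
      · intro hx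
        obtain ⟨m, hm⟩ := mem_zpowers_iff.mp (hg ⟨x, hx⟩)
        refine mem_zpowers_iff.mpr ⟨m, ?_⟩
        exact congrArg Subtype.val hm
      · intro hx
        obtain ⟨m, rfl⟩ := mem_zpowers_iff.mp hx
        exact zpow_mem g.2 m
    have hcomm' : ∀ x y : P, x * y * x⁻¹ * y⁻¹ ∈ center P := by
      intro x y
      have hq : Nat.card (P ⧸ center P) = 3 ^ 2 := by
        have := Subgroup.card_eq_card_quotient_mul_card_subgroup (center P)
        rw [hc, hZ3] at this
        omega
      have hcomm := IsPGroup.commutative_of_card_eq_prime_sq (p := 3) hq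
      have h1 := hcomm (QuotientGroup.mk x⁻¹) (QuotientGroup.mk y⁻¹)
      have h2 : ((x⁻¹ * y⁻¹ : P) : P ⧸ center P) = ((y⁻¹ * x⁻¹ : P) : P ⧸ center P) := h1
      have h3 := QuotientGroup.eq.mp h2.symm
      have h4 : (y⁻¹ * x⁻¹)⁻¹ * (x⁻¹ * y⁻¹) = x * y * x⁻¹ * y⁻¹ := by group
      rwa [h4] at h3
    intro x hx w hw
    -- a non-commuting element
    obtain ⟨y₀, hy₀⟩ : ∃ y₀ : P, y₀ * x * y₀⁻¹ * x⁻¹ ≠ 1 := by
      by_contra hall
      push Not at hall
      apply hx
      rw [← key, mem_center_iff]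
      intro y
      have := hall y
      calc y * x = (y * x * y⁻¹ * x⁻¹) * (x * y) := by group
        _ = x * y := by rw [this]; group
    set b := y₀ * x * y₀⁻¹ * x⁻¹ with hb
    have hbZ : b ∈ center P := hcomm' y₀ x
    have hbcomm : ∀ c : P, c * b = b * c := fun c => mem_center_iff.mp hbZ c
    have hstep : y₀ * x * y₀⁻¹ = b * x := by rw [hb]; group
    have hind : ∀ n : ℕ, y₀ ^ n * x * (y₀ ^ n)⁻¹ = b ^ n * x := by
      intro n
      induction n with
      | zero => simp
      | succ n ih =>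
        have hbn : y₀ * b ^ n = b ^ n * y₀ := (show Commute y₀ (b ^ n) from (Commute.pow_right (hbcomm y₀) n)).eq
        calc y₀ ^ (n + 1) * x * (y₀ ^ (n + 1))⁻¹ = y₀ * (y₀ ^ n * x * (y₀ ^ n)⁻¹) * y₀⁻¹ := by
              rw [pow_succ']; group
          _ = y₀ * (b ^ n * x) * y₀⁻¹ := by rw [ih]
          _ = (y₀ * b ^ n) * x * y₀⁻¹ := by group
          _ = (b ^ n * y₀) * x * y₀⁻¹ := by rw [hbn]
          _ = b ^ n * (y₀ * x * y₀⁻¹) := by group
          _ = b ^ n * (b * x) := by rw [hstep]
          _ = b ^ (n + 1) * x := by rw [pow_succ]; group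
    -- `b` generates the centre
    have hgen : (g : P) ∈ zpowers b := by
      have hb3 : orderOf b = 3 := by
        have h1 : orderOf (⟨b, hbZ⟩ : center P) ∣ Nat.card (center P) := orderOf_dvd_natCard _
        rw [hZ3] at h1
        have h2 : orderOf (⟨b, hbZ⟩ : center P) = 3 := by
          rcases (Nat.dvd_prime (by norm_num : Nat.Prime 3)).mp h1 with e | e
          · exfalso
            rw [orderOf_eq_one_iff] at e
            exact hy₀ (congrArg Subtype.val e)
          · exact e
        rwa [Subgroup.orderOf_mk] at h2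
      have h1 : zpowers b ≤ zpowers (g : P) := by
        rw [zpowers_le, ← key]
        exact hbZ
      have h2 : zpowers b = zpowers (g : P) := by
        apply Subgroup.eq_of_le_of_card_ge h1
        rw [Nat.card_zpowers, Nat.card_zpowers, hb3, Subgroup.orderOf_coe, hgord]
      rw [h2]
      exact mem_zpowers _
    have hwb : w ∈ zpowers b := by
      obtain ⟨m, rfl⟩ := mem_zpowers_iff.mp hw
      exact zpow_mem hgen m
    rw [← mem_powers_iff_mem_zpowers] at hwb
    obtain ⟨n, rfl⟩ := hwb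
    exact ⟨y₀ ^ n, hind n⟩

/-- Subgroup form. -/
theorem order27 {G : Type*} [Group G] [Finite G] (P : Subgroup G) (hc : Nat.card P = 27)
    (hna : ¬ ∀ x ∈ P, ∀ y ∈ P, x * y = y * x) :
    ∃ a ∈ P, orderOf a = 3 ∧ (∀ x ∈ P, (∀ y ∈ P, x * y = y * x) ↔ x ∈ zpowers a) ∧
      (∀ x ∈ P, ∀ y ∈ P, x * y * x⁻¹ * y⁻¹ ∈ zpowers a) ∧
      (∀ x ∈ P, x ∉ zpowers a → ∀ w ∈ zpowers a, ∃ y ∈ P, y * x * y⁻¹ = w * x) := by
  obtain ⟨a, ha3, h1, h2, h3⟩ := order27_abs (P := P) hc (by
    intro hall
    apply hna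
    intro x hx y hy
    exact congrArg Subtype.val (hall ⟨x, hx⟩ ⟨y, hy⟩))
  have hmem : ∀ x : P, (x : G) ∈ zpowers (a : G) ↔ x ∈ zpowers a := by
    intro x
    rw [mem_zpowers_iff, mem_zpowers_iff]
    constructor
    · rintro ⟨k, hk⟩
      exact ⟨k, Subtype.ext (by simpa using hk)⟩
    · rintro ⟨k, hk⟩
      exact ⟨k, by rw [← hk]; simp⟩
  refine ⟨a, a.2, by rw [Subgroup.orderOf_coe, ha3], ?_, ?_, ?_⟩
  · intro x hx
    have := h1 ⟨x, hx⟩
    rw [← hmem] at this
    rw [← this, mem_center_iff]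
    constructor
    · intro h y
      exact Subtype.ext (h y y.2).symm
    · intro h y hy
      exact (congrArg Subtype.val (h ⟨y, hy⟩)).symm
  · intro x hx y hy
    have := h2 ⟨x, hx⟩ ⟨y, hy⟩
    rw [← hmem] at this
    simpa using this
  · intro x hx hxa w hw
    have hxa' : (⟨x, hx⟩ : P) ∉ zpowers a := by
      rw [← hmem]; exact hxa
    have hwP : w ∈ P := by
      have : zpowers (a : G) ≤ P := by rw [zpowers_le]; exact a.2
      exact this hw
    obtain ⟨y, hy⟩ := h3 _ hxa' ⟨w, hwP⟩ (by rw [← hmem]; exact hw)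
    refine ⟨y, y.2, ?_⟩
    exact congrArg Subtype.val hy

/-- A non-abelian group of order 27 is extraspecial. -/
theorem isExtraspecial_27 {P : Type*} [Group P] [Finite P] (hc : Nat.card P = 27) (hna : ¬ ∀ x y : P, x * y = y * x) :
    Cfsg.IsExtraspecial 3 P := by
  classical
  haveI : Fact (Nat.Prime 3) := ⟨by norm_num⟩
  obtain ⟨a, ha3, h1, h2, h3⟩ := order27_abs hc hna
  have hZ : center P = zpowers a := by
    ext x
    exact h1 x
  have hcomm : ∀ x y : P, ⁅x, y⁆ ∈ center P := by
    intro x y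
    rw [commutatorElement_def, hZ]
    exact h2 x y
  have hE : Cfsg.Agent.Lib.PGroups.Special.ExtraLike 3 P := by
    refine ⟨IsPGroup.of_card (n := 3) (by rw [hc]; norm_num), ?_, hcomm, ?_⟩
    · rw [hZ, Nat.card_zpowers, ha3]
    · intro x
      rw [mem_center_iff]
      intro y
      have hw := h2 y x
      rw [← hZ] at hw
      set w := y * x * y⁻¹ * x⁻¹ with hwdef
      have hwc : ∀ c : P, c * w = w * c := fun c => mem_center_iff.mp hw c
      have hw3 : w ^ 3 = 1 := by
        have hw' : w ∈ zpowers a := by rw [← hZ]; exact hw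
        obtain ⟨k, hk⟩ := mem_zpowers_iff.mp hw'
        rw [← hk, ← zpow_natCast, ← zpow_mul, mul_comm, zpow_mul, zpow_natCast, ← ha3, pow_orderOf_eq_one, one_zpow]
      have hyx : y * x * y⁻¹ = w * x := by rw [hwdef]; group
      have h4 : y * x ^ 3 * y⁻¹ = x ^ 3 := by
        rw [← conj_pow, hyx]
        have hcw : Commute w x := (hwc x).symm
        rw [hcw.mul_pow, hw3, one_mul]
      calc y * x ^ 3 = (y * x ^ 3 * y⁻¹) * y := by group
        _ = x ^ 3 * y := by rw [h4]
  exact hE.isExtraspecial (by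
    intro hcm
    apply hna
    intro x y
    exact hcm.is_comm.comm x y)

end Cfsg.Agent.Lib.HJSyl.Order27
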