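import Cfsg.Agent.Lib.HJSyl.Basic
import Cfsg.Agent.Lib.HJOrder.Local

set_option autoImplicit false
set_option linter.unusedSectionVars false
set_option linter.unusedVariables false
set_option linter.style.longLine false

/-! The local data at the involutions of a group of Hall-Janko type. -/

namespace Cfsg.Agent.Lib.HJSyl.Setup

open Subgroup Cfsg.Agent.Lib.HJSyl.Klein Cfsg.Agent.Lib.HJSyl.Basic
open scoped Pointwise

abbrev A4 := alternatingGroup (Fin 4)
abbrev A5 := alternatingGroup (Fin 5)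

theorem a4_card : Nat.card A4 = 12 := by
  rw [Nat.card_eq_fintype_card]; decide +kernel
theorem a5_card : Nat.card A5 = 60 := by
  rw [Nat.card_eq_fintype_card]; decide +kernel
theorem a4_trans : ∀ a b : A4, a ^ 2 = 1 → a ≠ 1 → b ^ 2 = 1 → b ≠ 1 → ∃ c : A4, c * a * c⁻¹ = b := by
  decide +kernel
theorem a4_ex3 : ∃ u : A4, u ^ 3 = 1 ∧ u ≠ 1 := by decide +kernel
theorem a4_no_comm : ∀ u r : A4, u ^ 3 = 1 → u ≠ 1 → r ^ 2 = 1 → r ≠ 1 → u * r ≠ r * u := by decide +kernel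
theorem a4_cent3 : ∀ u l : A4, u ^ 3 = 1 → u ≠ 1 → l * u * l⁻¹ = u → l = 1 ∨ l = u ∨ l = u⁻¹ := by
  decide +kernel
theorem a4_noinv : ∀ u l : A4, u ^ 3 = 1 → u ≠ 1 → l * u * l⁻¹ ≠ u⁻¹ := by
  decide +kernel
theorem a5_cent3 : ∀ a b : A5, a ^ 3 = 1 → a ≠ 1 → a * b = b * a → ∃ k : Fin 3, b = a ^ (k : ℕ) := by decide +kernel
theorem a5_cent5 : ∀ a b : A5, a ^ 5 = 1 → a ≠ 1 → a * b = b * a → ∃ k : Fin 5, b = a ^ (k : ℕ) := by
  decide +kernel
theorem a5_ex5 : ∃ w : A5, w ^ 5 = 1 ∧ w ≠ 1 := by decide +kernel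
theorem a5_ex3 : ∃ u s : A5, u ^ 3 = 1 ∧ u ≠ 1 ∧ s ^ 2 = 1 ∧ s ≠ 1 ∧ s * u * s⁻¹ = u⁻¹ := by decide +kernel

variable {G : Type*} [Group G] [Finite G]

/-- The data at an involution not conjugate to `z`. -/
structure TData (t : G) (V L4 L5 : Subgroup G) : Prop where
  t_mem : t ∈ V
  t_ne : t ≠ 1
  card_V : Nat.card V = 4
  sq_V : ∀ x ∈ V, x * x = 1
  V_le : V ≤ L4
  L4_norm : L4 ≤ normalizer (V : Set G)
  iso4 : Nonempty (L4 ≃* A4)
  iso5 : Nonempty (L5 ≃* A5)
  comm : ∀ x ∈ L4, ∀ y ∈ L5, x * y = y * x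
  disj : ∀ x ∈ L4, x ∈ L5 → x = 1
  cent : ∀ g : G, g * t = t * g → ∃ x ∈ V, ∃ y ∈ L5, g = x * y
  norm : ∀ g ∈ normalizer (V : Set G), ∃ x ∈ L4, ∃ y ∈ L5, g = x * y

namespace TData

variable {t : G} {V L4 L5 : Subgroup G}

theorem card4 (h : TData t V L4 L5) : Nat.card L4 = 12 := by
  obtain ⟨e⟩ := h.iso4
  rw [Nat.card_congr e.toEquiv, a4_card]

theorem card5 (h : TData t V L4 L5) : Nat.card L5 = 60 := by
  obtain ⟨e⟩ := h.iso5
  rw [Nat.card_congr e.toEquiv, a5_card]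

/-- `C(r)` for all involutions of `V`. -/
theorem cent_r (h : TData t V L4 L5) {r : G} (hr : r ∈ V) (hr1 : r ≠ 1) {g : G} (hg : g * r = r * g) :
    ∃ x ∈ V, ∃ y ∈ L5, g = x * y := by
  obtain ⟨e⟩ := h.iso4
  have h1 : (⟨t, h.V_le h.t_mem⟩ : L4) ^ 2 = 1 := Subtype.ext (by rw [sq]; exact h.sq_V t h.t_mem)
  have h2 : (⟨r, h.V_le hr⟩ : L4) ^ 2 = 1 := Subtype.ext (by rw [sq]; exact h.sq_V r hr)
  obtain ⟨c, hc⟩ := a4_trans (e ⟨t, h.V_le h.t_mem⟩) (e ⟨r, h.V_le hr⟩) (by rw [← map_pow, h1, map_one])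
    (by
      rw [Ne, map_eq_one_iff _ e.injective]
      intro e1
      exact h.t_ne (congrArg Subtype.val e1))
    (by rw [← map_pow, h2, map_one])
    (by
      rw [Ne, map_eq_one_iff _ e.injective]
      intro e1
      exact hr1 (congrArg Subtype.val e1))
  obtain ⟨l, rfl⟩ := e.surjective c
  have hl : (l : G) * t * (l : G)⁻¹ = r := by
    have h3 : l * ⟨t, h.V_le h.t_mem⟩ * l⁻¹ = ⟨r, h.V_le hr⟩ := by
      apply e.injective
      rw [map_mul, map_mul, map_inv]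
      exact hc
    exact congrArg Subtype.val h3
  have hg' : ((l : G)⁻¹ * g * l) * t = t * ((l : G)⁻¹ * g * l) := by
    have h4 : t = (l : G)⁻¹ * r * l := by rw [← hl]; group
    rw [h4]
    calc (l : G)⁻¹ * g * l * ((l : G)⁻¹ * r * l) = (l : G)⁻¹ * (g * r) * l := by group
      _ = (l : G)⁻¹ * (r * g) * l := by rw [hg]
      _ = _ := by group
  obtain ⟨x, hx, y, hy, e2⟩ := h.cent _ hg'
  refine ⟨(l : G) * x * (l : G)⁻¹, (mem_normalizer_iff.mp (h.L4_norm l.2) x).mp hx, y, hy, ?_⟩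
  have hcomm := h.comm _ l.2 y hy
  have hcomm' : y * (l : G)⁻¹ = (l : G)⁻¹ * y := by
    calc y * (l : G)⁻¹ = (l : G)⁻¹ * (l * y) * (l : G)⁻¹ := by group
      _ = (l : G)⁻¹ * (y * l) * (l : G)⁻¹ := by rw [hcomm]
      _ = _ := by group
  calc g = (l : G) * ((l : G)⁻¹ * g * l) * (l : G)⁻¹ := by group
    _ = (l : G) * (x * y) * (l : G)⁻¹ := by rw [e2]
    _ = (l : G) * x * (y * (l : G)⁻¹) := by group
    _ = (l : G) * x * ((l : G)⁻¹ * y) := by rw [hcomm']
    _ = _ := by group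

/-- Centralizers in `L5`, order 3. -/
theorem L5_cent3 (h : TData t V L4 L5) {y : G} (hy : y ∈ L5) (hy3 : orderOf y = 3) {l : G} (hl : l ∈ L5)
    (hc : l * y = y * l) : l ∈ zpowers y := by
  obtain ⟨e⟩ := h.iso5
  have hy31 : y ^ 3 = 1 := by rw [← hy3]; exact pow_orderOf_eq_one y
  have hy1 : y ≠ 1 := by
    intro e1
    rw [e1, orderOf_one] at hy3
    omega
  have h1 : e ⟨y, hy⟩ ^ 3 = 1 := by
    rw [← map_pow]
    have : (⟨y, hy⟩ : L5) ^ 3 = 1 := Subtype.ext hy31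
    rw [this, map_one]
  have h2 : e ⟨y, hy⟩ ≠ 1 := by
    rw [Ne, map_eq_one_iff _ e.injective]
    intro e1
    exact hy1 (congrArg Subtype.val e1)
  have h3 : e ⟨y, hy⟩ * e ⟨l, hl⟩ = e ⟨l, hl⟩ * e ⟨y, hy⟩ := by
    rw [← map_mul, ← map_mul]
    congr 1
    exact Subtype.ext hc.symm
  obtain ⟨k, hk⟩ := a5_cent3 _ _ h1 h2 h3
  rw [← map_pow] at hk
  have := e.injective hk
  have h5 : l = y ^ (k : ℕ) := congrArg Subtype.val this
  rw [h5]
  exact pow_mem (mem_zpowers y) _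

/-- Centralizers in `L5`, order 5. -/
theorem L5_cent5 (h : TData t V L4 L5) {y : G} (hy : y ∈ L5) (hy5 : orderOf y = 5) {l : G} (hl : l ∈ L5)
    (hc : l * y = y * l) : l ∈ zpowers y := by
  obtain ⟨e⟩ := h.iso5
  have hy31 : y ^ 5 = 1 := by rw [← hy5]; exact pow_orderOf_eq_one y
  have hy1 : y ≠ 1 := by
    intro e1
    rw [e1, orderOf_one] at hy5
    omega
  have h1 : e ⟨y, hy⟩ ^ 5 = 1 := by
    rw [← map_pow]
    have : (⟨y, hy⟩ : L5) ^ 5 = 1 := Subtype.ext hy31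
    rw [this, map_one]
  have h2 : e ⟨y, hy⟩ ≠ 1 := by
    rw [Ne, map_eq_one_iff _ e.injective]
    intro e1
    exact hy1 (congrArg Subtype.val e1)
  have h3 : e ⟨y, hy⟩ * e ⟨l, hl⟩ = e ⟨l, hl⟩ * e ⟨y, hy⟩ := by
    rw [← map_mul, ← map_mul]
    congr 1
    exact Subtype.ext hc.symm
  obtain ⟨k, hk⟩ := a5_cent5 _ _ h1 h2 h3
  rw [← map_pow] at hk
  have := e.injective hk
  have h5 : l = y ^ (k : ℕ) := congrArg Subtype.val this
  rw [h5]
  exact pow_mem (mem_zpowers y) _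

theorem inf_VY (h : TData t V L4 L5) {v c y : G} (hv : v ∈ V) (hy : y ∈ L5) (hc : c ∈ zpowers y) (e : v = c) : v = 1 := by
  have hcL : c ∈ L5 := by
    have : zpowers y ≤ L5 := by rw [zpowers_le]; exact hy
    exact this hc
  exact h.disj v (h.V_le hv) (e ▸ hcL)

/-- An element of `L5` of order `3` or `5` has `V`-times-`⟨y⟩` as centralizer of `r` in `C(y)`. -/
theorem cent_ry (h : TData t V L4 L5) {y : G} (hy : y ∈ L5) (hp : orderOf y = 3 ∨ orderOf y = 5) {r : G} (hr : r ∈ V)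
    (hr1 : r ≠ 1) {g : G} (hg : g * r = r * g) (hgy : g * y = y * g) : ∃ v ∈ V, ∃ c ∈ zpowers y, g = v * c := by
  obtain ⟨x, hx, l, hl, e⟩ := h.cent_r hr hr1 hg
  have h1 : x * y = y * x := h.comm x (h.V_le hx) y hy
  have h2 : l * y = y * l := by
    have h3 : x * (l * y) = x * (y * l) := by
      calc x * (l * y) = (x * l) * y := by group
        _ = g * y := by rw [e]
        _ = y * g := hgy
        _ = y * (x * l) := by rw [e]
        _ = (y * x) * l := by group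
        _ = (x * y) * l := by rw [h1]
        _ = x * (y * l) := by group
    exact mul_left_cancel h3
  refine ⟨x, hx, l, ?_, e⟩
  rcases hp with hp | hp
  · exact h.L5_cent3 hy hp hl h2
  · exact h.L5_cent5 hy hp hl h2

/-- The normalizer of `V` in `C(y)`. -/
theorem norm_y (h : TData t V L4 L5) {y : G} (hy : y ∈ L5) (hp : orderOf y = 3 ∨ orderOf y = 5) {g : G}
    (hg : g ∈ normalizer (V : Set G)) (hgy : g * y = y * g) : ∃ v ∈ L4, ∃ c ∈ zpowers y, g = v * c := by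
  obtain ⟨x, hx, l, hl, e⟩ := h.norm g hg
  have h1 : x * y = y * x := h.comm x hx y hy
  have h2 : l * y = y * l := by
    have h3 : x * (l * y) = x * (y * l) := by
      calc x * (l * y) = (x * l) * y := by group
        _ = g * y := by rw [e]
        _ = y * g := hgy
        _ = y * (x * l) := by rw [e]
        _ = (y * x) * l := by group
        _ = (x * y) * l := by rw [h1]
        _ = x * (y * l) := by group
    exact mul_left_cancel h3
  refine ⟨x, hx, l, ?_, e⟩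
  rcases hp with hp | hp
  · exact h.L5_cent3 hy hp hl h2
  · exact h.L5_cent5 hy hp hl h2

/-- The order of the centralizer of an element of order `p` of `L5`. -/
theorem card_cent (h : TData t V L4 L5) {y : G} (hy : y ∈ L5) (hp : orderOf y = 3 ∨ orderOf y = 5) :
    Nat.card (centralizer ({y} : Set G)) = 12 * orderOf y ∨ Nat.card (centralizer ({y} : Set G)) = 60 * orderOf y := by
  classical
  set K := centralizer ({y} : Set G) with hK
  have hmemK : ∀ g, g ∈ K ↔ g * y = y * g := fun g => mem_centralizer_singleton_iff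
  have hyK : y ∈ K := (hmemK y).mpr rfl
  have hVK : V ≤ K := fun x hx => (hmemK x).mpr (h.comm x (h.V_le hx) y hy)
  have hLK : L4 ≤ K := fun x hx => (hmemK x).mpr (h.comm x hx y hy)
  let Y : Subgroup K := zpowers ⟨y, hyK⟩
  have hYmem : ∀ c : K, c ∈ Y ↔ (c : G) ∈ zpowers y := by
    intro c
    constructor
    · intro hc
      obtain ⟨k, hk⟩ := mem_zpowers_iff.mp hc
      rw [← hk]
      exact zpow_mem (mem_zpowers y) k
    · intro hc
      obtain ⟨k, hk⟩ := mem_zpowers_iff.mp hc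
      exact mem_zpowers_iff.mpr ⟨k, Subtype.ext (by simpa using hk)⟩
  have hYcard : Nat.card Y = orderOf y := by
    rw [Nat.card_zpowers, Subgroup.orderOf_mk]
  have hVc : Nat.card (V.subgroupOf K) = 4 := by
    rw [← h.card_V]; exact Nat.card_congr (subgroupOfEquivOfLe hVK).toEquiv
  have hLc : Nat.card (L4.subgroupOf K) = 12 := by
    rw [← h.card4]; exact Nat.card_congr (subgroupOfEquivOfLe hLK).toEquiv
  have key := card_of_central Y (V.subgroupOf K) (L4.subgroupOf K)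
    (by
      intro c hc g
      have h1 := (hYmem c).mp hc
      obtain ⟨k, hk⟩ := mem_zpowers_iff.mp h1
      apply Subtype.ext
      change (c : G) * g = g * c
      rw [← hk]
      have h2 : Commute (g : G) y := (hmemK g).mp g.2
      exact (h2.zpow_right k).eq.symm)
    (by
      rw [hYcard]
      rcases hp with hp | hp <;> rw [hp] <;> decide)
    hVc
    (by
      intro x hx
      rw [mem_subgroupOf] at hx
      exact Subtype.ext (h.sq_V _ hx))
    (by
      intro r hr hr1 g hg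
      rw [mem_subgroupOf] at hr
      have hr1' : (r : G) ≠ 1 := fun e => hr1 (Subtype.ext e)
      obtain ⟨v, hv, c, hc, e⟩ := h.cent_ry hy hp hr hr1' (congrArg Subtype.val hg) ((hmemK g).mp g.2)
      refine ⟨⟨v, hVK hv⟩, by rw [mem_subgroupOf]; exact hv, ⟨c, ?_⟩, (hYmem _).mpr hc, Subtype.ext e⟩
      obtain ⟨k, rfl⟩ := mem_zpowers_iff.mp hc
      exact K.zpow_mem hyK k)
    (by
      intro g hg
      have hg' : (g : G) ∈ normalizer (V : Set G) := by
        rw [mem_normalizer_iff]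
        intro x
        constructor
        · intro hx
          have h1 := (mem_normalizer_iff.mp hg ⟨x, hVK hx⟩).mp (by rw [mem_subgroupOf]; exact hx)
          rw [mem_subgroupOf] at h1
          exact h1
        · intro hx
          have h2 : x = (g : G)⁻¹ * ((g : G) * x * (g : G)⁻¹) * g := by group
          have h3 : x ∈ K := by
            rw [h2]
            exact K.mul_mem (K.mul_mem (K.inv_mem g.2) (hVK hx)) g.2
          have h1 := (mem_normalizer_iff.mp hg ⟨x, h3⟩).mpr (by rw [mem_subgroupOf]; exact hx)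
          rw [mem_subgroupOf] at h1
          exact h1
      obtain ⟨v, hv, c, hc, e⟩ := h.norm_y hy hp hg' ((hmemK g).mp g.2)
      refine ⟨⟨v, hLK hv⟩, by rw [mem_subgroupOf]; exact hv, ⟨c, ?_⟩, (hYmem _).mpr hc, Subtype.ext e⟩
      obtain ⟨k, rfl⟩ := mem_zpowers_iff.mp hc
      exact K.zpow_mem hyK k)
    hLc
    (by
      intro x hx
      rw [mem_normalizer_iff]
      intro w
      rw [mem_subgroupOf, mem_subgroupOf]
      have hx' : (x : G) ∈ normalizer (V : Set G) := h.L4_norm (by rwa [mem_subgroupOf] at hx)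
      simpa using mem_normalizer_iff.mp hx' (w : G))
    (by
      intro x hx hxY
      rw [mem_subgroupOf] at hx
      have h1 := (hYmem x).mp hxY
      have h2 : zpowers y ≤ L5 := by rw [zpowers_le]; exact hy
      exact Subtype.ext (h.disj _ hx (h2 h1)))
  rw [hYcard] at key
  exact key

theorem mem_L5 (h : TData t V L4 L5) {y : G} (hy : y * t = t * y) (hp : orderOf y = 3 ∨ orderOf y = 5) : y ∈ L5 := by
  obtain ⟨x, hx, l, hl, e⟩ := h.cent y hy
  have hcomm : Commute x l := h.comm x (h.V_le hx) l hl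
  have hxx := h.sq_V x hx
  have hx2 : x ^ 2 = 1 := by rw [sq]; exact hxx
  rcases hp with hp | hp
  · have h1 : y ^ 3 = 1 := by rw [← hp]; exact pow_orderOf_eq_one y
    rw [e, hcomm.mul_pow] at h1
    have h2 : x ^ 3 = x := by rw [pow_succ, hx2, one_mul]
    rw [h2] at h1
    have h3 : x = (l ^ 3)⁻¹ := eq_inv_of_mul_eq_one_left h1
    have h4 : x ∈ L5 := by rw [h3]; exact inv_mem (pow_mem hl 3)
    have h5 := h.disj x (h.V_le hx) h4
    rw [e, h5, one_mul]; exact hl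
  · have h1 : y ^ 5 = 1 := by rw [← hp]; exact pow_orderOf_eq_one y
    rw [e, hcomm.mul_pow] at h1
    have h2 : x ^ 5 = x := by
      calc x ^ 5 = (x ^ 2) ^ 2 * x := by group
        _ = x := by rw [hx2]; group
    rw [h2] at h1
    have h3 : x = (l ^ 5)⁻¹ := eq_inv_of_mul_eq_one_left h1
    have h4 : x ∈ L5 := by rw [h3]; exact inv_mem (pow_mem hl 5)
    have h5 := h.disj x (h.V_le hx) h4
    rw [e, h5, one_mul]; exact hl

theorem exists_five (h : TData t V L4 L5) : ∃ w ∈ L5, orderOf w = 5 := by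
  obtain ⟨e⟩ := h.iso5
  obtain ⟨w, hw5, hw1⟩ := a5_ex5
  refine ⟨(e.symm w : L5), (e.symm w).2, ?_⟩
  rw [Subgroup.orderOf_coe, MulEquiv.orderOf_eq]
  have : Fact (Nat.Prime 5) := ⟨by norm_num⟩
  exact orderOf_eq_prime hw5 hw1

theorem exists_three (h : TData t V L4 L5) : ∃ u ∈ L5, ∃ s ∈ L5, orderOf u = 3 ∧ s * s = 1 ∧ s ≠ 1 ∧ s * u * s⁻¹ = u⁻¹ := by
  obtain ⟨e⟩ := h.iso5
  obtain ⟨u, s, hu3, hu1, hs2, hs1, hi⟩ := a5_ex3
  have : Fact (Nat.Prime 3) := ⟨by norm_num⟩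
  refine ⟨(e.symm u : L5), (e.symm u).2, (e.symm s : L5), (e.symm s).2, ?_, ?_, ?_, ?_⟩
  · rw [Subgroup.orderOf_coe, MulEquiv.orderOf_eq]
    exact orderOf_eq_prime hu3 hu1
  · have h1 : (e.symm s) * (e.symm s) = 1 := by
      rw [← map_mul, ← sq, hs2, map_one]
    exact congrArg Subtype.val h1
  · intro e1
    apply hs1
    have h2 : e.symm s = 1 := Subtype.ext e1
    simpa using h2
  · have h1 : (e.symm s) * (e.symm u) * (e.symm s)⁻¹ = (e.symm u)⁻¹ := by
      rw [← map_inv, ← map_mul, ← map_mul, hi, map_inv]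
    exact congrArg Subtype.val h1

theorem exists_three4 (h : TData t V L4 L5) : ∃ u ∈ L4, orderOf u = 3 := by
  obtain ⟨e⟩ := h.iso4
  obtain ⟨u, hu3, hu1⟩ := a4_ex3
  have : Fact (Nat.Prime 3) := ⟨by norm_num⟩
  refine ⟨(e.symm u : L4), (e.symm u).2, ?_⟩
  rw [Subgroup.orderOf_coe, MulEquiv.orderOf_eq]
  exact orderOf_eq_prime hu3 hu1

end TData

/-- The data of a group of Hall-Janko type. -/
structure HJ (z : G) (Q : Subgroup G) : Prop where
  card : Nat.card G = 604800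
  q : Cfsg.Agent.Lib.HJOrder.Local.QData Q z
  n : ∀ g : G, g * z = z * g → ∀ x ∈ Q, g * x * g⁻¹ ∈ Q
  cardC : Nat.card (centralizer ({z} : Set G)) = 1920
  nn : Nat.card {x : ↥Q // x ^ 2 = 1} = 12
  c3 : ∀ v g : G, orderOf v = 3 → v * z = z * v → g * z = z * g → g * v = v * g → ∃ i : ℕ, ∃ q ∈ Q, g = v ^ i * q
  c5 : ∀ v g : G, orderOf v = 5 → v * z = z * v → g * z = z * g → g * v = v * g → ∃ i : ℕ, ∃ q ∈ Q, g = v ^ i * q
  nwc : ∃ g : G, g * z * g⁻¹ ∈ Q ∧ g * z * g⁻¹ ≠ z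
  tdata : ∀ t : G, orderOf t = 2 → ¬ IsConj t z → ∃ V L4 L5 : Subgroup G, TData t V L4 L5
  ext : ∃ t : G, orderOf t = 2 ∧ ¬ IsConj t z

/-- Conjugation into a Sylow subgroup. -/
theorem exists_conj_into {p : ℕ} [hp : Fact p.Prime] (P : Sylow p G) {x : G} (hx : orderOf x = p) :
    ∃ h : G, h * x * h⁻¹ ∈ (P : Subgroup G) := by
  have hq : IsPGroup p (zpowers x) := by
    apply IsPGroup.of_card (n := 1)
    rw [Nat.card_zpowers, pow_one, hx]
  obtain ⟨R, hR⟩ := hq.exists_le_sylow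
  obtain ⟨h, hh⟩ := MulAction.exists_smul_eq G R P
  refine ⟨h, ?_⟩
  rw [← hh, Sylow.coe_subgroup_smul, mem_smul_iff]
  have : h⁻¹ * (h * x * h⁻¹) * h = x := by group
  rw [this]
  exact hR (mem_zpowers x)

/-- Centralizer of a conjugate. -/
theorem card_cent_conj (h x : G) : Nat.card (centralizer ({h * x * h⁻¹} : Set G)) = Nat.card (centralizer ({x} : Set G)) := by
  refine Nat.card_congr ⟨fun g => ⟨h⁻¹ * g * h, ?_⟩, fun g => ⟨h * g * h⁻¹, ?_⟩, fun g => ?_, fun g => ?_⟩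
  · have hg := mem_centralizer_singleton_iff.mp g.2
    rw [mem_centralizer_singleton_iff]
    have h1 : h⁻¹ * (g * (h * x * h⁻¹)) * h = h⁻¹ * ((h * x * h⁻¹) * g) * h := by rw [hg]
    calc h⁻¹ * g * h * x = h⁻¹ * (g * (h * x * h⁻¹)) * h := by group
      _ = h⁻¹ * ((h * x * h⁻¹) * g) * h := h1
      _ = _ := by group
  · have hg := mem_centralizer_singleton_iff.mp g.2
    rw [mem_centralizer_singleton_iff]
    calc h * g * h⁻¹ * (h * x * h⁻¹) = h * (g * x) * h⁻¹ := by group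
      _ = h * (x * g) * h⁻¹ := by rw [hg]
      _ = _ := by group
  · apply Subtype.ext
    change h * (h⁻¹ * g * h) * h⁻¹ = g
    group
  · apply Subtype.ext
    change h⁻¹ * (h * g * h⁻¹) * h = g
    group

end Cfsg.Agent.Lib.HJSyl.Setup
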