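import Cfsg.Agent.Lib.HJSyl.Three

set_option autoImplicit false
set_option linter.unusedSectionVars false
set_option linter.unusedVariables false
set_option linter.style.longLine false

/-! The Sylow 7-structure of a group of Hall-Janko type. -/

namespace Cfsg.Agent.Lib.HJSyl.Seven

open Subgroup Cfsg.Agent.Lib.HJSyl.Klein Cfsg.Agent.Lib.HJSyl.Basic Cfsg.Agent.Lib.HJSyl.Setup
  Cfsg.Agent.Lib.HJSyl.Five Cfsg.Agent.Lib.HJSyl.ZThree Cfsg.Agent.Lib.HJSyl.Three
  Cfsg.Agent.Lib.HJOrder.Local
open scoped Pointwise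

variable {G : Type*} [Group G] [Finite G]

/-- The automizer of a cyclic subgroup. -/
theorem card_norm_dvd_gen (T : Subgroup G) (y : G) :
    ∃ e, e ∣ Nat.totient (orderOf y) ∧ Nat.card ↥(T ⊓ normalizer ((zpowers y : Subgroup G) : Set G)) = e * Nat.card ↥(T ⊓ centralizer ({y} : Set G)) := by
  classical
  let L : Subgroup G := zpowers y
  let D : Subgroup G := T ⊓ normalizer (L : Set G)
  have hLc : Nat.card L = orderOf y := by rw [Nat.card_zpowers]
  let f : D →* MulAut L := (normalizerMonoidHom L).comp (Subgroup.inclusion (inf_le_right : D ≤ normalizer (L : Set G)))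
  have hker : ∀ d : D, f d = 1 ↔ (d : G) ∈ centralizer ({y} : Set G) := by
    intro d
    constructor
    · intro h
      have h1 : f d ⟨y, mem_zpowers y⟩ = ⟨y, mem_zpowers y⟩ := by rw [h]; rfl
      have h2 : (d : G) * y * (d : G)⁻¹ = y := congrArg Subtype.val h1
      rw [mem_centralizer_singleton_iff]
      calc (d : G) * y = ((d : G) * y * (d : G)⁻¹) * d := by group
        _ = y * d := by rw [h2]
    · intro h
      rw [mem_centralizer_singleton_iff] at h
      ext ⟨x, hx⟩
      obtain ⟨k, rfl⟩ := mem_zpowers_iff.mp hx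
      change (d : G) * y ^ k * (d : G)⁻¹ = y ^ k
      have h2 : Commute (d : G) y := h
      rw [(h2.zpow_right k).eq]; group
  have hcard : Nat.card f.range * Nat.card f.ker = Nat.card D := by
    have h1 := Subgroup.card_eq_card_quotient_mul_card_subgroup f.ker
    rw [Nat.card_congr (QuotientGroup.quotientKerEquivRange f).toEquiv] at h1
    exact h1.symm
  have hkerc : Nat.card f.ker = Nat.card ↥(T ⊓ centralizer ({y} : Set G)) := by
    refine Nat.card_congr ⟨fun x => ⟨x.1.1, mem_inf.mpr ⟨(mem_inf.mp x.1.2).1, (hker x.1).mp x.2⟩⟩,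
      fun x => ⟨⟨x.1, mem_inf.mpr ⟨(mem_inf.mp x.2).1, ?_⟩⟩, ?_⟩, fun x => rfl, fun x => rfl⟩
    · have h := (mem_inf.mp x.2).2
      rw [mem_centralizer_singleton_iff] at h
      have h2 : Commute (x : G) y := h
      rw [mem_normalizer_iff]
      intro w
      constructor
      · intro hw
        obtain ⟨k, rfl⟩ := mem_zpowers_iff.mp hw
        rw [(h2.zpow_right k).eq]
        have h8 : y ^ k * (x : G) * (x : G)⁻¹ = y ^ k := by group
        rw [h8]
        exact (zpowers y).zpow_mem (mem_zpowers y) k
      · intro hw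
        obtain ⟨k, hk⟩ := mem_zpowers_iff.mp hw
        have : w = y ^ k := by
          have h3 : w = (x : G)⁻¹ * ((x : G) * w * (x : G)⁻¹) * x := by group
          rw [h3, ← hk]
          have h4 : Commute ((x : G)⁻¹) y := h2.inv_left
          rw [(h4.zpow_right k).eq]; group
        rw [this]
        exact (zpowers y).zpow_mem (mem_zpowers y) k
    · rw [MonoidHom.mem_ker, hker]
      exact (mem_inf.mp x.2).2
  have hdvd : Nat.card f.range ∣ Nat.totient (orderOf y) := by
    have h1 : Nat.card f.range ∣ Nat.card (MulAut L) := Subgroup.card_subgroup_dvd_card _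
    haveI : IsCyclic L := inferInstance
    have h2 : Nat.card (MulAut L) = Nat.totient (orderOf y) := by
      rw [← hLc]; exact IsCyclic.card_mulAut L
    rwa [h2] at h1
  exact ⟨_, hdvd, by rw [← hkerc]; exact hcard.symm⟩

variable {z : G} {Q : Subgroup G}

theorem card_syl7 (hG : Nat.card G = 604800) (P : Sylow 7 G) : Nat.card P = 7 := by
  haveI : Fact (Nat.Prime 7) := ⟨by norm_num⟩
  rw [P.card_eq_multiplicity, hG, factorization_eq (m := 86400) (k := 1) (by norm_num) (by norm_num) (by norm_num)]
  norm_num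

/-- No element of order `2`, `3`, `5` commutes with an element of order `7`. -/
theorem no_comm (H : HJ z Q) {x y : G} (hx : orderOf x = 7) (hxy : x * y = y * x)
    (hy : orderOf y = 2 ∨ orderOf y = 3 ∨ orderOf y = 5) : False := by
  have h7 : 7 ∣ Nat.card (centralizer ({y} : Set G)) := by
    have := orderOf_dvd_natCard (⟨x, mem_centralizer_singleton_iff.mpr hxy⟩ : centralizer ({y} : Set G))
    rwa [Subgroup.orderOf_mk, hx] at this
  rcases hy with hy | hy | hy
  · by_cases hc : IsConj y z
    · obtain ⟨g, hg⟩ := isConj_iff.mp hc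
      rw [← card_cent_conj g y, hg, H.cardC] at h7
      norm_num at h7
    · obtain ⟨V, L4, L5, T⟩ := H.tdata y hy hc
      obtain ⟨v, hv, l, hl, e⟩ := T.cent x hxy
      have hcomm : Commute v l := T.comm v (T.V_le hv) l hl
      have hv2 : v ^ 2 = 1 := by rw [sq]; exact T.sq_V v hv
      have hx7 : x ^ 7 = 1 := by rw [← hx]; exact pow_orderOf_eq_one x
      have h1 : x ^ 2 = l ^ 2 := by rw [e, hcomm.mul_pow, hv2, one_mul]
      have h2 : x = (x ^ 2) ^ 4 := by
        have : (x ^ 2) ^ 4 = x ^ 7 * x := by group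
        rw [this, hx7, one_mul]
      have h3 : x ∈ L5 := by
        rw [h2, h1]
        exact pow_mem (pow_mem hl 2) 4
      have h4 := orderOf_dvd_natCard (⟨x, h3⟩ : L5)
      rw [Subgroup.orderOf_mk, hx, T.card5] at h4
      norm_num at h4
  · obtain ⟨a, b, ha, hb, -, hcl, hca, hcb, -⟩ := three_main H
    rcases hcl y hy with hc | hc
    · obtain ⟨g, hg⟩ := isConj_iff.mp hc
      rw [← card_cent_conj g y, hg, hca] at h7
      norm_num at h7
    · obtain ⟨g, hg⟩ := isConj_iff.mp hc
      rw [← card_cent_conj g y, hg, hcb] at h7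
      norm_num at h7
  · obtain ⟨P5⟩ : Nonempty (Sylow 5 G) := inferInstance
    obtain ⟨hC, hc25, hN, yA, yB, hyA, hyB, hCA, hCB, hcl⟩ := five_main H P5
    have hmap : ∀ (g x : G), (zpowers x).map (MulAut.conj g).toMonoidHom = zpowers (g * x * g⁻¹) :=
      fun g x => smul_zpowers g x
    obtain ⟨g, hg⟩ := hcl (zpowers y) (by rw [Nat.card_zpowers, hy])
    rw [hmap] at hg
    rcases hg with e | e
    · rw [← card_cent_conj g y, cent_eq_of_zpowers e, hCA] at h7
      norm_num at h7
    · rw [← card_cent_conj g y, cent_eq_of_zpowers e, hCB] at h7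
      norm_num at h7

theorem seven_arith {e n : ℕ} (he : e ∣ 6) (hn : n * (e * 7) = 604800) (hm : n % 7 = 1) : e = 6 := by
  have hle := Nat.le_of_dvd (by norm_num) he
  interval_cases e <;> first | rfl | omega | (exfalso; revert he; decide)

/-- The main result on Sylow 7-subgroups. -/
theorem seven_main (H : HJ z Q) (D : Sylow 7 G) :
    centralizer ((D : Subgroup G) : Set G) = D ∧ Nat.card (normalizer ((D : Subgroup G) : Set G)) = 42 ∧
      ¬ IsMulCommutative (normalizer ((D : Subgroup G) : Set G)) := by
  classical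
  haveI : Fact (Nat.Prime 7) := ⟨by norm_num⟩
  have hG := H.card
  have hDc := card_syl7 hG D
  -- a generator
  obtain ⟨x', hx'⟩ := exists_prime_orderOf_dvd_card' (G := (D : Subgroup G)) 7 (by rw [hDc])
  set x : G := x'.1 with hxdef
  have hx : orderOf x = 7 := by rw [hxdef, Subgroup.orderOf_coe]; exact hx'
  have hxD : x ∈ (D : Subgroup G) := x'.2
  have hDz : zpowers x = (D : Subgroup G) := by
    apply Subgroup.eq_of_le_of_card_ge
    · rw [zpowers_le]; exact hxD
    · rw [hDc, Nat.card_zpowers, hx]
  -- the centralizer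
  have hprime : ∀ q : ℕ, q.Prime → q ∣ Nat.card (centralizer ({x} : Set G)) → q = 7 := by
    intro q hq hqd
    haveI : Fact q.Prime := ⟨hq⟩
    have h1 : q ∣ 604800 := by
      rw [← hG]
      exact hqd.trans (Subgroup.card_subgroup_dvd_card _)
    have h2 : q ∣ 2 ^ 7 * 3 ^ 3 * 5 ^ 2 * 7 := by
      have e : 2 ^ 7 * 3 ^ 3 * 5 ^ 2 * 7 = 604800 := by norm_num
      rw [e]; exact h1
    have hcases : q = 2 ∨ q = 3 ∨ q = 5 ∨ q = 7 := by
      rcases (hq.dvd_mul).mp h2 with h3 | h3
      · rcases (hq.dvd_mul).mp h3 with h4 | h4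
        · rcases (hq.dvd_mul).mp h4 with h5 | h5
          · left
            exact (Nat.prime_dvd_prime_iff_eq hq (by norm_num)).mp (hq.dvd_of_dvd_pow h5)
          · right; left
            exact (Nat.prime_dvd_prime_iff_eq hq (by norm_num)).mp (hq.dvd_of_dvd_pow h5)
        · right; right; left
          exact (Nat.prime_dvd_prime_iff_eq hq (by norm_num)).mp (hq.dvd_of_dvd_pow h4)
      · right; right; right
        exact (Nat.prime_dvd_prime_iff_eq hq (by norm_num)).mp h3
    by_contra hne
    obtain ⟨y', hy'⟩ := exists_prime_orderOf_dvd_card' (G := centralizer ({x} : Set G)) q hqd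
    have hyord : orderOf (y' : G) = q := by rw [Subgroup.orderOf_coe]; exact hy'
    have hyx : (y' : G) * x = x * y' := mem_centralizer_singleton_iff.mp y'.2
    refine no_comm H hx hyx.symm ?_
    rw [hyord]
    rcases hcases with e | e | e | e
    · exact Or.inl e
    · exact Or.inr (Or.inl e)
    · exact Or.inr (Or.inr e)
    · exact absurd e hne
  have hCpow := Nat.eq_prime_pow_of_unique_prime_dvd (Nat.card_pos (α := centralizer ({x} : Set G))).ne' (fun {d} => hprime d)
  have hCx : Nat.card (centralizer ({x} : Set G)) = 7 := by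
    have h1 : Nat.card (centralizer ({x} : Set G)) ∣ 604800 := by
      rw [← hG]; exact Subgroup.card_subgroup_dvd_card _
    have h2 : 7 ∣ Nat.card (centralizer ({x} : Set G)) := by
      have := orderOf_dvd_natCard (⟨x, mem_centralizer_singleton_iff.mpr rfl⟩ : centralizer ({x} : Set G))
      rwa [Subgroup.orderOf_mk, hx] at this
    generalize Nat.card (centralizer ({x} : Set G)) = n at *
    generalize n.primeFactorsList.length = m at hCpow
    subst hCpow
    have hm : m = 1 := by
      have hm1 : m ≠ 0 := by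
        rintro rfl
        norm_num at h2
      by_contra hne
      have h3 : 7 ^ 2 ∣ 7 ^ m := pow_dvd_pow 7 (by omega)
      have h4 := h3.trans h1
      norm_num at h4
    rw [hm]; norm_num
  have hCD : centralizer ((D : Subgroup G) : Set G) = centralizer ({x} : Set G) := by
    ext g
    rw [mem_centralizer_iff, mem_centralizer_singleton_iff]
    constructor
    · intro h
      exact (h x hxD).symm
    · intro h d hd
      rw [← hDz] at hd
      obtain ⟨k, rfl⟩ := mem_zpowers_iff.mp hd
      have h1 : Commute g x := h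
      exact (h1.zpow_right k).symm.eq
  have hDC : (D : Subgroup G) ≤ centralizer ({x} : Set G) := by
    rw [← hDz, zpowers_le]
    exact mem_centralizer_singleton_iff.mpr rfl
  have hC : centralizer ((D : Subgroup G) : Set G) = D := by
    rw [hCD]
    symm
    apply Subgroup.eq_of_le_of_card_ge hDC
    rw [hCx, hDc]
  -- the normalizer
  obtain ⟨e, he, hN⟩ := card_norm_dvd_gen (⊤ : Subgroup G) x
  rw [top_inf_eq, top_inf_eq, hCx, hDz] at hN
  have ht : Nat.totient 7 = 6 := by decide
  rw [hx, ht] at he
  have hS1 := card_sylow_modEq_one 7 G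
  have hS2 : Nat.card (Sylow 7 G) = (normalizer ((D : Subgroup G) : Set G)).index := D.card_eq_index_normalizer
  have hS3 := Subgroup.index_mul_card (normalizer ((D : Subgroup G) : Set G))
  rw [hG, hN, ← hS2] at hS3
  have he6 : e = 6 := seven_arith he hS3 hS1
  have hN42 : Nat.card (normalizer ((D : Subgroup G) : Set G)) = 42 := by
    rw [hN, he6]
  refine ⟨hC, hN42, ?_⟩
  intro hcm
  have hle : normalizer ((D : Subgroup G) : Set G) ≤ (D : Subgroup G) := by
    intro g hg
    rw [← hC, mem_centralizer_iff]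
    intro d hd
    have h1 := hcm.is_comm.comm (⟨g, hg⟩ : normalizer ((D : Subgroup G) : Set G)) ⟨d, le_normalizer hd⟩
    exact (congrArg Subtype.val h1).symm
  have := Nat.le_of_dvd (by rw [hDc]; norm_num) (Subgroup.card_dvd_of_le hle)
  rw [hN42, hDc] at this
  omega

end Cfsg.Agent.Lib.HJSyl.Seven
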