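import Cfsg.Agent.Lib.HJSyl.Setup
import Cfsg.Agent.Lib.Core.Basic

set_option autoImplicit false
set_option linter.unusedSectionVars false
set_option linter.unusedVariables false
set_option linter.style.longLine false

/-! The local data at an involution from the isomorphism types of its centralizer and of the
normalizer of `O₂` of its centralizer. -/

namespace Cfsg.Agent.Lib.HJSyl.TDataOf

open Subgroup Cfsg.Agent.Lib.HJSyl.Setup
open scoped Pointwise

theorem normal_two_bot (N : Subgroup A5) (hN : N.Normal) (hp : IsPGroup 2 N) : N = ⊥ := by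
  haveI : IsSimpleGroup A5 := alternatingGroup.isSimpleGroup_five
  rcases hN.eq_bot_or_eq_top with h | h
  · exact h
  · exfalso
    obtain ⟨u, s, hu3, hu1, -⟩ := a5_ex3
    have hu : u ∈ N := by rw [h]; exact mem_top u
    obtain ⟨k, hk⟩ := hp ⟨u, hu⟩
    have h2 : u ^ 2 ^ k = 1 := congrArg Subtype.val hk
    have h3 : Nat.Coprime (2 ^ k) 3 := Nat.Coprime.pow_left k (by norm_num)
    have h4 := (pow_gcd_eq_one).mpr ⟨h2, hu3⟩
    rw [h3.gcd_eq_one, pow_one] at h4
    exact hu1 h4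

theorem a5_center : ∀ a : A5, (∀ b : A5, a * b = b * a) → a = 1 := by decide +kernel

theorem a4_comm_sq' : ∀ r l : A4, (r * r = 1 ∧ r ≠ 1 ∧ l * r = r * l) → l * l = 1 := by decide +kernel

theorem a4_comm_sq (r l : A4) (h1 : r * r = 1) (h2 : r ≠ 1) (h3 : l * r = r * l) : l * l = 1 :=
  a4_comm_sq' r l ⟨h1, h2, h3⟩

theorem a4_card_sq : Nat.card {l : A4 // l * l = 1} = 4 := by
  rw [Nat.card_eq_fintype_card]; decide +kernel

theorem mem_core_iff {X E : Type*} [Group X] [Finite X] [Group E] [Finite E] (ψ : X ≃* E × A5) (hE : ∀ e : E, e * e = 1) (c : X) :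
    c ∈ Cfsg.pCore 2 X ↔ (ψ c).2 = 1 := by
  let f : X →* A5 := (MonoidHom.snd E A5).comp ψ.toMonoidHom
  have hfs : Function.Surjective f := fun y => by
    obtain ⟨x, hx⟩ := ψ.surjective (1, y)
    refine ⟨x, ?_⟩
    change (ψ x).2 = y
    rw [hx]
  constructor
  · intro hx
    have hn : (Cfsg.pCore 2 X).Normal := Cfsg.pCore_normal 2 _
    have hm : ((Cfsg.pCore 2 X).map f).Normal := hn.map _ hfs
    have hb := normal_two_bot _ hm (Cfsg.Agent.Lib.Core.Basic.pCore_isPGroup.map _)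
    have : f c ∈ (Cfsg.pCore 2 X).map f := ⟨c, hx, rfl⟩
    rw [hb] at this
    exact this
  · intro hx
    have hn : f.ker.Normal := inferInstance
    have hp : IsPGroup 2 f.ker := by
      rintro ⟨y, hy⟩
      refine ⟨1, Subtype.ext ?_⟩
      have hy2 : (ψ y).2 = 1 := hy
      change y ^ 2 ^ 1 = 1
      rw [pow_one, sq]
      apply ψ.injective
      rw [map_mul, map_one]
      refine Prod.ext (hE _) ?_
      change (ψ y).2 * (ψ y).2 = 1
      rw [hy2, mul_one]
    exact Cfsg.Agent.Lib.Core.Basic.le_pCore hn hp hx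

abbrev E22 := Multiplicative (ZMod 2) × Multiplicative (ZMod 2)

theorem e22_sq : ∀ e : E22, e * e = 1 := by decide +kernel

theorem e22_card : Nat.card E22 = 4 := by
  rw [Nat.card_eq_fintype_card]; decide +kernel

variable {G : Type*} [Group G] [Finite G]

/-- The data at `t` from the isomorphism types. -/
theorem tdata_of {t : G} (ht : orderOf t = 2)
    (ψ : ↥(centralizer ({t} : Set G)) ≃* E22 × A5)
    (φ : ↥(normalizer (((Cfsg.pCore 2 ↥(centralizer ({t} : Set G))).map (centralizer ({t} : Set G)).subtype : Subgroup G) : Set G)) ≃* A4 × A5) :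
    ∃ V L4 L5 : Subgroup G, TData t V L4 L5 := by
  classical
  set C := centralizer ({t} : Set G) with hC
  set O := Cfsg.pCore 2 ↥C with hO
  set V := O.map C.subtype with hV
  -- membership in `O`
  have hmemO : ∀ c : ↥C, c ∈ O ↔ (ψ c).2 = 1 := by
    intro c
    exact mem_core_iff ψ e22_sq c
  have hmemV : ∀ x : G, x ∈ V ↔ ∃ h : x ∈ C, (ψ ⟨x, h⟩).2 = 1 := by
    intro x
    constructor
    · rintro ⟨c, hc, rfl⟩
      exact ⟨c.2, (hmemO c).mp hc⟩
    · rintro ⟨h, e⟩
      exact ⟨⟨x, h⟩, (hmemO _).mpr e, rfl⟩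
  have ht2 : t * t = 1 := by
    rw [← sq, ← ht]; exact pow_orderOf_eq_one t
  have ht1 : t ≠ 1 := by
    rintro rfl
    simp at ht
  have htC : t ∈ C := mem_centralizer_singleton_iff.mpr rfl
  -- `t ∈ V`
  have htV : t ∈ V := by
    rw [hmemV]
    refine ⟨htC, a5_center _ (fun b => ?_)⟩
    obtain ⟨c, hc⟩ := ψ.surjective (1, b)
    have h1 : (⟨t, htC⟩ : C) * c = c * ⟨t, htC⟩ := by
      apply Subtype.ext
      exact (mem_centralizer_singleton_iff.mp c.2).symm
    have h2 := congrArg ψ h1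
    rw [map_mul, map_mul, hc] at h2
    exact congrArg Prod.snd h2
  -- the order of `V`
  have hVcard : Nat.card V = 4 := by
    rw [hV, Subgroup.card_map_of_injective C.subtype_injective, ← e22_card]
    refine Nat.card_congr (Equiv.ofBijective (fun c : O => (ψ c).1) ⟨?_, ?_⟩)
    · intro a b hab
      apply Subtype.ext
      apply ψ.injective
      ext1
      · exact hab
      · rw [(hmemO a).mp a.2, (hmemO b).mp b.2]
    · intro e
      obtain ⟨c, hc⟩ := ψ.surjective (e, 1)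
      refine ⟨⟨c, (hmemO c).mpr (by rw [hc])⟩, ?_⟩
      change (ψ c).1 = e
      rw [hc]
  have hVsq : ∀ x ∈ V, x * x = 1 := by
    intro x hx
    obtain ⟨h, e⟩ := (hmemV x).mp hx
    have h1 : ψ (⟨x, h⟩ * ⟨x, h⟩) = 1 := by
      rw [map_mul]
      ext1
      · exact e22_sq _
      · change (ψ ⟨x, h⟩).2 * (ψ ⟨x, h⟩).2 = 1
        rw [e, mul_one]
    have h2 := (map_eq_one_iff ψ ψ.injective).mp h1
    exact congrArg Subtype.val h2
  -- `C(t)` normalizes `V`
  have hCN : C ≤ normalizer (V : Set G) := by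
    intro g hg
    have key : ∀ g (hg : g ∈ C) (x : G), x ∈ V → g * x * g⁻¹ ∈ V := by
      rintro g hg _ ⟨c, hc, rfl⟩
      have hn : O.Normal := Cfsg.pCore_normal 2 _
      exact ⟨⟨g, hg⟩ * c * ⟨g, hg⟩⁻¹, hn.conj_mem c hc _, rfl⟩
    rw [mem_normalizer_iff]
    intro x
    refine ⟨key g hg x, fun hx => ?_⟩
    have := key g⁻¹ (inv_mem hg) _ hx
    simpa [mul_assoc] using this
  -- the structure under `φ`
  set N := normalizer (V : Set G) with hN
  have hVN : V ≤ N := by
    intro x hx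
    rw [hN, mem_normalizer_iff]
    intro y
    have hsq : ∀ a ∈ V, a⁻¹ = a := fun a ha => inv_eq_of_mul_eq_one_left (hVsq a ha)
    have hnV : ∀ a ∈ V, ∀ b ∈ V, a * b * a⁻¹ ∈ V := fun a ha b hb => V.mul_mem (V.mul_mem ha hb) (V.inv_mem ha)
    refine ⟨fun hy => hnV x hx y hy, fun hy => ?_⟩
    have := hnV x⁻¹ (V.inv_mem hx) _ hy
    simpa [mul_assoc] using this
  set W := (V.subgroupOf N).map φ.toMonoidHom with hW
  have hWn : W.Normal := by
    have h1 : (V.subgroupOf N).Normal := by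
      constructor
      intro n hn g
      rw [mem_subgroupOf] at hn ⊢
      exact (mem_normalizer_iff.mp g.2 _).mp hn
    exact h1.map _ φ.surjective
  have hWmem : ∀ a : N, φ a ∈ W ↔ (a : G) ∈ V := by
    intro a
    constructor
    · rintro ⟨b, hb, e⟩
      have : b = a := φ.injective e
      subst this
      exact hb
    · intro h
      exact ⟨a, h, rfl⟩
  have hWsq : ∀ x ∈ W, x * x = 1 := by
    rintro _ ⟨b, hb, rfl⟩
    have h1 : b * b = 1 := Subtype.ext (hVsq _ hb)
    change φ b * φ b = 1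
    rw [← map_mul, h1, map_one]
  have hWp : IsPGroup 2 W := by
    rintro ⟨x, hx⟩
    refine ⟨1, Subtype.ext ?_⟩
    change x ^ 2 ^ 1 = 1
    rw [pow_one, sq]
    exact hWsq x hx
  have hWsnd : ∀ x ∈ W, x.2 = 1 := by
    intro x hx
    have hm : (W.map (MonoidHom.snd A4 A5)).Normal := hWn.map _ (fun y => ⟨(1, y), rfl⟩)
    have hb := normal_two_bot _ hm (hWp.map _)
    have : x.2 ∈ W.map (MonoidHom.snd A4 A5) := ⟨x, hx, rfl⟩
    rw [hb] at this
    exact this
  have hWcard : Nat.card W = 4 := by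
    rw [hW, Subgroup.card_map_of_injective φ.injective]
    rw [Nat.card_congr (Subgroup.subgroupOfEquivOfLe hVN).toEquiv, hVcard]
  have hWfull : ∀ l : A4, l * l = 1 → (l, (1 : A5)) ∈ W := by
    intro l hl
    let f : W → {l : A4 // l * l = 1} := fun x => ⟨x.1.1, by
      have := hWsq x.1 x.2
      exact congrArg Prod.fst this⟩
    have hf : Function.Injective f := by
      rintro ⟨a, ha⟩ ⟨b, hb⟩ e
      apply Subtype.ext
      ext1
      · exact congrArg Subtype.val e
      · rw [hWsnd a ha, hWsnd b hb]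
    have hbij := hf.bijective_of_nat_card_le (by rw [a4_card_sq, hWcard])
    obtain ⟨x, hx⟩ := hbij.2 ⟨l, hl⟩
    have h1 : x.1.1 = l := congrArg Subtype.val hx
    have h2 : x.1 = (l, 1) := by
      ext1
      · exact h1
      · exact hWsnd x.1 x.2
    rw [← h2]
    exact x.2
  -- the maps
  let i4 : A4 →* G := N.subtype.comp (φ.symm.toMonoidHom.comp (MonoidHom.inl A4 A5))
  let i5 : A5 →* G := N.subtype.comp (φ.symm.toMonoidHom.comp (MonoidHom.inr A4 A5))
  have hi4 : Function.Injective i4 := by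
    intro a b e
    have h1 : φ.symm (a, 1) = φ.symm (b, 1) := Subtype.ext e
    have h2 := φ.symm.injective h1
    exact congrArg Prod.fst h2
  have hi5 : Function.Injective i5 := by
    intro a b e
    have h1 : φ.symm (1, a) = φ.symm (1, b) := Subtype.ext e
    have h2 := φ.symm.injective h1
    exact congrArg Prod.snd h2
  have hi4N : ∀ a, i4 a ∈ N := fun a => (φ.symm (a, 1)).2
  have hi5N : ∀ a, i5 a ∈ N := fun a => (φ.symm (1, a)).2
  have hφi4 : ∀ a, φ ⟨i4 a, hi4N a⟩ = (a, 1) := fun a => φ.apply_symm_apply _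
  have hφi5 : ∀ a, φ ⟨i5 a, hi5N a⟩ = (1, a) := fun a => φ.apply_symm_apply _
  have hcomm : ∀ a b, i4 a * i5 b = i5 b * i4 a := by
    intro a b
    have h1 : φ.symm (a, 1) * φ.symm (1, b) = φ.symm (1, b) * φ.symm (a, 1) := by
      rw [← map_mul, ← map_mul]
      congr 1
    exact congrArg Subtype.val h1
  have hdecomp : ∀ g : N, (g : G) = i4 (φ g).1 * i5 (φ g).2 := by
    intro g
    have h1 : g = φ.symm ((φ g).1, 1) * φ.symm (1, (φ g).2) := by
      rw [← map_mul]
      apply φ.injective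
      rw [φ.apply_symm_apply]
      ext1 <;> simp
    exact congrArg Subtype.val h1
  refine ⟨V, i4.range, i5.range, ?_⟩
  refine
    { t_mem := htV
      t_ne := ht1
      card_V := hVcard
      sq_V := hVsq
      V_le := ?_
      L4_norm := ?_
      iso4 := ⟨(MonoidHom.ofInjective hi4).symm⟩
      iso5 := ⟨(MonoidHom.ofInjective hi5).symm⟩
      comm := ?_
      disj := ?_
      cent := ?_
      norm := ?_ }
  · intro x hx
    have h1 := (hWmem ⟨x, hVN hx⟩).mpr hx
    have h2 := hWsnd _ h1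
    have h3 := hdecomp ⟨x, hVN hx⟩
    rw [h2, map_one, mul_one] at h3
    exact ⟨_, h3.symm⟩
  · rintro _ ⟨a, rfl⟩
    exact hi4N a
  · rintro _ ⟨a, rfl⟩ _ ⟨b, rfl⟩
    exact hcomm a b
  · rintro _ ⟨a, rfl⟩ ⟨b, hb⟩
    have h1 : φ.symm (1, b) = φ.symm (a, 1) := Subtype.ext hb
    have h2 := φ.symm.injective h1
    have h3 : (1 : A4) = a := congrArg Prod.fst h2
    rw [← h3, map_one]
  · intro g hg
    have hgC : g ∈ C := mem_centralizer_singleton_iff.mpr hg
    have hgN : g ∈ N := hCN hgC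
    have htN : t ∈ N := hVN htV
    have h1 := (hWmem ⟨t, htN⟩).mpr htV
    have h2 := hWsnd _ h1
    have h3 := hWsq _ h1
    set r := (φ ⟨t, htN⟩).1 with hr
    have hrr : r * r = 1 := congrArg Prod.fst h3
    have hr1 : r ≠ 1 := by
      intro e
      apply ht1
      have h4 : φ ⟨t, htN⟩ = 1 := by
        ext1
        · exact e
        · exact h2
      have h5 := (map_eq_one_iff φ φ.injective).mp h4
      exact congrArg Subtype.val h5
    have hgt : (⟨g, hgN⟩ : N) * ⟨t, htN⟩ = ⟨t, htN⟩ * ⟨g, hgN⟩ := Subtype.ext hg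
    have h4 := congrArg φ hgt
    rw [map_mul, map_mul] at h4
    have h5 : (φ ⟨g, hgN⟩).1 * r = r * (φ ⟨g, hgN⟩).1 := congrArg Prod.fst h4
    have h6 := a4_comm_sq r _ hrr hr1 h5
    have h7 := hWfull _ h6
    refine ⟨i4 (φ ⟨g, hgN⟩).1, ?_, i5 (φ ⟨g, hgN⟩).2, ⟨_, rfl⟩, hdecomp ⟨g, hgN⟩⟩
    have h8 := (hWmem ⟨i4 (φ ⟨g, hgN⟩).1, hi4N _⟩)
    rw [hφi4] at h8
    exact h8.mp h7
  · intro g hg
    exact ⟨i4 (φ ⟨g, hg⟩).1, ⟨_, rfl⟩, i5 (φ ⟨g, hg⟩).2, ⟨_, rfl⟩, hdecomp ⟨g, hg⟩⟩

end Cfsg.Agent.Lib.HJSyl.TDataOf
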