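import Cfsg.Agent.Lib.HJSyl.Order27

set_option autoImplicit false
set_option linter.unusedSectionVars false
set_option linter.unusedVariables false
set_option linter.style.longLine false

/-! The Sylow 3-structure of a group of Hall-Janko type. -/

namespace Cfsg.Agent.Lib.HJSyl.Three

open Subgroup Cfsg.Agent.Lib.HJSyl.Klein Cfsg.Agent.Lib.HJSyl.Basic Cfsg.Agent.Lib.HJSyl.Setup
  Cfsg.Agent.Lib.HJSyl.Five Cfsg.Agent.Lib.HJSyl.ZThree Cfsg.Agent.Lib.HJSyl.Order27
  Cfsg.Agent.Lib.HJOrder.Local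
open scoped Pointwise

variable {G : Type*} [Group G] [Finite G]

/-- The subgroup `⟨a⟩⟨b⟩` for commuting `a`, `b`. -/
def prodSub (a b : G) (h : a * b = b * a) : Subgroup G where
  carrier := {x | ∃ i j : ℤ, x = a ^ i * b ^ j}
  mul_mem' := by
    rintro _ _ ⟨i, j, rfl⟩ ⟨k, l, rfl⟩
    refine ⟨i + k, j + l, ?_⟩
    have hc : Commute (b ^ j) (a ^ k) := (show Commute a b from h).symm.zpow_zpow j k
    rw [zpow_add, zpow_add]
    calc a ^ i * b ^ j * (a ^ k * b ^ l) = a ^ i * (b ^ j * a ^ k) * b ^ l := by group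
      _ = a ^ i * (a ^ k * b ^ j) * b ^ l := by rw [hc.eq]
      _ = _ := by group
  one_mem' := ⟨0, 0, by simp⟩
  inv_mem' := by
    rintro _ ⟨i, j, rfl⟩
    refine ⟨-i, -j, ?_⟩
    have hc : Commute (b ^ j) (a ^ i) := (show Commute a b from h).symm.zpow_zpow j i
    rw [mul_inv_rev, zpow_neg, zpow_neg]
    exact (hc.inv_inv).eq

theorem mem_prodSub {a b : G} {h : a * b = b * a} {x : G} : x ∈ prodSub a b h ↔ ∃ i j : ℤ, x = a ^ i * b ^ j := Iff.rfl

theorem order3_pow {u : G} (hu : orderOf u = 3) : u ^ 3 = 1 := by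
  rw [← hu]; exact pow_orderOf_eq_one u

/-- Non-trivial elements generate the group of order 3. -/
theorem zpowers_eq_of_mem {u x : G} (hu : orderOf u = 3) (hx : x ∈ zpowers u) (hx1 : x ≠ 1) :
    zpowers x = zpowers u := by
  have hle : zpowers x ≤ zpowers u := by rw [zpowers_le]; exact hx
  have h1 : Nat.card (zpowers x) ∣ 3 := by
    have := Subgroup.card_dvd_of_le hle
    rwa [Nat.card_zpowers u, hu] at this
  apply Subgroup.eq_of_le_of_card_ge hle
  rcases (Nat.dvd_prime (by norm_num : Nat.Prime 3)).mp h1 with e | e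
  · exfalso
    rw [Nat.card_zpowers, orderOf_eq_one_iff] at e
    exact hx1 e
  · rw [e, Nat.card_zpowers, hu]

theorem mem_zpowers3 {u x : G} (hu : orderOf u = 3) (hx : x ∈ zpowers u) : x = 1 ∨ x = u ∨ x = u⁻¹ := by
  classical
  obtain ⟨k, rfl⟩ := mem_zpowers_iff.mp hx
  have h3 := order3_pow hu
  have hk : k = 3 * (k / 3) + k % 3 := (Int.mul_ediv_add_emod k 3).symm
  have hz : u ^ (3 * (k / 3)) = 1 := by
    rw [zpow_mul]
    have : u ^ (3 : ℤ) = 1 := by exact_mod_cast h3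
    rw [this, one_zpow]
  have hr : u ^ k = u ^ (k % 3) := by
    conv_lhs => rw [hk, zpow_add, hz, one_mul]
  have h0 : 0 ≤ k % 3 := Int.emod_nonneg k (by norm_num)
  have h2 : k % 3 < 3 := Int.emod_lt_of_pos k (by norm_num)
  rw [hr]
  generalize k % 3 = r at *
  interval_cases r
  · left; simp
  · right; left; simp
  · right; right
    have : u ^ (2 : ℤ) * u = 1 := by
      have e : u ^ (2 : ℤ) * u = u ^ 3 := by
        rw [← zpow_natCast u 3, ← zpow_add_one]
        norm_num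
      rw [e, h3]
    exact eq_inv_of_mul_eq_one_left this

variable {z : G} {Q : Subgroup G}

theorem no27 {t : G} {V L4 L5 : Subgroup G} (T : TData t V L4 L5) {y : G} (hy : y ∈ L5) (hy3 : orderOf y = 3) :
    Nat.card (centralizer ({y} : Set G)) = 36 ∨ Nat.card (centralizer ({y} : Set G)) = 180 := by
  have := T.card_cent hy (Or.inl hy3)
  rw [hy3] at this
  simpa using this

/-- The local data. -/
structure Loc (z : G) (Q : Subgroup G) (t : G) (V L4 L5 : Subgroup G) (u1 u2 s w0 : G) (P0 : Sylow 3 G) : Prop where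
  H : HJ z Q
  T : TData t V L4 L5
  hu1 : u1 ∈ L4
  hu13 : orderOf u1 = 3
  hu2 : u2 ∈ L5
  hu23 : orderOf u2 = 3
  hs : s ∈ L5
  hss : s * s = 1
  hs1 : s ≠ 1
  hsu : s * u2 * s⁻¹ = u2⁻¹
  hw : w0 ∈ L5
  hw5 : orderOf w0 = 5
  h1P : u1 ∈ (P0 : Subgroup G)
  h2P : u2 ∈ (P0 : Subgroup G)

theorem exists_Loc (H : HJ z Q) : ∃ (t : G) (V L4 L5 : Subgroup G) (u1 u2 s w0 : G) (P0 : Sylow 3 G),
    Loc z Q t V L4 L5 u1 u2 s w0 P0 := by
  obtain ⟨t, ht2, htz⟩ := H.ext
  obtain ⟨V, L4, L5, T⟩ := H.tdata t ht2 htz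
  obtain ⟨u1, hu1, hu13⟩ := T.exists_three4
  obtain ⟨u2, hu2, s, hs, hu23, hss, hs1, hsu⟩ := T.exists_three
  obtain ⟨w0, hw, hw5⟩ := T.exists_five
  have hcomm : u1 * u2 = u2 * u1 := T.comm _ hu1 _ hu2
  haveI : Fact (Nat.Prime 3) := ⟨by norm_num⟩
  have hp : IsPGroup 3 (prodSub u1 u2 hcomm) := by
    rintro ⟨x, i, j, rfl⟩
    refine ⟨1, Subtype.ext ?_⟩
    change (u1 ^ i * u2 ^ j) ^ 3 ^ 1 = 1
    have hc : Commute (u1 ^ i) (u2 ^ j) := (show Commute u1 u2 from hcomm).zpow_zpow i j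
    rw [pow_one, hc.mul_pow, ← zpow_natCast, ← zpow_natCast, ← zpow_mul, ← zpow_mul, mul_comm i, mul_comm j, zpow_mul, zpow_mul]
    have e1 : u1 ^ ((3 : ℕ) : ℤ) = 1 := by rw [zpow_natCast]; exact order3_pow hu13
    have e2 : u2 ^ ((3 : ℕ) : ℤ) = 1 := by rw [zpow_natCast]; exact order3_pow hu23
    rw [e1, e2]; simp
  obtain ⟨P0, hP0⟩ := hp.exists_le_sylow
  refine ⟨t, V, L4, L5, u1, u2, s, w0, P0, ⟨H, T, hu1, hu13, hu2, hu23, hs, hss, hs1, hsu, hw, hw5, ?_, ?_⟩⟩
  · exact hP0 ⟨1, 0, by simp⟩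
  · exact hP0 ⟨0, 1, by simp⟩

theorem card_syl3 (hG : Nat.card G = 604800) (P : Sylow 3 G) : Nat.card P = 27 := by
  haveI : Fact (Nat.Prime 3) := ⟨by norm_num⟩
  rw [P.card_eq_multiplicity, hG, factorization_eq (m := 22400) (k := 3) (by norm_num) (by norm_num) (by norm_num)]
  norm_num

theorem P_le_cent {P : Subgroup G} {a : G} (h : ∀ x ∈ P, x * a = a * x) : P ≤ centralizer ({a} : Set G) := by
  intro x hx
  exact mem_centralizer_singleton_iff.mpr (h x hx)

/-- Elements of order three in a group of order 300 are conjugate up to inverse. -/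
theorem conj_of_sylow3 {K : Subgroup G} (hK : Nat.card K = 300) {a b : G} (ha : a ∈ K) (hb : b ∈ K)
    (ha3 : orderOf a = 3) (hb3 : orderOf b = 3) :
    Nat.card (centralizer ({a} : Set G)) = Nat.card (centralizer ({b} : Set G)) := by
  haveI : Fact (Nat.Prime 3) := ⟨by norm_num⟩
  have hf : (Nat.card K).factorization 3 = 1 := by
    rw [hK]
    exact factorization_eq (m := 100) (k := 1) (by norm_num) (by norm_num) (by norm_num)
  have hle : ∀ c ∈ K, zpowers c ≤ K := fun c hc => by rw [zpowers_le]; exact hc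
  have hA : Nat.card ((zpowers a).subgroupOf K) = 3 ^ (Nat.card K).factorization 3 := by
    rw [Nat.card_congr (Subgroup.subgroupOfEquivOfLe (hle a ha)).toEquiv, hf, Nat.card_zpowers, ha3]
    norm_num
  have hB : Nat.card ((zpowers b).subgroupOf K) = 3 ^ (Nat.card K).factorization 3 := by
    rw [Nat.card_congr (Subgroup.subgroupOfEquivOfLe (hle b hb)).toEquiv, hf, Nat.card_zpowers, hb3]
    norm_num
  let SA : Sylow 3 K := Sylow.ofCard _ hA
  let SB : Sylow 3 K := Sylow.ofCard _ hB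
  have hSA : (SA : Subgroup K) = (zpowers a).subgroupOf K := Sylow.coe_ofCard _ _
  have hSB : (SB : Subgroup K) = (zpowers b).subgroupOf K := Sylow.coe_ofCard _ _
  obtain ⟨d, hd⟩ := MulAction.exists_smul_eq K SA SB
  have hm : (d : K) * ⟨a, ha⟩ * d⁻¹ ∈ (SB : Subgroup K) := by
    rw [← hd, Sylow.coe_subgroup_smul, mem_smul_iff]
    have : (d : K)⁻¹ * ((d : K) * ⟨a, ha⟩ * d⁻¹) * d = ⟨a, ha⟩ := by group
    rw [this, hSA, mem_subgroupOf]
    exact mem_zpowers a
  rw [hSB, mem_subgroupOf] at hm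
  have hm' : (d : G) * a * (d : G)⁻¹ ∈ zpowers b := hm
  have hne : (d : G) * a * (d : G)⁻¹ ≠ 1 := by
    intro e
    have h1 : a = (d : G)⁻¹ * ((d : G) * a * (d : G)⁻¹) * d := by group
    rw [e] at h1
    have h2 : a = 1 := by rw [h1]; group
    rw [h2, orderOf_one] at ha3
    omega
  have hz := zpowers_eq_of_mem hb3 hm' hne
  rw [← card_cent_conj (d : G) a, cent_eq_of_zpowers hz]

/-- The arithmetic of the normalizer. -/
theorem three_arith {o t j n3 n : ℕ} (ho : o * 9 = t) (ho24 : o ≤ 24) (h27 : 27 ∣ t) (hn3 : n3 * t = 604800)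
    (hn3m : n3 % 3 = 1) (hj27 : 27 ∣ j) (hj2 : 2 ∣ j) (hjt : j ∣ t) (hn : n * j = 1080) (hnm : n % 3 = 1) :
    t = 216 ∧ j = 108 ∧ o = 24 := by
  have h54 : 54 ∣ j := by omega
  obtain ⟨a, rfl⟩ := h54
  have hn0 : 0 < n := by
    rcases Nat.eq_zero_or_pos n with h | h
    · rw [h] at hnm; omega
    · exact h
  have ha : a ≤ 20 := by
    by_contra hlt
    push Not at hlt
    have : 54 * 21 ≤ n * (54 * a) := by nlinarith
    omega
  subst ho
  interval_cases a <;> interval_cases o <;> simp only [Nat.reduceMul] at * <;> first | omega | (exfalso; revert hjt; decide) | simp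

namespace Loc

variable {t : G} {V L4 L5 : Subgroup G} {u1 u2 s w0 : G} {P0 : Sylow 3 G}
  (L : Loc z Q t V L4 L5 u1 u2 s w0 P0)
include L

theorem comm12 : u1 * u2 = u2 * u1 := L.T.comm _ L.hu1 _ L.hu2

theorem comms1 : s * u1 = u1 * s := (L.T.comm _ L.hu1 _ L.hs).symm

theorem card27 : Nat.card (P0 : Subgroup G) = 27 := card_syl3 L.H.card P0

theorem inv_s : s⁻¹ = s := inv_eq_of_mul_eq_one_right L.hss

theorem not_dvd_u2 : ¬ 27 ∣ Nat.card (centralizer ({u2} : Set G)) := by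
  rcases no27 L.T L.hu2 L.hu23 with e | e <;> rw [e] <;> norm_num

theorem nonab : ¬ ∀ x ∈ (P0 : Subgroup G), ∀ y ∈ (P0 : Subgroup G), x * y = y * x := by
  intro hall
  apply L.not_dvd_u2
  rw [← L.card27]
  exact Subgroup.card_dvd_of_le (P_le_cent (fun x hx => hall x hx u2 L.h2P))

theorem E_le : prodSub u1 u2 L.comm12 ≤ (P0 : Subgroup G) := by
  rintro _ ⟨i, j, rfl⟩
  exact Subgroup.mul_mem _ (zpow_mem L.h1P i) (zpow_mem L.h2P j)

theorem E_le_cent : prodSub u1 u2 L.comm12 ≤ centralizer ({u2} : Set G) := by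
  rintro _ ⟨i, j, rfl⟩
  rw [mem_centralizer_singleton_iff]
  have h1 : Commute u1 u2 := L.comm12
  exact (h1.zpow_left i).mul_left ((Commute.refl u2).zpow_left j)

theorem u2_not_mem : u2 ∉ zpowers u1 := by
  intro h
  have hle : zpowers u1 ≤ L4 := by rw [zpowers_le]; exact L.hu1
  have := L.T.disj u2 (hle h) L.hu2
  have h3 := L.hu23
  rw [this, orderOf_one] at h3
  omega

theorem card_E : Nat.card (prodSub u1 u2 L.comm12) = 9 := by
  have h3 : Nat.Prime 3 := by norm_num
  have hdvd : Nat.card (prodSub u1 u2 L.comm12) ∣ 3 ^ 3 := by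
    have := Subgroup.card_dvd_of_le L.E_le
    rw [L.card27] at this
    simpa using this
  obtain ⟨k, hk, hcard⟩ := (Nat.dvd_prime_pow h3).mp hdvd
  have hle1 : zpowers u1 ≤ prodSub u1 u2 L.comm12 := by
    rw [zpowers_le]
    exact ⟨1, 0, by simp⟩
  have hk2 : 2 ≤ k := by
    by_contra hlt
    push Not at hlt
    have hk3 : 3 ∣ 3 ^ k := by
      rw [← hcard]
      have := Subgroup.card_dvd_of_le hle1
      rwa [Nat.card_zpowers, L.hu13] at this
    have hk1 : k = 1 := by
      interval_cases k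
      · norm_num at hk3
      · rfl
    have heq : zpowers u1 = prodSub u1 u2 L.comm12 := by
      apply Subgroup.eq_of_le_of_card_ge hle1
      rw [hcard, hk1, Nat.card_zpowers, L.hu13]; norm_num
    apply L.u2_not_mem
    rw [heq]
    exact ⟨0, 1, by simp⟩
  have hk3 : k ≠ 3 := by
    rintro rfl
    apply L.not_dvd_u2
    have := Subgroup.card_dvd_of_le L.E_le_cent
    rw [hcard] at this
    simpa using this
  have : k = 2 := by omega
  rw [hcard, this]; norm_num

/-- `E` is exactly `C_{P0}(u2)`. -/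
theorem mem_E {x : G} (hx : x ∈ (P0 : Subgroup G)) (hc : x * u2 = u2 * x) : x ∈ prodSub u1 u2 L.comm12 := by
  have h3 : Nat.Prime 3 := by norm_num
  set D := (P0 : Subgroup G) ⊓ centralizer ({u2} : Set G) with hD
  have hED : prodSub u1 u2 L.comm12 ≤ D := le_inf L.E_le L.E_le_cent
  have hdvd : Nat.card D ∣ 3 ^ 3 := by
    have := Subgroup.card_dvd_of_le (inf_le_left : D ≤ (P0 : Subgroup G))
    rw [L.card27] at this
    exact this
  obtain ⟨k, hk, hcard⟩ := (Nat.dvd_prime_pow h3).mp hdvd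
  have hk3 : k ≠ 3 := by
    rintro rfl
    apply L.not_dvd_u2
    have := Subgroup.card_dvd_of_le (inf_le_right : D ≤ centralizer ({u2} : Set G))
    rw [hcard] at this
    simpa using this
  have hle : Nat.card D ≤ 9 := by
    rw [hcard]
    interval_cases k <;> first | omega | norm_num
  have heq : prodSub u1 u2 L.comm12 = D := by
    apply Subgroup.eq_of_le_of_card_ge hED
    rw [L.card_E]; exact hle
  rw [heq]
  exact mem_inf.mpr ⟨hx, mem_centralizer_singleton_iff.mpr hc⟩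

theorem Z_u1 : (∀ x ∈ (P0 : Subgroup G), (∀ y ∈ (P0 : Subgroup G), x * y = y * x) ↔ x ∈ zpowers u1) ∧
    (∀ x ∈ (P0 : Subgroup G), ∀ y ∈ (P0 : Subgroup G), x * y * x⁻¹ * y⁻¹ ∈ zpowers u1) ∧
    (∀ x ∈ (P0 : Subgroup G), x ∉ zpowers u1 → ∀ w ∈ zpowers u1, ∃ y ∈ (P0 : Subgroup G), y * x * y⁻¹ = w * x) := by
  obtain ⟨a, haP, ha3, h1, h2, h3⟩ := order27 (P0 : Subgroup G) L.card27 L.nonab
  suffices hsuff : zpowers a = zpowers u1 by
    rw [hsuff] at h1 h2 h3
    exact ⟨h1, h2, h3⟩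
  have haz : ∀ y ∈ (P0 : Subgroup G), a * y = y * a := (h1 a haP).mpr (mem_zpowers a)
  obtain ⟨i, j, hij⟩ := L.mem_E haP (haz u2 L.h2P)
  have ha1 : a ≠ 1 := by
    rintro rfl
    rw [orderOf_one] at ha3
    omega
  have h23 : u2 ^ (3 : ℤ) = 1 := by
    have := order3_pow L.hu23
    exact_mod_cast this
  by_cases hj : (3 : ℤ) ∣ j
  · obtain ⟨k, rfl⟩ := hj
    have e1 : u2 ^ (3 * k) = 1 := by rw [zpow_mul, h23, one_zpow]
    rw [e1, mul_one] at hij
    have hmem : a ∈ zpowers u1 := by rw [hij]; exact zpow_mem (mem_zpowers u1) i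
    exact zpowers_eq_of_mem L.hu13 hmem ha1
  · exfalso
    set x := u2 ^ j with hx
    have hx1 : x ≠ 1 := by
      intro e
      apply hj
      have := (orderOf_dvd_iff_zpow_eq_one (x := u2) (i := j)).mpr e
      rwa [L.hu23] at this
    have hzx : zpowers x = zpowers u2 := zpowers_eq_of_mem L.hu23 (zpow_mem (mem_zpowers u2) j) hx1
    have hxP : x ∈ (P0 : Subgroup G) := zpow_mem L.h2P j
    have hxa : x ∉ zpowers a := by
      intro hm
      have hu2a : u2 ∈ zpowers a := by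
        have h5 : u2 ∈ zpowers x := by rw [hzx]; exact mem_zpowers u2
        have h6 : zpowers x ≤ zpowers a := by rw [zpowers_le]; exact hm
        exact h6 h5
      apply L.not_dvd_u2
      rw [← L.card27]
      apply Subgroup.card_dvd_of_le
      apply P_le_cent
      intro y hy
      exact ((h1 u2 L.h2P).mpr hu2a y hy).symm
    obtain ⟨y, hyP, hy⟩ := h3 x hxP hxa a (mem_zpowers a)
    -- the element `s a s⁻¹`
    have hs1 : s * u1 * s⁻¹ = u1 := by rw [L.comms1]; group
    have hsa : s * a * s⁻¹ = a * x := by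
      rw [hij, hx]
      have e1 : s * (u1 ^ i * u2 ^ j) * s⁻¹ = (s * u1 * s⁻¹) ^ i * (s * u2 * s⁻¹) ^ j := by
        rw [conj_zpow, conj_zpow]; group
      rw [e1, hs1, L.hsu, inv_zpow]
      have e2 : (u2 ^ j)⁻¹ = u2 ^ j * u2 ^ j := by
        have e3 : u2 ^ j * u2 ^ j * u2 ^ j = 1 := by
          rw [← zpow_add, ← zpow_add]
          have : j + j + j = 3 * j := by ring
          rw [this, zpow_mul, h23, one_zpow]
        exact inv_eq_of_mul_eq_one_left e3
      rw [e2]; group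
    have hcard : Nat.card (centralizer ({a} : Set G)) = Nat.card (centralizer ({u2} : Set G)) := by
      have e1 : Nat.card (centralizer ({a} : Set G)) = Nat.card (centralizer ({x} : Set G)) := by
        rw [← card_cent_conj s a, hsa, ← hy, card_cent_conj y x]
      rw [e1, cent_eq_of_zpowers hzx]
    apply L.not_dvd_u2
    rw [← hcard, ← L.card27]
    apply Subgroup.card_dvd_of_le
    apply P_le_cent
    intro y hy
    exact (haz y hy).symm

theorem u1_central : ∀ y ∈ (P0 : Subgroup G), y * u1 = u1 * y := by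
  intro y hy
  have := (L.Z_u1.1 u1 L.h1P).mpr (mem_zpowers u1) y hy
  exact this.symm

theorem dvd_u1 : 27 ∣ Nat.card (centralizer ({u1} : Set G)) := by
  rw [← L.card27]
  exact Subgroup.card_dvd_of_le (P_le_cent L.u1_central)

theorem s_order : orderOf s = 2 := by
  apply orderOf_eq_prime
  · rw [sq]; exact L.hss
  · exact L.hs1

theorem s_conj : IsConj s z := by
  by_contra hn
  obtain ⟨V', L4', L5', T'⟩ := L.H.tdata s L.s_order hn
  have hm : u1 ∈ L5' := T'.mem_L5 L.comms1.symm (Or.inl L.hu13)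
  have h1 := L.dvd_u1
  rcases no27 T' hm L.hu13 with e | e <;> rw [e] at h1 <;> norm_num at h1

theorem no25 : ¬ 25 ∣ Nat.card (centralizer ({u1} : Set G)) := by
  intro h25
  haveI : Fact (Nat.Prime 5) := ⟨by norm_num⟩
  obtain ⟨S, hS⟩ := Sylow.exists_subgroup_card_pow_prime (G := centralizer ({u1} : Set G)) 5 (n := 2) (by simpa using h25)
  set S₀ := S.map (centralizer ({u1} : Set G)).subtype with hS₀
  have hS₀c : Nat.card S₀ = 5 ^ (Nat.card G).factorization 5 := by
    rw [hS₀, Subgroup.card_map_of_injective (Subgroup.subtype_injective _), hS, L.H.card,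
      factorization_eq (m := 24192) (k := 2) (by norm_num) (by norm_num) (by norm_num)]
  let P5 : Sylow 5 G := Sylow.ofCard S₀ hS₀c
  have hcoe : (P5 : Subgroup G) = S₀ := Sylow.coe_ofCard _ _
  obtain ⟨hC, hc25, -⟩ := five_main L.H P5
  have hu : u1 ∈ centralizer ((P5 : Subgroup G) : Set G) := by
    rw [mem_centralizer_iff]
    intro x hx
    rw [hcoe] at hx
    obtain ⟨y, hy, rfl⟩ := hx
    have := mem_centralizer_singleton_iff.mp y.2
    exact this
  rw [hC] at hu
  have h1 : orderOf (⟨u1, hu⟩ : (P5 : Subgroup G)) ∣ Nat.card (P5 : Subgroup G) := orderOf_dvd_natCard _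
  rw [Subgroup.orderOf_mk, L.hu13, hc25] at h1
  norm_num at h1

theorem card_u1 : Nat.card (centralizer ({u1} : Set G)) = 1080 := by
  obtain ⟨g, hg⟩ := isConj_iff.mp L.s_conj
  set v := g * u1 * g⁻¹ with hv
  have hv3 : orderOf v = 3 := by rw [hv, order_conj]; exact L.hu13
  have hvz : v * z = z * v := by
    rw [← hg, hv]
    calc g * u1 * g⁻¹ * (g * s * g⁻¹) = g * (u1 * s) * g⁻¹ := by group
      _ = g * (s * u1) * g⁻¹ := by rw [L.comms1]
      _ = _ := by group
  have hc : Nat.card (centralizer ({v} : Set G)) = Nat.card (centralizer ({u1} : Set G)) := card_cent_conj g u1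
  have h16 := no16 L.H hv3 hvz
  have hle := le7536 L.H hv3 hvz
  have h8 : 8 ∣ Nat.card (centralizer ({v} : Set G)) := by
    rw [← card_CQ L.H hv3 hvz]
    exact Subgroup.card_dvd_of_le inf_le_right
  rw [hc] at h16 hle h8
  have h27 := L.dvd_u1
  have h60 : 60 ∣ Nat.card (centralizer ({u1} : Set G)) := by
    rw [← L.T.card5]
    apply Subgroup.card_dvd_of_le
    apply P_le_cent
    intro y hy
    exact (L.T.comm _ L.hu1 _ hy).symm
  have h25 := L.no25
  have hdvd : Nat.card (centralizer ({u1} : Set G)) ∣ 604800 := by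
    rw [← L.H.card]
    exact Subgroup.card_subgroup_dvd_card _
  generalize Nat.card (centralizer ({u1} : Set G)) = n at *
  have h1080 : 1080 ∣ n := by
    have h1 : n % 8 = 0 := Nat.mod_eq_zero_of_dvd h8
    have h2 : n % 27 = 0 := Nat.mod_eq_zero_of_dvd h27
    have h3 : n % 60 = 0 := Nat.mod_eq_zero_of_dvd h60
    omega
  obtain ⟨k, rfl⟩ := h1080
  have hk : k ≤ 6 := by omega
  interval_cases k <;> first | rfl | omega | (exfalso; revert hdvd; norm_num) | (exfalso; revert h16; norm_num) | (exfalso; revert h25; norm_num) | (exfalso; revert hle; norm_num)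

theorem card_u2 : Nat.card (centralizer ({u2} : Set G)) = 36 := by
  classical
  rcases no27 L.T L.hu2 L.hu23 with e | e
  · exact e
  exfalso
  haveI : Fact (Nat.Prime 5) := ⟨by norm_num⟩
  have h5 : 5 ∣ Nat.card (centralizer ({u2} : Set G)) := by rw [e]; norm_num
  obtain ⟨y', hy'⟩ := exists_prime_orderOf_dvd_card' (G := centralizer ({u2} : Set G)) 5 h5
  set y : G := y'.1 with hydef
  have hy5 : orderOf y = 5 := by rw [hydef, Subgroup.orderOf_coe]; exact hy'
  have hyu : y * u2 = u2 * y := mem_centralizer_singleton_iff.mp y'.2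
  obtain ⟨P5⟩ : Nonempty (Sylow 5 G) := inferInstance
  obtain ⟨hC, hc25, hN, yA, yB, hyA, hyB, hCA, hCB, hcl⟩ := five_main L.H P5
  have hmap : ∀ (g x : G), (zpowers x).map (MulAut.conj g).toMonoidHom = zpowers (g * x * g⁻¹) :=
    fun g x => smul_zpowers g x
  obtain ⟨g, hg⟩ := hcl (zpowers w0) (by rw [Nat.card_zpowers, L.hw5])
  obtain ⟨h, hh⟩ := hcl (zpowers y) (by rw [Nat.card_zpowers, hy5])
  rw [hmap] at hg hh
  have hw0c := L.T.card_cent L.hw (Or.inr L.hw5)
  rw [L.hw5] at hw0c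
  have hcA : zpowers (g * w0 * g⁻¹) = zpowers yA := by
    rcases hg with e1 | e1
    · exact e1
    · exfalso
      have e2 : Nat.card (centralizer ({w0} : Set G)) = 50 := by
        rw [← card_cent_conj g w0, cent_eq_of_zpowers e1, hCB]
      omega
  have hyA' : zpowers (h * y * h⁻¹) = zpowers yA := by
    rcases hh with e1 | e1
    · exact e1
    · exfalso
      have e2 : Nat.card (centralizer ({y} : Set G)) = 50 := by
        rw [← card_cent_conj h y, cent_eq_of_zpowers e1, hCB]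
      have e3 : orderOf (⟨u2, mem_centralizer_singleton_iff.mpr hyu.symm⟩ : centralizer ({y} : Set G)) ∣ Nat.card (centralizer ({y} : Set G)) :=
        orderOf_dvd_natCard _
      rw [Subgroup.orderOf_mk, L.hu23, e2] at e3
      norm_num at e3
  have ha : g * u1 * g⁻¹ ∈ centralizer ({yA} : Set G) := by
    rw [← cent_eq_of_zpowers hcA, mem_centralizer_singleton_iff]
    have h1 : u1 * w0 = w0 * u1 := L.T.comm _ L.hu1 _ L.hw
    calc g * u1 * g⁻¹ * (g * w0 * g⁻¹) = g * (u1 * w0) * g⁻¹ := by group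
      _ = g * (w0 * u1) * g⁻¹ := by rw [h1]
      _ = _ := by group
  have hb : h * u2 * h⁻¹ ∈ centralizer ({yA} : Set G) := by
    rw [← cent_eq_of_zpowers hyA', mem_centralizer_singleton_iff]
    calc h * u2 * h⁻¹ * (h * y * h⁻¹) = h * (u2 * y) * h⁻¹ := by group
      _ = h * (y * u2) * h⁻¹ := by rw [hyu]
      _ = _ := by group
  have hfin := conj_of_sylow3 hCA ha hb (by rw [order_conj]; exact L.hu13) (by rw [order_conj]; exact L.hu23)
  rw [card_cent_conj, card_cent_conj, L.card_u1, e] at hfin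
  omega

theorem cent_u2 {g : G} (hg : g * u2 = u2 * g) : ∃ l ∈ L4, ∃ c ∈ zpowers u2, g = l * c := by
  classical
  have hcomm : ∀ l ∈ L4, ∀ c ∈ zpowers u2, (l * c) * u2 = u2 * (l * c) := by
    intro l hl c hc
    obtain ⟨k, rfl⟩ := mem_zpowers_iff.mp hc
    have h1 : Commute l u2 := L.T.comm _ hl _ L.hu2
    exact h1.mul_left ((Commute.refl u2).zpow_left k)
  let f : ↥L4 × ↥(zpowers u2) → centralizer ({u2} : Set G) := fun p =>
    ⟨p.1.1 * p.2.1, mem_centralizer_singleton_iff.mpr (hcomm _ p.1.2 _ p.2.2)⟩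
  have hle : zpowers u2 ≤ L5 := by rw [zpowers_le]; exact L.hu2
  have hinj : Function.Injective f := by
    rintro ⟨⟨l, hl⟩, ⟨c, hc⟩⟩ ⟨⟨l', hl'⟩, ⟨c', hc'⟩⟩ hab
    have h1 : l * c = l' * c' := congrArg Subtype.val hab
    have h2 : l'⁻¹ * l = c' * c⁻¹ := by
      calc l'⁻¹ * l = l'⁻¹ * (l * c) * c⁻¹ := by group
        _ = l'⁻¹ * (l' * c') * c⁻¹ := by rw [h1]
        _ = _ := by group
    have h3 : l'⁻¹ * l = 1 := L.T.disj _ (L4.mul_mem (L4.inv_mem hl') hl) (by
      rw [h2]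
      exact hle ((zpowers u2).mul_mem hc' ((zpowers u2).inv_mem hc)))
    have h4 : l = l' := by
      have := inv_mul_eq_one.mp h3
      exact this.symm
    subst h4
    have h5 : c = c' := mul_left_cancel h1
    subst h5
    rfl
  have hbij := hinj.bijective_of_nat_card_le (by
    rw [L.card_u2, Nat.card_prod, L.T.card4, Nat.card_zpowers, L.hu23])
  obtain ⟨p, hp⟩ := hbij.2 ⟨g, mem_centralizer_singleton_iff.mpr hg⟩
  exact ⟨p.1.1, p.1.2, p.2.1, p.2.2, (congrArg Subtype.val hp).symm⟩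

theorem L4_stab {l : G} (hl : l ∈ L4) (h : l * u1 * l⁻¹ ∈ zpowers u1) : l ∈ zpowers u1 := by
  obtain ⟨e⟩ := L.T.iso4
  have hu3 := order3_pow L.hu13
  have hu1 : u1 ≠ 1 := by
    intro e1
    have := L.hu13
    rw [e1, orderOf_one] at this
    omega
  set m := e ⟨u1, L.hu1⟩ with hm
  set n := e ⟨l, hl⟩ with hn
  have hm3 : m ^ 3 = 1 := by
    rw [hm, ← map_pow]
    have : (⟨u1, L.hu1⟩ : L4) ^ 3 = 1 := Subtype.ext hu3
    rw [this, map_one]
  have hm1 : m ≠ 1 := by
    rw [hm, Ne, map_eq_one_iff _ e.injective]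
    intro e1
    exact hu1 (congrArg Subtype.val e1)
  rcases mem_zpowers3 L.hu13 h with e1 | e1 | e1
  · exfalso
    apply hu1
    have : u1 = l⁻¹ * (l * u1 * l⁻¹) * l := by group
    rw [this, e1]; group
  · have h2 : n * m * n⁻¹ = m := by
      rw [hm, hn, ← map_inv, ← map_mul, ← map_mul]
      congr 1
      exact Subtype.ext e1
    rcases a4_cent3 m n hm3 hm1 h2 with e2 | e2 | e2
    · have h3 : l = 1 := by
        have h4 : (⟨l, hl⟩ : L4) = 1 := by
          apply e.injective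
          rw [map_one]; exact e2
        exact congrArg Subtype.val h4
      rw [h3]; exact one_mem _
    · have h4 : (⟨l, hl⟩ : L4) = ⟨u1, L.hu1⟩ := e.injective e2
      have h3 : l = u1 := congrArg Subtype.val h4
      rw [h3]; exact mem_zpowers u1
    · have h4 : (⟨l, hl⟩ : L4) = ⟨u1, L.hu1⟩⁻¹ := by
        apply e.injective
        rw [map_inv]; exact e2
      have h3 : l = u1⁻¹ := congrArg Subtype.val h4
      rw [h3]; exact inv_mem (mem_zpowers u1)
  · exfalso
    have h2 : n * m * n⁻¹ = m⁻¹ := by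
      rw [hm, hn, ← map_inv, ← map_inv, ← map_mul, ← map_mul]
      congr 1
      exact Subtype.ext e1
    exact a4_noinv m n hm3 hm1 h2

/-- The stabilizer of `u2`. -/
theorem stab {g : G} (hc : g * u2 = u2 * g) (h : g * u1 * g⁻¹ ∈ zpowers u1) : g ∈ prodSub u1 u2 L.comm12 := by
  obtain ⟨l, hl, c, hcz, rfl⟩ := L.cent_u2 hc
  obtain ⟨k, rfl⟩ := mem_zpowers_iff.mp hcz
  have h1 : u2 ^ k * u1 = u1 * u2 ^ k := by
    have h2 : Commute u1 u2 := L.comm12
    exact (h2.zpow_right k).symm.eq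
  have h2 : l * u2 ^ k * u1 * (l * u2 ^ k)⁻¹ = l * u1 * l⁻¹ := by
    calc l * u2 ^ k * u1 * (l * u2 ^ k)⁻¹ = l * (u2 ^ k * u1) * (u2 ^ k)⁻¹ * l⁻¹ := by group
      _ = l * (u1 * u2 ^ k) * (u2 ^ k)⁻¹ * l⁻¹ := by rw [h1]
      _ = _ := by group
  rw [h2] at h
  obtain ⟨i, rfl⟩ := mem_zpowers_iff.mp (L.L4_stab hl h)
  exact ⟨i, k, rfl⟩

theorem le_E : zpowers u1 ≤ prodSub u1 u2 L.comm12 := by
  rw [zpowers_le]
  exact ⟨1, 0, by simp⟩

theorem P0_norm_E {x : G} (hx : x ∈ (P0 : Subgroup G)) : x ∈ normalizer ((prodSub u1 u2 L.comm12 : Subgroup G) : Set G) := by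
  have key : ∀ x ∈ (P0 : Subgroup G), ∀ e ∈ prodSub u1 u2 L.comm12, x * e * x⁻¹ ∈ prodSub u1 u2 L.comm12 := by
    intro x hx e he
    have h1 := L.le_E (L.Z_u1.2.1 x hx e (L.E_le he))
    have h2 : x * e * x⁻¹ = (x * e * x⁻¹ * e⁻¹) * e := by group
    rw [h2]
    exact mul_mem h1 he
  rw [mem_normalizer_iff]
  intro e
  refine ⟨fun he => key x hx e he, fun he => ?_⟩
  have := key x⁻¹ (inv_mem hx) _ he
  have e2 : x⁻¹ * (x * e * x⁻¹) * x⁻¹⁻¹ = e := by group
  rwa [e2] at this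

theorem s_norm_E : s ∈ normalizer ((prodSub u1 u2 L.comm12 : Subgroup G) : Set G) := by
  have hs1 : s * u1 * s⁻¹ = u1 := by rw [L.comms1]; group
  have key : ∀ e ∈ prodSub u1 u2 L.comm12, s * e * s⁻¹ ∈ prodSub u1 u2 L.comm12 := by
    rintro _ ⟨i, j, rfl⟩
    refine ⟨i, -j, ?_⟩
    have e1 : s * (u1 ^ i * u2 ^ j) * s⁻¹ = (s * u1 * s⁻¹) ^ i * (s * u2 * s⁻¹) ^ j := by
      rw [conj_zpow, conj_zpow]; group
    rw [e1, hs1, L.hsu, inv_zpow, zpow_neg]
  rw [mem_normalizer_iff]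
  intro e
  refine ⟨fun he => key e he, fun he => ?_⟩
  have := key _ he
  have e2 : s * (s * e * s⁻¹) * s⁻¹ = e := by
    have h1 := L.hss
    rw [L.inv_s]
    calc s * (s * e * s) * s = (s * s) * e * (s * s) := by group
      _ = e := by rw [h1]; group
  rwa [e2] at this

theorem s_norm {x : G} (hx : x ∈ (P0 : Subgroup G)) : s * x * s⁻¹ ∈ (P0 : Subgroup G) := by
  classical
  set E := prodSub u1 u2 L.comm12 with hE
  set Hh := centralizer ({u1} : Set G) ⊓ normalizer ((E : Subgroup G) : Set G) with hHh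
  have hPH : (P0 : Subgroup G) ≤ Hh := fun x hx =>
    mem_inf.mpr ⟨mem_centralizer_singleton_iff.mpr (L.u1_central x hx), L.P0_norm_E hx⟩
  have hsH : s ∈ Hh := mem_inf.mpr ⟨mem_centralizer_singleton_iff.mpr L.comms1, L.s_norm_E⟩
  have hO := card_orbit_elt Hh u2
  have hstab : Hh ⊓ centralizer ({u2} : Set G) = E := by
    apply le_antisymm
    · intro g hg
      obtain ⟨h1, h2⟩ := mem_inf.mp hg
      have h3 := (mem_inf.mp h1).1
      have h4 := mem_centralizer_singleton_iff.mp h3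
      have h5 := mem_centralizer_singleton_iff.mp h2
      apply L.stab h5
      rw [h4]
      have : u1 * g * g⁻¹ = u1 := by group
      rw [this]
      exact mem_zpowers u1
    · exact le_inf (L.E_le.trans hPH) L.E_le_cent
  rw [hstab, L.card_E] at hO
  have hsub : (Set.range fun t : Hh => (t : G) * u2 * (t : G)⁻¹) ⊆ (E : Set G) \ (zpowers u1 : Set G) := by
    rintro _ ⟨⟨h, hh⟩, rfl⟩
    obtain ⟨h1, h2⟩ := mem_inf.mp hh
    refine ⟨(mem_normalizer_iff.mp h2 u2).mp ⟨0, 1, by simp⟩, ?_⟩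
    intro hm
    apply L.u2_not_mem
    have h3 : h * u1 = u1 * h := mem_centralizer_singleton_iff.mp h1
    obtain ⟨k, hk⟩ := mem_zpowers_iff.mp hm
    have h5 : Commute h u1 := h3
    refine mem_zpowers_iff.mpr ⟨k, ?_⟩
    have h6 : h * u2 * h⁻¹ = u1 ^ k := hk.symm
    have h7 : u2 = h⁻¹ * u1 ^ k * h := by rw [← h6]; group
    rw [h7]
    have h8 : Commute h (u1 ^ k) := h5.zpow_right k
    calc u1 ^ k = h⁻¹ * (h * u1 ^ k) := by group
      _ = h⁻¹ * (u1 ^ k * h) := by rw [h8.eq]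
      _ = _ := by group
  have hle6 : Nat.card (Set.range fun t : Hh => (t : G) * u2 * (t : G)⁻¹) ≤ 6 := by
    rw [Nat.card_coe_set_eq]
    have h1 := Set.ncard_le_ncard hsub (Set.toFinite _)
    have h2 : ((E : Set G) \ (zpowers u1 : Set G)).ncard = Nat.card E - Nat.card (zpowers u1) := by
      rw [Set.ncard_diff (L.le_E : ((zpowers u1 : Subgroup G) : Set G) ⊆ (E : Set G)) (Set.toFinite _)]
      rw [← Nat.card_coe_set_eq, ← Nat.card_coe_set_eq]
      rfl
    rw [h2, L.card_E, Nat.card_zpowers, L.hu13] at h1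
    omega
  have h27 : 27 ∣ Nat.card Hh := by
    rw [← L.card27]
    exact Subgroup.card_dvd_of_le hPH
  have h2 : 2 ∣ Nat.card Hh := by
    have := orderOf_dvd_natCard (⟨s, hsH⟩ : Hh)
    rwa [Subgroup.orderOf_mk, L.s_order] at this
  have h54 : Nat.card Hh = 54 := by
    have hpos : 0 < Nat.card Hh := Nat.card_pos
    omega
  exact conj_mem_of_index_two (P0 : Subgroup G) Hh hPH (by rw [h54, L.card27]) hsH hx

theorem s_mem_T : s ∈ normalizer ((P0 : Subgroup G) : Set G) := by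
  rw [mem_normalizer_iff]
  intro x
  refine ⟨fun hx => L.s_norm hx, fun hx => ?_⟩
  have := L.s_norm hx
  have e2 : s * (s * x * s⁻¹) * s⁻¹ = x := by
    have h1 := L.hss
    rw [L.inv_s]
    calc s * (s * x * s) * s = (s * s) * x * (s * s) := by group
      _ = x := by rw [h1]; group
  rwa [e2] at this

theorem T_conj {g : G} (hg : g ∈ normalizer ((P0 : Subgroup G) : Set G)) : g * u1 * g⁻¹ ∈ zpowers u1 := by
  have h1 : g * u1 * g⁻¹ ∈ (P0 : Subgroup G) := (mem_normalizer_iff.mp hg u1).mp L.h1P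
  rw [← L.Z_u1.1 _ h1]
  intro y hy
  have h2 : g⁻¹ * y * g⁻¹⁻¹ ∈ (P0 : Subgroup G) :=
    (mem_normalizer_iff.mp (inv_mem hg) y).mp hy
  have h3 : g⁻¹ * y * g * u1 = u1 * (g⁻¹ * y * g) := by
    have := L.u1_central _ h2
    simpa using this
  calc g * u1 * g⁻¹ * y = g * (u1 * (g⁻¹ * y * g)) * g⁻¹ := by group
    _ = g * (g⁻¹ * y * g * u1) * g⁻¹ := by rw [h3]
    _ = _ := by group

theorem T_count : Nat.card (normalizer ((P0 : Subgroup G) : Set G)) = 216 ∧
    (∀ x ∈ (P0 : Subgroup G), x ∉ zpowers u1 → ∃ t ∈ normalizer ((P0 : Subgroup G) : Set G), x = t * u2 * t⁻¹) ∧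
    ∃ g : G, g * u1 * g⁻¹ = u1⁻¹ := by
  classical
  haveI : Fact (Nat.Prime 3) := ⟨by norm_num⟩
  set T := normalizer ((P0 : Subgroup G) : Set G) with hT
  have hPT : (P0 : Subgroup G) ≤ T := le_normalizer
  set E := prodSub u1 u2 L.comm12 with hE
  have hO := card_orbit_elt T u2
  have hstab : T ⊓ centralizer ({u2} : Set G) = E := by
    apply le_antisymm
    · intro g hg
      obtain ⟨h1, h2⟩ := mem_inf.mp hg
      exact L.stab (mem_centralizer_singleton_iff.mp h2) (L.T_conj h1)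
    · exact le_inf (L.E_le.trans hPT) L.E_le_cent
  rw [hstab, L.card_E] at hO
  have hsub : (Set.range fun t : T => (t : G) * u2 * (t : G)⁻¹) ⊆ ((P0 : Subgroup G) : Set G) \ (zpowers u1 : Set G) := by
    rintro _ ⟨⟨h, hh⟩, rfl⟩
    refine ⟨(mem_normalizer_iff.mp hh u2).mp L.h2P, ?_⟩
    intro hm
    apply L.u2_not_mem
    have h1 := L.T_conj (inv_mem hh)
    have h2 : h⁻¹ * u1 * h⁻¹⁻¹ ∈ zpowers u1 := h1
    have h3 : zpowers u1 ≤ zpowers (u1) := le_rfl
    obtain ⟨k, hk⟩ := mem_zpowers_iff.mp hm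
    have hconj : (h⁻¹ * u1 * h⁻¹⁻¹) ^ k = h⁻¹ * u1 ^ k * h⁻¹⁻¹ := conj_zpow
    have h6 : h * u2 * h⁻¹ = u1 ^ k := hk.symm
    have h7 : u2 = h⁻¹ * u1 ^ k * h⁻¹⁻¹ := by rw [← h6]; group
    rw [h7, ← hconj]
    exact zpow_mem h2 k
  have hdiff : (((P0 : Subgroup G) : Set G) \ (zpowers u1 : Set G)).ncard = 24 := by
    have hle : zpowers u1 ≤ (P0 : Subgroup G) := by rw [zpowers_le]; exact L.h1P
    rw [Set.ncard_diff (hle : ((zpowers u1 : Subgroup G) : Set G) ⊆ ((P0 : Subgroup G) : Set G)) (Set.toFinite _)]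
    rw [← Nat.card_coe_set_eq, ← Nat.card_coe_set_eq]
    change Nat.card (P0 : Subgroup G) - Nat.card (zpowers u1) = 24
    rw [L.card27, Nat.card_zpowers, L.hu13]
  have hle24 : Nat.card (Set.range fun t : T => (t : G) * u2 * (t : G)⁻¹) ≤ 24 := by
    rw [Nat.card_coe_set_eq, ← hdiff]
    exact Set.ncard_le_ncard hsub (Set.toFinite _)
  -- Sylow in `G`
  have hS1 := card_sylow_modEq_one 3 G
  have hS2 : Nat.card (Sylow 3 G) = T.index := P0.card_eq_index_normalizer
  have hS3 : T.index * Nat.card T = 604800 := by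
    rw [← L.H.card]; exact Subgroup.index_mul_card _
  have hS5 : T.index % 3 = 1 := by
    rw [← hS2]; exact hS1
  -- Sylow in `C(u1)`
  set W := centralizer ({u1} : Set G) with hW
  have hWc : Nat.card W = 1080 := L.card_u1
  have hPW : (P0 : Subgroup G) ≤ W := P_le_cent L.u1_central
  have hP' : Nat.card ((P0 : Subgroup G).subgroupOf W) = 3 ^ (Nat.card W).factorization 3 := by
    rw [Nat.card_congr (Subgroup.subgroupOfEquivOfLe hPW).toEquiv, L.card27, hWc,
      factorization_eq (m := 40) (k := 3) (by norm_num) (by norm_num) (by norm_num)]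
    norm_num
  let S : Sylow 3 W := Sylow.ofCard _ hP'
  have hS1' := card_sylow_modEq_one 3 W
  have hS2' := S.card_eq_index_normalizer
  have hScoe : (S : Subgroup W) = (P0 : Subgroup G).subgroupOf W := Sylow.coe_ofCard _ _
  set J := W ⊓ T with hJ
  have hS3' : Nat.card (normalizer ((S : Subgroup W) : Set W)) = Nat.card J := by
    rw [hScoe]; exact card_norm_subgroupOf hPW
  have hS4' : (normalizer ((S : Subgroup W) : Set W)).index * Nat.card J = 1080 := by
    rw [← hS3', ← hWc]; exact Subgroup.index_mul_card _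
  have hS5' : (normalizer ((S : Subgroup W) : Set W)).index % 3 = 1 := by
    have : (normalizer ((S : Subgroup W) : Set W)).index = Nat.card (Sylow 3 W) := hS2'.symm
    rw [this]
    exact hS1'
  have hJ27 : 27 ∣ Nat.card J := by
    rw [← L.card27]
    exact Subgroup.card_dvd_of_le (le_inf hPW hPT)
  have hsJ : s ∈ J := mem_inf.mpr ⟨mem_centralizer_singleton_iff.mpr L.comms1, L.s_mem_T⟩
  have hJ2 : 2 ∣ Nat.card J := by
    have := orderOf_dvd_natCard (⟨s, hsJ⟩ : J)
    rwa [Subgroup.orderOf_mk, L.s_order] at this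
  have hJT : Nat.card J ∣ Nat.card T := Subgroup.card_dvd_of_le inf_le_right
  have hT27 : 27 ∣ Nat.card T := by
    rw [← L.card27]
    exact Subgroup.card_dvd_of_le hPT
  obtain ⟨ht216, hj108, ho24⟩ := three_arith hO hle24 hT27 hS3 hS5 hJ27 hJ2 hJT hS4' hS5'
  refine ⟨ht216, ?_, ?_⟩
  · intro x hx hxz
    have heq : (Set.range fun t : T => (t : G) * u2 * (t : G)⁻¹) = ((P0 : Subgroup G) : Set G) \ (zpowers u1 : Set G) := by
      apply Set.eq_of_subset_of_ncard_le hsub _ (Set.toFinite _)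
      rw [hdiff, ← Nat.card_coe_set_eq, ho24]
    have hm : x ∈ ((P0 : Subgroup G) : Set G) \ (zpowers u1 : Set G) := ⟨hx, hxz⟩
    rw [← heq] at hm
    obtain ⟨t, ht⟩ := hm
    exact ⟨t.1, t.2, ht.symm⟩
  · -- an element of `T` not centralizing `u1`
    obtain ⟨g, hgT, hgW⟩ : ∃ g ∈ T, g ∉ W := by
      by_contra hall
      push Not at hall
      have : J = T := by
        rw [hJ]
        exact inf_eq_right.mpr hall
      rw [this, ht216] at hj108
      omega
    refine ⟨g, ?_⟩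
    rcases mem_zpowers3 L.hu13 (L.T_conj hgT) with e | e | e
    · exfalso
      have h1 : u1 = g⁻¹ * (g * u1 * g⁻¹) * g := by group
      rw [e] at h1
      have h2 : u1 = 1 := by rw [h1]; group
      have h3 := L.hu13
      rw [h2, orderOf_one] at h3
      omega
    · exfalso
      apply hgW
      rw [hW, mem_centralizer_singleton_iff]
      calc g * u1 = (g * u1 * g⁻¹) * g := by group
        _ = u1 * g := by rw [e]
    · exact e

theorem classes {c : G} (hc : orderOf c = 3) : IsConj c u1 ∨ IsConj c u2 := by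
  haveI : Fact (Nat.Prime 3) := ⟨by norm_num⟩
  obtain ⟨h, hh⟩ := exists_conj_into P0 hc
  obtain ⟨-, horb, g, hg⟩ := L.T_count
  have hc1 : IsConj c (h * c * h⁻¹) := isConj_iff.mpr ⟨h, rfl⟩
  by_cases hz : h * c * h⁻¹ ∈ zpowers u1
  · left
    rcases mem_zpowers3 L.hu13 hz with e | e | e
    · exfalso
      have h1 : c = h⁻¹ * (h * c * h⁻¹) * h := by group
      rw [e] at h1
      have h2 : c = 1 := by rw [h1]; group
      rw [h2, orderOf_one] at hc
      omega
    · rw [e] at hc1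
      exact hc1
    · rw [e] at hc1
      exact hc1.trans (isConj_iff.mpr ⟨g, hg⟩).symm
  · right
    obtain ⟨t, ht, e⟩ := horb _ hh hz
    rw [e] at hc1
    exact hc1.trans (isConj_iff.mpr ⟨t, rfl⟩).symm

end Loc

/-- The main result on Sylow 3-subgroups. -/
theorem three_main (H : HJ z Q) : ∃ a b : G, orderOf a = 3 ∧ orderOf b = 3 ∧ ¬ IsConj a b ∧
    (∀ c : G, orderOf c = 3 → IsConj c a ∨ IsConj c b) ∧
    Nat.card (centralizer ({a} : Set G)) = 1080 ∧ Nat.card (centralizer ({b} : Set G)) = 36 ∧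
    ∀ P : Sylow 3 G, Nat.card (normalizer ((P : Subgroup G) : Set G)) = 216 ∧
      ¬ ∀ x ∈ (P : Subgroup G), ∀ y ∈ (P : Subgroup G), x * y = y * x := by
  haveI : Fact (Nat.Prime 3) := ⟨by norm_num⟩
  obtain ⟨t, V, L4, L5, u1, u2, s, w0, P0, L⟩ := exists_Loc H
  have hc1 := L.card_u1
  have hc2 := L.card_u2
  refine ⟨u1, u2, L.hu13, L.hu23, ?_, fun c hc => L.classes hc, hc1, hc2, ?_⟩
  · intro hconj
    obtain ⟨g, hg⟩ := isConj_iff.mp hconj
    rw [← hg, card_cent_conj, hc1] at hc2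
    omega
  · intro P
    constructor
    · have h1 : Nat.card (Sylow 3 G) = (normalizer ((P : Subgroup G) : Set G)).index := P.card_eq_index_normalizer
      have h2 : Nat.card (Sylow 3 G) = (normalizer ((P0 : Subgroup G) : Set G)).index := P0.card_eq_index_normalizer
      have h3 := Subgroup.index_mul_card (normalizer ((P : Subgroup G) : Set G))
      have h4 := Subgroup.index_mul_card (normalizer ((P0 : Subgroup G) : Set G))
      rw [← h1] at h3
      rw [← h2, L.T_count.1, L.H.card] at h4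
      rw [L.H.card] at h3
      have hpos : 0 < Nat.card (Sylow 3 G) := Nat.card_pos
      nlinarith
    · intro hall
      obtain ⟨h, hh⟩ := exists_conj_into P L.hu23
      have h1 : (P : Subgroup G) ≤ centralizer ({h * u2 * h⁻¹} : Set G) :=
        P_le_cent (fun x hx => hall x hx _ hh)
      have h2 := Subgroup.card_dvd_of_le h1
      rw [card_syl3 L.H.card P, card_cent_conj, hc2] at h2
      norm_num at h2

end Cfsg.Agent.Lib.HJSyl.Three
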