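import Cfsg.Agent.Lib.HJSyl.Five

set_option autoImplicit false
set_option linter.unusedSectionVars false
set_option linter.unusedVariables false
set_option linter.style.longLine false

/-! Elements of order three in the centralizer of `z`. -/

namespace Cfsg.Agent.Lib.HJSyl.ZThree

open Subgroup Cfsg.Agent.Lib.HJSyl.Klein Cfsg.Agent.Lib.HJSyl.Basic Cfsg.Agent.Lib.HJSyl.Setup
  Cfsg.Agent.Lib.HJSyl.Five Cfsg.Agent.Lib.HJOrder.Local
open scoped Pointwise commutatorElement

variable {G : Type*} [Group G] [Finite G]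

theorem card_fix_prime {α : Type*} [Finite α] (p : ℕ) [hp : Fact p.Prime] (f : α → α) (hf : ∀ a, f^[p] a = a) :
    Nat.card α ≡ Nat.card {a // f a = a} [MOD p] := by
  classical
  cases nonempty_fintype α
  let F : Function.End α := f
  have hF : F ^ p ^ 1 = 1 := by
    funext a
    rw [pow_one]
    have : ∀ n : ℕ, ∀ a, (F ^ n) a = f^[n] a := by
      intro n
      induction n with
      | zero => intro a; rfl
      | succ n ih =>
        intro a
        rw [pow_succ]
        change (F ^ n) (F a) = _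
        rw [ih]
        rfl
    rw [this, hf]
    rfl
  have h := Equiv.Perm.card_fixedPoints_modEq hF
  rw [← Nat.card_eq_fintype_card, ← Nat.card_eq_fintype_card] at h
  have h2 : Nat.card (Function.fixedPoints F) = Nat.card {a // f a = a} :=
    Nat.card_congr ⟨fun x => ⟨x.1, x.2⟩, fun x => ⟨x.1, x.2⟩, fun _ => rfl, fun _ => rfl⟩
  rwa [h2] at h

variable {z : G} {Q : Subgroup G}

theorem v_pow3 {v : G} (hv3 : orderOf v = 3) : v ^ 3 = 1 := by
  rw [← hv3]; exact pow_orderOf_eq_one v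

theorem conj3 {v : G} (hv3 : orderOf v = 3) (x : G) : v * (v * (v * x * v⁻¹) * v⁻¹) * v⁻¹ = x := by
  have h : v ^ 3 = 1 := v_pow3 hv3
  have e : v * v * v = 1 := by rw [← h, pow_succ, pow_two]
  calc v * (v * (v * x * v⁻¹) * v⁻¹) * v⁻¹ = (v * v * v) * x * (v * v * v)⁻¹ := by group
    _ = x := by rw [e]; group

/-- A non-central involution of `Q` fixed by `v`. -/
theorem exists_fix (H : HJ z Q) {v : G} (hv3 : orderOf v = 3) (hvz : v * z = z * v) :
    ∃ c ∈ Q, c ^ 2 = 1 ∧ c ≠ 1 ∧ c ≠ z ∧ v * c = c * v := by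
  classical
  haveI : Fact (Nat.Prime 3) := ⟨by norm_num⟩
  have hn := H.n v hvz
  let f : {x : ↥Q // x ^ 2 = 1} → {x : ↥Q // x ^ 2 = 1} := fun x =>
    ⟨⟨v * x.1 * v⁻¹, hn _ x.1.2⟩, by
      apply Subtype.ext
      have h1 : ((x.1 : ↥Q) : G) ^ 2 = 1 := congrArg Subtype.val x.2
      change (v * (x.1 : G) * v⁻¹) ^ 2 = 1
      rw [conj_pow, h1]; group⟩
  have hf3 : ∀ a, f^[3] a = a := by
    intro a
    apply Subtype.ext
    apply Subtype.ext
    exact conj3 hv3 _
  have hmod := card_fix_prime 3 f hf3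
  rw [H.nn] at hmod
  by_contra hno
  push Not at hno
  have hle : Nat.card {a // f a = a} ≤ 2 := by
    have hinj : Function.Injective (fun a : {a // f a = a} => decide (((a.1.1 : ↥Q) : G) = 1)) := by
      intro a b hab
      have key : ∀ a : {a // f a = a}, ((a.1.1 : ↥Q) : G) = 1 ∨ ((a.1.1 : ↥Q) : G) = z := by
        intro a
        by_contra h
        push Not at h
        have h1 : ((a.1.1 : ↥Q) : G) ^ 2 = 1 := congrArg Subtype.val a.1.2
        have h2 : v * ((a.1.1 : ↥Q) : G) * v⁻¹ = ((a.1.1 : ↥Q) : G) := congrArg (fun w : {x : ↥Q // x ^ 2 = 1} => ((w.1 : ↥Q) : G)) a.2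
        apply hno _ a.1.1.2 h1 h.1 h.2
        calc v * ((a.1.1 : ↥Q) : G) = v * ((a.1.1 : ↥Q) : G) * v⁻¹ * v := by group
          _ = _ := by rw [h2]
      apply Subtype.ext
      apply Subtype.ext
      apply Subtype.ext
      have hab' : (((a.1.1 : ↥Q) : G) = 1) ↔ (((b.1.1 : ↥Q) : G) = 1) := by simpa using hab
      rcases key a with ha | ha <;> rcases key b with hb | hb
      · rw [ha, hb]
      · exfalso
        have := hab'.mp ha
        rw [hb] at this
        exact H.q.z_ne this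
      · exfalso
        have := hab'.mpr hb
        rw [ha] at this
        exact H.q.z_ne this
      · rw [ha, hb]
    have := Nat.card_le_card_of_injective _ hinj
    simpa using this
  have hpos : 0 < Nat.card {a // f a = a} := by
    haveI : Nonempty {a // f a = a} := ⟨⟨⟨1, by simp⟩, by
      apply Subtype.ext
      apply Subtype.ext
      change v * 1 * v⁻¹ = 1
      group⟩⟩
    exact Nat.card_pos
  have h3 : Nat.card {a // f a = a} % 3 = 0 := by
    have := hmod.symm
    unfold Nat.ModEq at this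
    omega
  omega

/-- The order of `C_Q(v)`. -/
theorem card_CQ (H : HJ z Q) {v : G} (hv3 : orderOf v = 3) (hvz : v * z = z * v) :
    Nat.card ↥(Q ⊓ centralizer ({v} : Set G)) = 8 := by
  classical
  haveI : Fact (Nat.Prime 3) := ⟨by norm_num⟩
  have hn := H.n v hvz
  let f : ↥Q → ↥Q := fun x => ⟨v * x.1 * v⁻¹, hn _ x.2⟩
  have hf3 : ∀ a, f^[3] a = a := by
    intro a
    apply Subtype.ext
    exact conj3 hv3 _
  have hmod := card_fix_prime 3 f hf3
  rw [H.q.card] at hmod
  set D := Q ⊓ centralizer ({v} : Set G) with hD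
  have hDmem : ∀ x, x ∈ D ↔ x ∈ Q ∧ v * x = x * v := by
    intro x
    rw [hD, mem_inf, mem_centralizer_singleton_iff]
    constructor
    · rintro ⟨h1, h2⟩
      exact ⟨h1, h2.symm⟩
    · rintro ⟨h1, h2⟩
      exact ⟨h1, h2.symm⟩
  have hcardfix : Nat.card {a // f a = a} = Nat.card D := by
    apply Nat.card_congr
    refine ⟨fun x => ⟨x.1.1, (hDmem _).mpr ⟨x.1.2, ?_⟩⟩, fun x => ⟨⟨x.1, ((hDmem _).mp x.2).1⟩, ?_⟩, fun x => rfl, fun x => rfl⟩
    · have h2 : v * (x.1 : G) * v⁻¹ = x.1 := congrArg Subtype.val x.2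
      calc v * (x.1 : G) = v * (x.1 : G) * v⁻¹ * v := by group
        _ = _ := by rw [h2]
    · apply Subtype.ext
      change v * (x.1 : G) * v⁻¹ = x.1
      rw [((hDmem _).mp x.2).2]
      group
  rw [hcardfix] at hmod
  have hdvd : Nat.card D ∣ 32 := by
    rw [← H.q.card]
    exact Subgroup.card_dvd_of_le inf_le_left
  have hdvd' : Nat.card D ∣ 2 ^ 5 := by simpa using hdvd
  obtain ⟨k, hk, hcard⟩ := (Nat.dvd_prime_pow Nat.prime_two).mp hdvd'
  have hm : Nat.card D % 3 = 2 := by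
    have := hmod.symm
    unfold Nat.ModEq at this
    omega
  -- three distinct elements
  obtain ⟨c, hcQ, hc2, hc1, hcz, hcv⟩ := exists_fix H hv3 hvz
  have hge : 3 ≤ Nat.card D := by
    have hzD : z ∈ D := (hDmem _).mpr ⟨H.q.z_mem, hvz⟩
    have hcD : c ∈ D := (hDmem _).mpr ⟨hcQ, hcv⟩
    let S : Finset ↥D := {1, ⟨z, hzD⟩, ⟨c, hcD⟩}
    have hS : S.card = 3 := by
      rw [Finset.card_eq_three]
      refine ⟨1, ⟨z, hzD⟩, ⟨c, hcD⟩, ?_, ?_, ?_, rfl⟩
      · intro e
        exact H.q.z_ne (congrArg Subtype.val e).symm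
      · intro e
        exact hc1 (congrArg Subtype.val e).symm
      · intro e
        exact hcz (congrArg Subtype.val e).symm
    cases nonempty_fintype ↥D
    rw [Nat.card_eq_fintype_card, ← hS]
    exact Finset.card_le_univ S
  have hnot32 : Nat.card D ≠ 32 := by
    intro e
    have hDQ : D = Q := by
      apply Subgroup.eq_of_le_of_card_ge inf_le_left
      rw [e, H.q.card]
    have hall : ∀ x ∈ Q, v * x = x * v := by
      intro x hx
      rw [← hDQ] at hx
      exact ((hDmem _).mp hx).2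
    rcases H.q.cent v hall with e1 | e1
    · rw [e1, orderOf_one] at hv3
      omega
    · have h2 := H.q.z_sq
      rw [← e1] at h2
      have := orderOf_dvd_of_pow_eq_one h2
      rw [hv3] at this
      omega
  interval_cases k
  · rw [hcard] at hge
    norm_num at hge
  · rw [hcard] at hge
    norm_num at hge
  · rw [hcard] at hm
    norm_num at hm
  · exact hcard
  · rw [hcard] at hm
    norm_num at hm
  · exact absurd hcard hnot32

theorem sq_cases (H : HJ z Q) {x : G} (hx : x ∈ Q) : x ^ 4 = 1 := by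
  have hz : z ^ 2 = 1 := H.q.z_sq
  rcases H.q.sq x hx with e | e
  · calc x ^ 4 = (x ^ 2) ^ 2 := by group
      _ = 1 := by rw [e]; group
  · calc x ^ 4 = (x ^ 2) ^ 2 := by group
      _ = 1 := by rw [e, hz]

/-- `C_Q(v)` is non-abelian. -/
theorem exists_noncomm (H : HJ z Q) {v : G} (hv3 : orderOf v = 3) (hvz : v * z = z * v) :
    ∃ c ∈ Q, ∃ n ∈ Q, v * c = c * v ∧ v * n = n * v ∧ c * n ≠ n * c := by
  obtain ⟨c, hcQ, hc2, hc1, hcz, hcv⟩ := exists_fix H hv3 hvz
  have hzc : ∀ x ∈ Q, x * z = z * x := H.q.central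
  have hn := H.n v hvz
  -- a non-commuting element
  obtain ⟨w, hwQ, hw⟩ : ∃ w ∈ Q, c * w ≠ w * c := by
    by_contra hall
    push Not at hall
    rcases H.q.cent c hall with e | e
    · exact hc1 e
    · exact hcz e
  have hcw : c * w * c⁻¹ = z * w := by
    rcases H.q.comm c hcQ w hwQ with e | e
    · exfalso
      apply hw
      have e' : c * w * c⁻¹ * w⁻¹ = 1 := e
      calc c * w = (c * w * c⁻¹ * w⁻¹) * (w * c) := by group
        _ = w * c := by rw [e']; group
    · have e' : c * w * c⁻¹ * w⁻¹ = z := e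
      rw [← e']; group
  set w1 := v * w * v⁻¹ with hw1
  set w2 := v * w1 * v⁻¹ with hw2
  have hw1Q : w1 ∈ Q := hn w hwQ
  have hw2Q : w2 ∈ Q := hn w1 hw1Q
  have hw3 : v * w2 * v⁻¹ = w := conj3 hv3 w
  have hvc : v⁻¹ * c * v = c := by
    have : v * c * v⁻¹ = c := by rw [hcv]; group
    calc v⁻¹ * c * v = v⁻¹ * (v * c * v⁻¹) * v := by rw [this]
      _ = c := by group
  have hcvc : ∀ x : G, c * (v * x * v⁻¹) * c⁻¹ = v * (c * x * c⁻¹) * v⁻¹ := by
    intro x
    have h1 : c * v = v * c := hcv.symm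
    calc c * (v * x * v⁻¹) * c⁻¹ = (c * v) * x * (c * v)⁻¹ := by group
      _ = (v * c) * x * (v * c)⁻¹ := by rw [h1]
      _ = _ := by group
  have hvzz : v * z * v⁻¹ = z := by rw [hvz]; group
  have hcw1 : c * w1 * c⁻¹ = z * w1 := by
    rw [hw1, hcvc, hcw]
    calc v * (z * w) * v⁻¹ = (v * z * v⁻¹) * (v * w * v⁻¹) := by group
      _ = _ := by rw [hvzz]
  have hcw2 : c * w2 * c⁻¹ = z * w2 := by
    rw [hw2, hcvc, hcw1]
    calc v * (z * w1) * v⁻¹ = (v * z * v⁻¹) * (v * w1 * v⁻¹) := by group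
      _ = _ := by rw [hvzz]
  set n := w * w1 * w2 with hndef
  have hnQ : n ∈ Q := Q.mul_mem (Q.mul_mem hwQ hw1Q) hw2Q
  have hzz : z * z = 1 := by rw [← sq]; exact H.q.z_sq
  have hcomm_w1 : w1 * z = z * w1 := hzc w1 hw1Q
  have hcomm_w : w * z = z * w := hzc w hwQ
  have hcn : c * n * c⁻¹ = z * n := by
    calc c * n * c⁻¹ = (c * w * c⁻¹) * (c * w1 * c⁻¹) * (c * w2 * c⁻¹) := by rw [hndef]; group
      _ = (z * w) * (z * w1) * (z * w2) := by rw [hcw, hcw1, hcw2]
      _ = z * (w * z) * (w1 * z) * w2 := by group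
      _ = z * (z * w) * (z * w1) * w2 := by rw [hcomm_w, hcomm_w1]
      _ = (z * z) * w * z * w1 * w2 := by group
      _ = w * z * w1 * w2 := by rw [hzz]; group
      _ = z * w * w1 * w2 := by rw [hcomm_w]
      _ = z * n := by rw [hndef]; group
  have hvn : v * n * v⁻¹ = n ∨ v * n * v⁻¹ = z * n := by
    have h1 : v * n * v⁻¹ = w⁻¹ * n * w := by
      calc v * n * v⁻¹ = (v * w * v⁻¹) * (v * w1 * v⁻¹) * (v * w2 * v⁻¹) := by rw [hndef]; group
        _ = w1 * w2 * w := by rw [hw3]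
        _ = w⁻¹ * n * w := by rw [hndef]; group
    rcases H.q.comm w⁻¹ (Q.inv_mem hwQ) n hnQ with e | e
    · left
      have e' : w⁻¹ * n * w⁻¹⁻¹ * n⁻¹ = 1 := e
      rw [h1]
      calc w⁻¹ * n * w = (w⁻¹ * n * w⁻¹⁻¹ * n⁻¹) * n := by group
        _ = n := by rw [e']; group
    · right
      have e' : w⁻¹ * n * w⁻¹⁻¹ * n⁻¹ = z := e
      rw [h1, ← e']
      group
  have hvn' : v * n * v⁻¹ = n := by
    rcases hvn with e | e
    · exact e
    · exfalso
      have h1 : v * (v * n * v⁻¹) * v⁻¹ = n := by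
        rw [e]
        calc v * (z * n) * v⁻¹ = (v * z * v⁻¹) * (v * n * v⁻¹) := by group
          _ = z * (z * n) := by rw [hvzz, e]
          _ = n := by rw [← mul_assoc, hzz, one_mul]
      have h2 : v * (v * (v * n * v⁻¹) * v⁻¹) * v⁻¹ = n := conj3 hv3 n
      rw [h1, e] at h2
      apply H.q.z_ne
      exact mul_right_cancel (by rw [h2, one_mul] : z * n = 1 * n)
  refine ⟨c, hcQ, n, hnQ, hcv, ?_, ?_⟩
  · calc v * n = v * n * v⁻¹ * v := by group
      _ = n * v := by rw [hvn']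
  · intro e
    have h1 : c * n * c⁻¹ = n := by rw [e]; group
    rw [h1] at hcn
    apply H.q.z_ne
    exact mul_right_cancel (by rw [← hcn, one_mul] : z * n = 1 * n)

/-- Conjugation inside a subgroup of index two. -/
theorem conj_mem_of_index_two {K : Type*} [Group K] [Finite K] (D R : Subgroup K) (hDR : D ≤ R)
    (hc : Nat.card R = 2 * Nat.card D) {r x : K} (hr : r ∈ R) (hx : x ∈ D) : r * x * r⁻¹ ∈ D := by
  have hidx : (D.subgroupOf R).index = 2 := by
    have h1 := Subgroup.index_mul_card (D.subgroupOf R)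
    have h2 : Nat.card (D.subgroupOf R) = Nat.card D := by
      exact Nat.card_congr (Subgroup.subgroupOfEquivOfLe hDR).toEquiv
    rw [h2, hc] at h1
    have h3 : 0 < Nat.card D := Nat.card_pos
    nlinarith
  haveI : (D.subgroupOf R).Normal := Subgroup.normal_of_index_eq_two hidx
  have := (‹(D.subgroupOf R).Normal›).conj_mem ⟨x, hDR hx⟩ (by rw [mem_subgroupOf]; exact hx) ⟨r, hr⟩
  rw [mem_subgroupOf] at this
  exact this

/-- The `2`-part of the centralizer of `v`. -/
theorem no16 (H : HJ z Q) {v : G} (hv3 : orderOf v = 3) (hvz : v * z = z * v) :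
    ¬ 16 ∣ Nat.card (centralizer ({v} : Set G)) := by
  classical
  intro h16
  haveI : Fact (Nat.Prime 2) := ⟨Nat.prime_two⟩
  set Cv := centralizer ({v} : Set G) with hCv
  set D := Q ⊓ Cv with hD
  have hDcard : Nat.card D = 8 := card_CQ H hv3 hvz
  have hDCv : D ≤ Cv := inf_le_right
  have hD' : Nat.card (D.subgroupOf Cv) = 2 ^ 3 := by
    rw [Nat.card_congr (Subgroup.subgroupOfEquivOfLe hDCv).toEquiv, hDcard]; norm_num
  obtain ⟨K, hK, hDK⟩ := Sylow.exists_subgroup_card_pow_prime_le 2 (m := 4) (n := 3) (by simpa using h16) _ hD' (by norm_num)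
  -- an element of `K` outside `D`
  have hmemD : ∀ g : Cv, g ∈ D.subgroupOf Cv ↔ (g : G) ∈ Q := by
    intro g
    rw [mem_subgroupOf, hD, mem_inf]
    exact ⟨fun h => h.1, fun h => ⟨h, g.2⟩⟩
  obtain ⟨r, hrK, hrD⟩ : ∃ r ∈ K, r ∉ D.subgroupOf Cv := by
    by_contra hall
    push Not at hall
    have : K ≤ D.subgroupOf Cv := fun x hx => hall x hx
    have h1 := Nat.le_of_dvd Nat.card_pos (Subgroup.card_dvd_of_le this)
    rw [hK, hD'] at h1
    norm_num at h1
  obtain ⟨c, hcQ, n, hnQ, hcv, hnv, hcn⟩ := exists_noncomm H hv3 hvz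
  have hcD : c ∈ D := mem_inf.mpr ⟨hcQ, mem_centralizer_singleton_iff.mpr hcv.symm⟩
  have hnD : n ∈ D := mem_inf.mpr ⟨hnQ, mem_centralizer_singleton_iff.mpr hnv.symm⟩
  have hcCv : c ∈ Cv := hDCv hcD
  have hnCv : n ∈ Cv := hDCv hnD
  have hconj : ∀ x (hx : x ∈ D), (r : G) * x * (r : G)⁻¹ ∈ D := by
    intro x hx
    have hi := conj_mem_of_index_two (D.subgroupOf Cv) K hDK (by rw [hK, hD']; norm_num) (r := r) (x := ⟨x, hDCv hx⟩) hrK
      (by rw [mem_subgroupOf]; exact hx)
    rw [mem_subgroupOf] at hi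
    exact hi
  -- `r` centralizes `z`
  have hrz : (r : G) * z = z * (r : G) := by
    have h1 : ⁅c, n⁆ = z := by
      rcases H.q.comm c hcQ n hnQ with e | e
      · exfalso
        apply hcn
        have e' : c * n * c⁻¹ * n⁻¹ = 1 := e
        calc c * n = (c * n * c⁻¹ * n⁻¹) * (n * c) := by group
          _ = n * c := by rw [e']; group
      · exact e
    have h2 : (r : G) * ⁅c, n⁆ * (r : G)⁻¹ = ⁅(r : G) * c * (r : G)⁻¹, (r : G) * n * (r : G)⁻¹⁆ := by
      simp only [commutatorElement_def]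
      group
    rcases H.q.comm _ (mem_inf.mp (hconj c hcD)).1 _ (mem_inf.mp (hconj n hnD)).1 with e | e
    · exfalso
      rw [← h2, h1] at e
      apply H.q.z_ne
      have : z = (r : G)⁻¹ * ((r : G) * z * (r : G)⁻¹) * r := by group
      rw [this, e]; group
    · rw [← h2, h1] at e
      calc (r : G) * z = ((r : G) * z * (r : G)⁻¹) * r := by group
        _ = z * r := by rw [e]
  have hrv : (r : G) * v = v * r := mem_centralizer_singleton_iff.mp r.2
  obtain ⟨i, q, hq, e⟩ := H.c3 v r hv3 hvz hrz hrv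
  have hv31 : v ^ 3 = 1 := v_pow3 hv3
  -- `q` commutes with `v`
  have hqv : Commute q v := by
    have h1 : q = (v ^ i)⁻¹ * r := by rw [e]; group
    have h2 : Commute (v ^ i) v := (Commute.refl v).pow_left i
    have h3 : Commute ((v ^ i)⁻¹) v := h2.inv_left
    rw [h1]
    exact h3.mul_left hrv
  have hr16 : (r : G) ^ 16 = 1 := by
    have h1 : orderOf (⟨r, hrK⟩ : K) ∣ Nat.card K := orderOf_dvd_natCard _
    have h2 : (⟨r, hrK⟩ : K) ^ Nat.card K = 1 := by
      rw [← orderOf_dvd_iff_pow_eq_one]; exact h1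
    rw [hK] at h2
    have h3 : (r : Cv) ^ 2 ^ 4 = 1 := congrArg Subtype.val h2
    have h4 : ((r : G)) ^ 2 ^ 4 = 1 := congrArg Subtype.val h3
    simpa using h4
  have hq16 : q ^ 16 = 1 := by
    calc q ^ 16 = (q ^ 4) ^ 4 := by group
      _ = 1 := by rw [sq_cases H hq]; group
  have hvi : v ^ i = 1 := by
    have h1 : (v ^ i) ^ 16 = 1 := by
      have h2 : Commute (v ^ i) q := ((hqv.symm).pow_left i)
      have h3 := h2.mul_pow 16
      rw [← e, hr16, hq16, mul_one] at h3
      exact h3.symm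
    have h2 : (v ^ i) ^ 3 = 1 := by
      rw [← pow_mul, mul_comm, pow_mul, hv31, one_pow]
    have h3 : Nat.gcd 16 3 = 1 := by norm_num
    have := (pow_gcd_eq_one).mpr ⟨h1, h2⟩
    rwa [h3, pow_one] at this
  rw [hvi, one_mul] at e
  apply hrD
  rw [hmemD, e]
  exact hq

/-- Order of `C(v) ∩ C(z)`. -/
theorem card_inf_le (H : HJ z Q) {v : G} (hv3 : orderOf v = 3) (hvz : v * z = z * v) :
    Nat.card ↥(centralizer ({v} : Set G) ⊓ centralizer ({z} : Set G)) ≤ 24 := by
  classical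
  set D := Q ⊓ centralizer ({v} : Set G) with hD
  have hDcard : Nat.card D = 8 := card_CQ H hv3 hvz
  have hmemzv : ∀ a ∈ zpowers v, a * v = v * a ∧ a * z = z * a := by
    intro a ha
    obtain ⟨k, rfl⟩ := mem_zpowers_iff.mp ha
    have h1 : Commute v z := hvz
    exact ⟨((Commute.refl v).zpow_left k).eq, (h1.zpow_left k).eq⟩
  have hmemD : ∀ b ∈ D, b * v = v * b ∧ b * z = z * b := by
    intro b hb
    obtain ⟨h1, h2⟩ := mem_inf.mp hb
    exact ⟨mem_centralizer_singleton_iff.mp h2, H.q.central b h1⟩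
  let f : ↥(zpowers v) × ↥D → ↥(centralizer ({v} : Set G) ⊓ centralizer ({z} : Set G)) := fun p =>
    ⟨p.1.1 * p.2.1, mem_inf.mpr ⟨mem_centralizer_singleton_iff.mpr (by
        have h1 := hmemzv _ p.1.2
        have h2 := hmemD _ p.2.2
        exact (show Commute (p.1.1 * p.2.1) v from Commute.mul_left h1.1 h2.1)), mem_centralizer_singleton_iff.mpr (by
        have h1 := hmemzv _ p.1.2
        have h2 := hmemD _ p.2.2
        exact (show Commute (p.1.1 * p.2.1) z from Commute.mul_left h1.2 h2.2))⟩⟩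
  have hf : Function.Surjective f := by
    rintro ⟨g, hg⟩
    obtain ⟨h1, h2⟩ := mem_inf.mp hg
    have h1' := mem_centralizer_singleton_iff.mp h1
    have h2' := mem_centralizer_singleton_iff.mp h2
    obtain ⟨i, q, hq, e⟩ := H.c3 v g hv3 hvz h2' h1'
    have hqv : q * v = v * q := by
      have h3 : q = (v ^ i)⁻¹ * g := by rw [e]; group
      have h4 : Commute (v ^ i) v := (Commute.refl v).pow_left i
      have h5 : Commute ((v ^ i)⁻¹) v := h4.inv_left
      rw [h3]
      exact (h5.mul_left (show Commute g v from h1'))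
    refine ⟨(⟨v ^ i, pow_mem (mem_zpowers v) i⟩, ⟨q, mem_inf.mpr ⟨hq, mem_centralizer_singleton_iff.mpr hqv⟩⟩), ?_⟩
    apply Subtype.ext
    exact e.symm
  have := Nat.card_le_card_of_surjective f hf
  rw [Nat.card_prod, Nat.card_zpowers, hv3, hDcard] at this
  simpa using this

/-- Not all conjugates of `z` commute with `v`. -/
theorem exists_conj_not_comm (H : HJ z Q) {v : G} (hv3 : orderOf v = 3) (hvz : v * z = z * v) :
    ∃ g : G, (g * z * g⁻¹) * v ≠ v * (g * z * g⁻¹) := by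
  classical
  by_contra hall
  push Not at hall
  haveI : Fact (Nat.Prime 5) := ⟨by norm_num⟩
  obtain ⟨g₀, hg₀Q, hg₀ne⟩ := H.nwc
  have h5dvd : 5 ∣ Nat.card (centralizer ({z} : Set G)) := by rw [H.cardC]; norm_num
  obtain ⟨σ', hσ'⟩ := exists_prime_orderOf_dvd_card' (G := centralizer ({z} : Set G)) 5 h5dvd
  set σ : G := σ'.1 with hσdef
  have hσ5 : orderOf σ = 5 := by rw [hσdef, Subgroup.orderOf_coe]; exact hσ'
  have hσz : σ * z = z * σ := mem_centralizer_singleton_iff.mp σ'.2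
  have hσ51 : σ ^ 5 = 1 := by rw [← hσ5]; exact pow_orderOf_eq_one σ
  -- the subgroup `M`
  set M : Subgroup G := Q ⊓ centralizer (Set.range fun h : G => h * v * h⁻¹) with hM
  have hMmem : ∀ x, x ∈ M ↔ x ∈ Q ∧ ∀ h : G, x * (h * v * h⁻¹) = (h * v * h⁻¹) * x := by
    intro x
    rw [hM, mem_inf, mem_centralizer_iff]
    constructor
    · rintro ⟨h1, h2⟩
      exact ⟨h1, fun h => (h2 _ ⟨h, rfl⟩).symm⟩
    · rintro ⟨h1, h2⟩
      refine ⟨h1, ?_⟩
      rintro _ ⟨h, rfl⟩
      exact (h2 h).symm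
  have hconjM : ∀ g : G, g * z * g⁻¹ ∈ Q → g * z * g⁻¹ ∈ M := by
    intro g hg
    refine (hMmem _).mpr ⟨hg, fun h => ?_⟩
    have h1 := hall (h⁻¹ * g)
    have h2 : (h⁻¹ * g) * z * (h⁻¹ * g)⁻¹ = h⁻¹ * (g * z * g⁻¹) * h := by group
    rw [h2] at h1
    calc g * z * g⁻¹ * (h * v * h⁻¹) = h * (h⁻¹ * (g * z * g⁻¹) * h * v) * h⁻¹ := by group
      _ = h * (v * (h⁻¹ * (g * z * g⁻¹) * h)) * h⁻¹ := by rw [h1]
      _ = _ := by group
  have hzM : z ∈ M := by
    have := hconjM 1 (by simpa using H.q.z_mem)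
    simpa using this
  have hz₁M : g₀ * z * g₀⁻¹ ∈ M := hconjM g₀ hg₀Q
  have hτ : ∀ x (hx : x ∈ M), σ * x * σ⁻¹ ∈ M := by
    intro x hx
    obtain ⟨h1, h2⟩ := (hMmem _).mp hx
    refine (hMmem _).mpr ⟨H.n σ hσz x h1, fun h => ?_⟩
    have h3 := h2 (σ⁻¹ * h)
    have h4 : (σ⁻¹ * h) * v * (σ⁻¹ * h)⁻¹ = σ⁻¹ * (h * v * h⁻¹) * σ := by group
    rw [h4] at h3
    calc σ * x * σ⁻¹ * (h * v * h⁻¹) = σ * (x * (σ⁻¹ * (h * v * h⁻¹) * σ)) * σ⁻¹ := by group
      _ = σ * ((σ⁻¹ * (h * v * h⁻¹) * σ) * x) * σ⁻¹ := by rw [h3]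
      _ = _ := by group
  let f : ↥M → ↥M := fun x => ⟨σ * x.1 * σ⁻¹, hτ _ x.2⟩
  have hf5 : ∀ a, f^[5] a = a := by
    intro a
    apply Subtype.ext
    have e5 : σ * σ * σ * σ * σ = 1 := by rw [← hσ51]; simp only [pow_succ, pow_zero, one_mul]
    change σ * (σ * (σ * (σ * (σ * (a : G) * σ⁻¹) * σ⁻¹) * σ⁻¹) * σ⁻¹) * σ⁻¹ = a
    calc σ * (σ * (σ * (σ * (σ * (a : G) * σ⁻¹) * σ⁻¹) * σ⁻¹) * σ⁻¹) * σ⁻¹ = (σ * σ * σ * σ * σ) * (a : G) * (σ * σ * σ * σ * σ)⁻¹ := by group
      _ = a := by rw [e5]; group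
  have hmod := card_fix_prime 5 f hf5
  -- fixed points
  have hfix : ∀ a : {a // f a = a}, (a.1 : G) = 1 ∨ (a.1 : G) = z := by
    rintro ⟨⟨x, hx⟩, hfx⟩
    have hxQ := ((hMmem _).mp hx).1
    have h1 : σ * x * σ⁻¹ = x := congrArg Subtype.val hfx
    have h2 : x * σ = σ * x := by
      calc x * σ = σ * x * σ⁻¹ * σ := by rw [h1]
        _ = σ * x := by group
    have h3 : x * z = z * x := H.q.central x hxQ
    obtain ⟨i, hi⟩ := z5 H hσ5 hσz h3 h2
    have hpow : ∀ y : G, y ^ 4 = 1 → y ^ 5 = 1 → y = 1 := by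
      intro y h4 h5
      have : y ^ 5 = y ^ 4 * y := by rw [pow_succ]
      rw [h4, one_mul, h5] at this
      exact this.symm
    have h5 : (σ ^ i) ^ 5 = 1 := by rw [← pow_mul, mul_comm, pow_mul, hσ51, one_pow]
    rcases hi with e | e
    · left
      change x = 1
      rw [e]
      exact hpow _ (by rw [← e]; exact sq_cases H hxQ) h5
    · right
      have h6 : σ ^ i = x * z := by
        have hzz : z * z = 1 := by rw [← sq]; exact H.q.z_sq
        rw [e, mul_assoc, hzz, mul_one]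
      have h7 : σ ^ i = 1 := hpow _ (by rw [h6]; exact sq_cases H (Q.mul_mem hxQ H.q.z_mem)) h5
      change x = z
      rw [e, h7, one_mul]
  have hfixcard : Nat.card {a // f a = a} = 2 := by
    rw [Nat.card_eq_two_iff]
    refine ⟨⟨1, ?_⟩, ⟨⟨z, hzM⟩, ?_⟩, ?_, ?_⟩
    · apply Subtype.ext
      change σ * 1 * σ⁻¹ = 1
      group
    · apply Subtype.ext
      change σ * z * σ⁻¹ = z
      rw [hσz]; group
    · intro e
      have : (1 : G) = z := congrArg (fun a : {a // f a = a} => (a.1 : G)) e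
      exact H.q.z_ne this.symm
    · rw [Set.eq_univ_iff_forall]
      intro a
      simp only [Set.mem_insert_iff, Set.mem_singleton_iff]
      rcases hfix a with e | e
      · left
        apply Subtype.ext
        apply Subtype.ext
        exact e
      · right
        apply Subtype.ext
        apply Subtype.ext
        exact e
  rw [hfixcard] at hmod
  -- the size of `M`
  have hMD : M ≤ Q ⊓ centralizer ({v} : Set G) := by
    intro x hx
    obtain ⟨h1, h2⟩ := (hMmem _).mp hx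
    refine mem_inf.mpr ⟨h1, mem_centralizer_singleton_iff.mpr ?_⟩
    have := h2 1
    simpa using this
  have hdvd : Nat.card M ∣ 8 := by
    rw [← card_CQ H hv3 hvz]
    exact Subgroup.card_dvd_of_le hMD
  have hge : 3 ≤ Nat.card M := by
    let S : Finset ↥M := {1, ⟨z, hzM⟩, ⟨g₀ * z * g₀⁻¹, hz₁M⟩}
    have hS : S.card = 3 := by
      rw [Finset.card_eq_three]
      refine ⟨1, ⟨z, hzM⟩, ⟨g₀ * z * g₀⁻¹, hz₁M⟩, ?_, ?_, ?_, rfl⟩
      · intro e
        exact H.q.z_ne (congrArg Subtype.val e).symm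
      · intro e
        apply H.q.z_ne
        have h1 : (1 : G) = g₀ * z * g₀⁻¹ := congrArg Subtype.val e
        have : z = g₀⁻¹ * (g₀ * z * g₀⁻¹) * g₀ := by group
        rw [this, ← h1]; group
      · intro e
        exact hg₀ne (congrArg Subtype.val e).symm
    cases nonempty_fintype ↥M
    rw [Nat.card_eq_fintype_card, ← hS]
    exact Finset.card_le_univ S
  have hle := Nat.le_of_dvd (by norm_num) hdvd
  have hm : Nat.card M % 5 = 2 := hmod
  interval_cases (Nat.card M) <;> omega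

/-- The bound from the action on the class of `z`. -/
theorem le7536 (H : HJ z Q) {v : G} (hv3 : orderOf v = 3) (hvz : v * z = z * v) :
    Nat.card (centralizer ({v} : Set G)) ≤ 7536 := by
  classical
  obtain ⟨g₁, hg₁⟩ := exists_conj_not_comm H hv3 hvz
  have h1 := card_orbit_elt (centralizer ({v} : Set G)) z
  have h2 := card_orbit_elt (⊤ : Subgroup G) z
  rw [top_inf_eq, H.cardC] at h2
  have hG : Nat.card (⊤ : Subgroup G) = 604800 := by rw [Subgroup.card_top, H.card]
  rw [hG] at h2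
  have h3 := card_inf_le H hv3 hvz
  have hsub : (Set.range fun t : centralizer ({v} : Set G) => (t : G) * z * (t : G)⁻¹) ⊂
      (Set.range fun t : (⊤ : Subgroup G) => (t : G) * z * (t : G)⁻¹) := by
    refine ⟨?_, ?_⟩
    · rintro _ ⟨t, rfl⟩
      exact ⟨⟨t, mem_top _⟩, rfl⟩
    · intro hs
      have h4 : g₁ * z * g₁⁻¹ ∈ (Set.range fun t : centralizer ({v} : Set G) => (t : G) * z * (t : G)⁻¹) :=
        hs ⟨⟨g₁, mem_top _⟩, rfl⟩
      obtain ⟨t, ht⟩ := h4
      apply hg₁
      have ht' : (t : G) * z * (t : G)⁻¹ = g₁ * z * g₁⁻¹ := ht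
      rw [← ht']
      have htv : (t : G) * v = v * t := mem_centralizer_singleton_iff.mp t.2
      have htv' : (t : G)⁻¹ * v = v * (t : G)⁻¹ := by
        calc (t : G)⁻¹ * v = (t : G)⁻¹ * (v * t) * (t : G)⁻¹ := by group
          _ = (t : G)⁻¹ * (t * v) * (t : G)⁻¹ := by rw [htv]
          _ = _ := by group
      calc (t : G) * z * (t : G)⁻¹ * v = (t : G) * z * ((t : G)⁻¹ * v) := by group
        _ = (t : G) * z * (v * (t : G)⁻¹) := by rw [htv']
        _ = (t : G) * (z * v) * (t : G)⁻¹ := by group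
        _ = (t : G) * (v * z) * (t : G)⁻¹ := by rw [hvz]
        _ = ((t : G) * v) * z * (t : G)⁻¹ := by group
        _ = (v * t) * z * (t : G)⁻¹ := by rw [htv]
        _ = _ := by group
  have hlt : Nat.card (Set.range fun t : centralizer ({v} : Set G) => (t : G) * z * (t : G)⁻¹) <
      Nat.card (Set.range fun t : (⊤ : Subgroup G) => (t : G) * z * (t : G)⁻¹) := by
    rw [Nat.card_coe_set_eq, Nat.card_coe_set_eq]
    exact Set.ncard_lt_ncard hsub (Set.toFinite _)
  rw [← h1]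
  have h5 : Nat.card (Set.range fun t : (⊤ : Subgroup G) => (t : G) * z * (t : G)⁻¹) = 315 := by omega
  rw [h5] at hlt
  calc _ ≤ 314 * 24 := Nat.mul_le_mul (by omega) h3
    _ = 7536 := by norm_num

end Cfsg.Agent.Lib.HJSyl.ZThree
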